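import Mathlib
import Cfsg.Agent.Lib.Helper21.Basic

set_option autoImplicit false

namespace Cfsg.Agent.Lib.Helper21

/-- an automorphism of order prime to `p` of an abelian `p`-group fixing `Ω₁` pointwise is trivial -/
theorem aut_eq_one_of_fix_omega {P : Type*} [CommGroup P] {p q : ℕ} [hp : Fact p.Prime]
    [hq : Fact q.Prime] (hP : IsPGroup p P) (hpq : q ≠ p) (α : MulAut P) (hα : α ^ q = 1)
    (hfix : ∀ x : P, x ^ p = 1 → α x = x) : α = 1 := by
  have key : ∀ (i : ℕ) (x : P), x ^ (p ^ i) = 1 → α x = x := by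
    intro i
    induction i with
    | zero =>
      intro x hx
      rw [pow_zero, pow_one] at hx
      rw [hx, map_one]
    | succ i ih =>
      intro x hx
      have h1 : α (x ^ p) = x ^ p := by
        apply ih
        rw [← pow_mul, ← pow_succ']
        exact hx
      set z := x⁻¹ * α x with hz
      have hzp : z ^ p = 1 := by
        rw [hz, mul_pow, ← map_pow, h1, inv_pow, inv_mul_cancel]
      have hαz : α z = z := hfix z hzp
      have hαx : α x = x * z := by rw [hz]; group
      have hpow : ∀ j : ℕ, (α ^ j) x = x * z ^ j := by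
        intro j
        induction j with
        | zero => simp
        | succ j ihj =>
          rw [pow_succ', MulAut.mul_apply, ihj, map_mul, map_pow, hαz, hαx, pow_succ']
          group
      have h2 := hpow q
      rw [hα, MulAut.one_apply] at h2
      have hzq : z ^ q = 1 := by
        have : x * 1 = x * z ^ q := by rw [mul_one]; exact h2
        exact (mul_left_cancel this).symm
      have hz1 : z = 1 := by
        have d1 := orderOf_dvd_of_pow_eq_one hzp
        have d2 := orderOf_dvd_of_pow_eq_one hzq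
        have hc : Nat.Coprime p q := (Nat.coprime_primes hp.out hq.out).mpr hpq.symm
        exact orderOf_eq_one_iff.mp (Nat.eq_one_of_dvd_coprimes hc d1 d2)
      rw [hαx, hz1, mul_one]
  ext x
  obtain ⟨i, hi⟩ := hP x
  exact key i x hi

theorem card_ker_pow_dvd {P : Type*} [CommGroup P] [Finite P] (p : ℕ) :
    Nat.card (powMonoidHom p : P →* P).ker ∣ p ^ Group.rank P := by
  set f := (powMonoidHom p : P →* P) with hf
  have h1 : Nat.card f.ker * Nat.card f.range = Nat.card P := by
    rw [← Subgroup.index_ker]; exact f.ker.card_mul_index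
  have h2 : Nat.card f.range * f.range.index = Nat.card P := f.range.card_mul_index
  have h3 : Nat.card f.ker = f.range.index := by
    apply Nat.eq_of_mul_eq_mul_right (Nat.card_pos (α := f.range))
    rw [h1, ← h2, mul_comm]
  rw [h3, Subgroup.index_eq_card]
  have h4 := card_dvd_exponent_pow_rank (P ⧸ f.range)
  have h5 : Monoid.exponent (P ⧸ f.range) ∣ p := by
    apply Monoid.exponent_dvd_of_forall_pow_eq_one
    intro g
    obtain ⟨x, rfl⟩ := QuotientGroup.mk_surjective g
    rw [← QuotientGroup.mk_pow, QuotientGroup.eq_one_iff]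
    exact ⟨x, rfl⟩
  have h6 : Group.rank (P ⧸ f.range) ≤ Group.rank P :=
    Group.rank_le_of_surjective (QuotientGroup.mk' f.range) (QuotientGroup.mk'_surjective _)
  exact h4.trans ((pow_dvd_pow_of_dvd h5 _).trans (pow_dvd_pow p h6))

theorem exists_dvd_pow_sub_one_of_aut {P : Type*} [CommGroup P] [Finite P] {p q : ℕ}
    [hp : Fact p.Prime] [hq : Fact q.Prime] (hP : IsPGroup p P) (hpq : q ≠ p) (α : MulAut P)
    (hα : orderOf α = q) : ∃ i, 1 ≤ i ∧ i ≤ Group.rank P ∧ q ∣ p ^ i - 1 := by
  set V : Subgroup P := (powMonoidHom p : P →* P).ker with hV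
  have hVmem : ∀ x : P, x ∈ V ↔ x ^ p = 1 := fun x => Iff.rfl
  set W : Subgroup P := V ⊓ (α.toMonoidHom).eqLocus (MonoidHom.id P) with hW
  have hWmem : ∀ x : P, x ∈ W ↔ x ^ p = 1 ∧ α x = x := fun x => Iff.rfl
  have hWV : W ≤ V := inf_le_left
  have hne : W ≠ V := by
    intro h
    have : α = 1 := by
      apply aut_eq_one_of_fix_omega hP hpq α (by rw [← hα, pow_orderOf_eq_one])
      intro x hx
      have : x ∈ W := h ▸ (hVmem x).mpr hx
      exact ((hWmem x).mp this).2
    rw [this, orderOf_one] at hα
    exact hq.out.one_lt.ne hα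
  set Z := Subgroup.zpowers α with hZ
  have hZq : IsPGroup q Z := isPGroup_zpowers (k := 1) (by rw [hα, pow_one])
  let Y : SubMulAction Z P :=
    { carrier := (V : Set P)
      smul_mem' := by
        intro s x hx
        show ((s : MulAut P) x) ^ p = 1
        rw [← map_pow, (hVmem x).mp hx, map_one] }
  haveI : Finite Y := Finite.of_equiv V (Equiv.refl _)
  have h1 := hZq.card_modEq_card_fixedPoints Y
  have hYV : Nat.card Y = Nat.card V := rfl
  have hfixW : Nat.card (MulAction.fixedPoints Z Y) = Nat.card W := by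
    apply Nat.card_congr
    refine ⟨fun y => ⟨y.1.1, y.1.2, ?_⟩, fun w => ⟨⟨w.1, w.2.1⟩, ?_⟩, ?_, ?_⟩
    · have := y.2 ⟨α, Subgroup.mem_zpowers α⟩
      exact congrArg Subtype.val this
    · intro s
      apply Subtype.ext
      have hle : Z ≤ MulAction.stabilizer (MulAut P) (w : P) := by
        rw [hZ, Subgroup.zpowers_le]
        exact w.2.2
      exact hle s.2
    · intro y; rfl
    · intro w; rfl
  rw [hYV, hfixW] at h1
  obtain ⟨e, he⟩ := (hP.to_subgroup V).exists_card_eq
  obtain ⟨f, hf⟩ := (hP.to_subgroup W).exists_card_eq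
  have hfe : f < e := by
    have hd : p ^ f ∣ p ^ e := by rw [← he, ← hf]; exact Subgroup.card_dvd_of_le hWV
    have hle : f ≤ e := (Nat.pow_dvd_pow_iff_le_right hp.out.one_lt).mp hd
    rcases Nat.lt_or_ge f e with h | h
    · exact h
    · exfalso
      apply hne
      apply Subgroup.eq_of_le_of_card_ge hWV
      rw [he, hf, le_antisymm hle h]
  rw [he, hf] at h1
  have hle : p ^ f ≤ p ^ e := Nat.pow_le_pow_right hp.out.pos hfe.le
  have hd : q ∣ p ^ e - p ^ f := (Nat.modEq_iff_dvd' hle).mp h1.symm
  have hfac : p ^ e - p ^ f = p ^ f * (p ^ (e - f) - 1) := by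
    rw [Nat.mul_sub, mul_one, ← pow_add]
    congr 2
    omega
  rw [hfac] at hd
  have hc : Nat.Coprime q (p ^ f) :=
    Nat.Coprime.pow_right f ((Nat.coprime_primes hq.out hp.out).mpr hpq)
  refine ⟨e - f, by omega, ?_, hc.dvd_of_dvd_mul_left hd⟩
  have h2 := card_ker_pow_dvd (P := P) p
  rw [← hV, he] at h2
  have := (Nat.pow_dvd_pow_iff_le_right hp.out.one_lt).mp h2
  omega

end Cfsg.Agent.Lib.Helper21
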