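import Mathlib
import Cfsg.Prelude.Def_KGroupFacts

set_option autoImplicit false

namespace Cfsg.Agent.Lib.Helper21

open scoped commutatorElement

universe u v

/-- The central extension of the abelian group `Q` by `C` defined by a biadditive cocycle `β`. -/
@[ext] structure BilinExt {Q : Type u} {C : Type v} [AddCommGroup Q] [AddCommGroup C] (β : Q →+ Q →+ C) :
    Type (max u v) where
  /-- quotient coordinate -/
  q : Q
  /-- central coordinate -/
  c : C

namespace BilinExt

variable {Q : Type u} {C : Type v} [AddCommGroup Q] [AddCommGroup C] (β : Q →+ Q →+ C)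

instance instMulBilinExt : Mul (BilinExt β) := ⟨fun x y => ⟨x.q + y.q, x.c + y.c + β x.q y.q⟩⟩
instance instOneBilinExt : One (BilinExt β) := ⟨⟨0, 0⟩⟩
instance instInvBilinExt : Inv (BilinExt β) := ⟨fun x => ⟨-x.q, -x.c + β x.q x.q⟩⟩

@[simp] theorem mul_q (x y : BilinExt β) : (x * y).q = x.q + y.q := rfl
@[simp] theorem mul_c (x y : BilinExt β) : (x * y).c = x.c + y.c + β x.q y.q := rfl
@[simp] theorem one_q : (1 : BilinExt β).q = 0 := rfl
@[simp] theorem one_c : (1 : BilinExt β).c = 0 := rfl
@[simp] theorem inv_q (x : BilinExt β) : (x⁻¹).q = -x.q := rfl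
@[simp] theorem inv_c (x : BilinExt β) : (x⁻¹).c = -x.c + β x.q x.q := rfl

instance instGroupBilinExt : Group (BilinExt β) where
  mul_assoc x y z := by
    ext
    · simp [add_assoc]
    · simp only [mul_c, mul_q, map_add, AddMonoidHom.add_apply]; abel
  one_mul x := by ext <;> simp
  mul_one x := by ext <;> simp
  inv_mul_cancel x := by ext <;> simp

/-- as a type, the extension is a product -/
def equivProd : BilinExt β ≃ Q × C where
  toFun x := (x.q, x.c)
  invFun x := ⟨x.1, x.2⟩
  left_inv _ := rfl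
  right_inv _ := rfl

instance instFiniteBilinExt [Finite Q] [Finite C] : Finite (BilinExt β) := Finite.of_equiv _ (equivProd β).symm

/-- the projection to `Q` -/
def proj : BilinExt β →* Multiplicative Q where
  toFun x := Multiplicative.ofAdd x.q
  map_one' := rfl
  map_mul' _ _ := rfl

theorem mem_ker_proj (x : BilinExt β) : x ∈ (proj β).ker ↔ x.q = 0 := Iff.rfl

theorem proj_surjective : Function.Surjective (proj β) := fun x => ⟨⟨Multiplicative.toAdd x, 0⟩, rfl⟩

/-- the kernel of the projection is `C` -/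
def kerEquiv : (proj β).ker ≃* Multiplicative C where
  toFun x := Multiplicative.ofAdd x.1.c
  invFun c := ⟨⟨0, Multiplicative.toAdd c⟩, rfl⟩
  left_inv x := by
    obtain ⟨x, hx⟩ := x
    have : x.q = 0 := hx
    ext
    · exact this.symm
    · rfl
  right_inv _ := rfl
  map_mul' x y := by
    obtain ⟨x, hx⟩ := x
    obtain ⟨y, hy⟩ := y
    have hx' : x.q = 0 := hx
    change Multiplicative.ofAdd (x.c + y.c + β x.q y.q) = Multiplicative.ofAdd (x.c + y.c)
    rw [hx']; simp

theorem commutator_eq (x y : BilinExt β) : ⁅x, y⁆ = ⟨0, β x.q y.q - β y.q x.q⟩ := by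
  rw [commutatorElement_def, mul_inv_eq_iff_eq_mul, mul_inv_eq_iff_eq_mul]
  ext
  · simp [add_comm]
  · simp only [mul_c, mul_q, map_zero, AddMonoidHom.zero_apply, zero_add, add_zero]; abel

theorem isStem (hgen : AddSubgroup.closure {c : C | ∃ g h : Q, c = β g h - β h g} = ⊤) :
    Cfsg.IsStemExtension (proj β) := by
  refine ⟨proj_surjective β, ?_, ?_⟩
  · intro x hx
    have hx' : x.q = 0 := hx
    rw [Subgroup.mem_center_iff]
    intro y
    ext
    · simp [hx']
    · simp only [mul_c, hx', map_zero, AddMonoidHom.zero_apply]; abel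
  · intro x hx
    have hx' : x.q = 0 := hx
    have key : ∀ c : C, (⟨0, c⟩ : BilinExt β) ∈ commutator (BilinExt β) := by
      intro c
      have hc : c ∈ AddSubgroup.closure {c : C | ∃ g h : Q, c = β g h - β h g} := by
        rw [hgen]; exact AddSubgroup.mem_top c
      induction hc using AddSubgroup.closure_induction with
      | mem c hc =>
        obtain ⟨g, h, rfl⟩ := hc
        have := commutator_eq β ⟨g, 0⟩ ⟨h, 0⟩
        simp only at this
        rw [← this]
        exact Subgroup.commutator_mem_commutator (Subgroup.mem_top _) (Subgroup.mem_top _)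
      | zero => exact Subgroup.one_mem _
      | add a b _ _ ha hb =>
        have : (⟨0, a + b⟩ : BilinExt β) = ⟨0, a⟩ * ⟨0, b⟩ := by ext <;> simp
        rw [this]; exact Subgroup.mul_mem _ ha hb
      | neg a _ ha =>
        have : (⟨0, -a⟩ : BilinExt β) = (⟨0, a⟩ : BilinExt β)⁻¹ := by ext <;> simp
        rw [this]; exact Subgroup.inv_mem _ ha
    have : x = ⟨0, x.c⟩ := by ext <;> simp [hx']
    rw [this]; exact key x.c

end BilinExt

/-- the cocycle `(x, y) ↦ f₁ x * f₂ y` -/
def mulCocycle {Q : Type u} {R : Type v} [AddCommGroup Q] [Ring R] (f₁ f₂ : Q →+ R) : Q →+ Q →+ R :=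
  (AddMonoidHom.mul.comp f₁).compl₂ f₂

@[simp] theorem mulCocycle_apply {Q : Type u} {R : Type v} [AddCommGroup Q] [Ring R] (f₁ f₂ : Q →+ R)
    (x y : Q) : mulCocycle f₁ f₂ x y = f₁ x * f₂ y := rfl

theorem zmod_closure_one (n : ℕ) : AddSubgroup.closure ({1} : Set (ZMod n)) = ⊤ := by
  rw [eq_top_iff]
  intro x _
  obtain ⟨k, rfl⟩ := ZMod.intCast_surjective x
  rw [← zsmul_one k]
  exact AddSubgroup.zsmul_mem _ (AddSubgroup.subset_closure (Set.mem_singleton _)) k

theorem mulCocycle_isStem {Q : Type u} [AddCommGroup Q] (n : ℕ) (f₁ f₂ : Q →+ ZMod n) (g h : Q)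
    (h1 : f₁ g = 1) (h2 : f₂ g = 0) (h3 : f₂ h = 1) :
    Cfsg.IsStemExtension (BilinExt.proj (mulCocycle f₁ f₂)) := by
  apply BilinExt.isStem
  rw [eq_top_iff, ← zmod_closure_one n]
  apply AddSubgroup.closure_mono
  rintro _ rfl
  exact ⟨g, h, by simp [h1, h2, h3]⟩

end Cfsg.Agent.Lib.Helper21
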