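import Mathlib
import Cfsg.Prelude.Def_Transfer
import Cfsg.Agent.Lib.Helper21.AutAbelianP

set_option autoImplicit false

namespace Cfsg.Agent.Lib.Helper21

theorem normalizer_le_centralizer_of_abelian {G : Type*} [Group G] [Finite G] (p : ℕ) [Fact p.Prime]
    (P : Sylow p G) (hab : IsMulCommutative (P : Subgroup G))
    (h : ∀ q : ℕ, q.Prime → q ∣ Nat.card G → q ≠ p → ∀ i, 1 ≤ i → i ≤ Group.rank (P : Subgroup G) →
      ¬ q ∣ p ^ i - 1) :
    Subgroup.normalizer ((P : Subgroup G) : Set G) ≤ Subgroup.centralizer ((P : Subgroup G) : Set G) := by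
  rw [← Subgroup.relIndex_eq_one]
  by_contra hne
  obtain ⟨q, hq, hqd⟩ := Nat.exists_prime_and_dvd hne
  haveI : Fact q.Prime := ⟨hq⟩
  have hqG : q ∣ Nat.card G :=
    hqd.trans ((Subgroup.relIndex_dvd_card _ _).trans (Subgroup.card_subgroup_dvd_card _))
  have hPC : (P : Subgroup G) ≤ Subgroup.centralizer ((P : Subgroup G) : Set G) := by
    intro x hx y hy
    have := mul_comm' (⟨y, hy⟩ : (P : Subgroup G)) ⟨x, hx⟩
    exact congrArg Subtype.val this
  have hqp : q ≠ p := by
    rintro rfl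
    exact P.not_dvd_index (hqd.trans ((Subgroup.relIndex_dvd_of_le_left _ hPC).trans
      (Subgroup.relIndex_dvd_index_of_le Subgroup.le_normalizer)))
  rw [Subgroup.relIndex, ← Subgroup.normalizerMonoidHom_ker, Subgroup.index_ker] at hqd
  obtain ⟨⟨α, hαr⟩, hα⟩ := exists_prime_orderOf_dvd_card' q hqd
  have hα' : orderOf α = q := by rwa [Subgroup.orderOf_mk] at hα
  letI : CommGroup (P : Subgroup G) :=
    { (inferInstance : Group (P : Subgroup G)) with mul_comm := mul_comm' }
  obtain ⟨i, h1, h2, h3⟩ := exists_dvd_pow_sub_one_of_aut P.isPGroup' hqp α hα'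
  exact h q hq hqG hqp i h1 h2 h3

theorem hasNormalPComplement_of_abelian {G : Type*} [Group G] [Finite G] (p : ℕ) [Fact p.Prime]
    (P : Sylow p G) (hab : IsMulCommutative (P : Subgroup G))
    (h : ∀ q : ℕ, q.Prime → q ∣ Nat.card G → q ≠ p → ∀ i, 1 ≤ i → i ≤ Group.rank (P : Subgroup G) →
      ¬ q ∣ p ^ i - 1) : ∃ N : Subgroup G, N.Normal ∧ N.IsComplement' (P : Subgroup G) :=
  ⟨_, inferInstance, MonoidHom.ker_transferSylow_isComplement' P
    (normalizer_le_centralizer_of_abelian p P hab h)⟩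

end Cfsg.Agent.Lib.Helper21
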