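import Mathlib
import Cfsg.Prelude.Def_KGroupFacts

set_option autoImplicit false

namespace Cfsg.Agent.Lib.Helper21

open scoped commutatorElement

universe u v

theorem commutatorElement_central_mul_left {X : Type*} [Group X] {z : X} (hz : z ∈ Subgroup.center X)
    (a b : X) : ⁅z * a, b⁆ = ⁅a, b⁆ := by
  rw [commutatorElement_def, commutatorElement_def, mul_inv_rev]
  have h1 : z * a * b * (a⁻¹ * z⁻¹) * b⁻¹ = z * (a * b * a⁻¹) * z⁻¹ * b⁻¹ := by group
  rw [h1, ← (Subgroup.mem_center_iff.mp hz) (a * b * a⁻¹)]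
  group

theorem commutatorElement_central_mul_right {X : Type*} [Group X] {z : X} (hz : z ∈ Subgroup.center X)
    (a b : X) : ⁅a, z * b⁆ = ⁅a, b⁆ := by
  rw [commutatorElement_def, commutatorElement_def, mul_inv_rev]
  have h1 : a * (z * b) * a⁻¹ * (b⁻¹ * z⁻¹) = a * z * (b * a⁻¹ * b⁻¹) * z⁻¹ := by group
  rw [h1, (Subgroup.mem_center_iff.mp hz) a, mul_assoc z a, ← (Subgroup.mem_center_iff.mp hz)]
  group

theorem commutatorElement_eq_of_central {X : Type*} [Group X] {a a' b b' : X}
    (ha : a * a'⁻¹ ∈ Subgroup.center X) (hb : b * b'⁻¹ ∈ Subgroup.center X) : ⁅a, b⁆ = ⁅a', b'⁆ := by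
  have h1 : a = (a * a'⁻¹) * a' := by group
  have h2 : b = (b * b'⁻¹) * b' := by group
  rw [h1, h2, commutatorElement_central_mul_left ha, commutatorElement_central_mul_right hb]

/-- Two homomorphisms from a perfect group that agree modulo the centre agree. -/
theorem hom_eq_of_perfect {G X : Type*} [Group G] [Group X] (hG : Group.IsPerfect G) (f₁ f₂ : G →* X)
    (h : ∀ g, f₁ g * (f₂ g)⁻¹ ∈ Subgroup.center X) : f₁ = f₂ := by
  have hle : commutator G ≤ f₁.eqLocus f₂ := by
    rw [commutator_eq_closure, Subgroup.closure_le]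
    rintro _ ⟨a, b, rfl⟩
    show f₁ ⁅a, b⁆ = f₂ ⁅a, b⁆
    rw [map_commutatorElement, map_commutatorElement]
    exact commutatorElement_eq_of_central (h a) (h b)
  rw [hG.commutator_eq_top] at hle
  ext g
  exact hle (Subgroup.mem_top g)

/-- a central extension of a central extension of a perfect group is central -/
theorem mem_center_of_perfect {Γ G : Type*} [Group Γ] [Group G] (hΓ : Group.IsPerfect Γ) (σ : Γ →* G)
    (hσ : σ.ker ≤ Subgroup.center Γ) {z : Γ} (hz : σ z ∈ Subgroup.center G) :
    z ∈ Subgroup.center Γ := by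
  have h := hom_eq_of_perfect hΓ (MulAut.conj z).toMonoidHom (MonoidHom.id Γ) (fun g => hσ (by
    show σ (z * g * z⁻¹ * g⁻¹) = 1
    rw [map_mul, map_mul, map_mul, map_inv, map_inv, ← (Subgroup.mem_center_iff.mp hz) (σ g)]
    group))
  rw [Subgroup.mem_center_iff]
  intro g
  have h1 : z * g * z⁻¹ = g := DFunLike.congr_fun h g
  exact (mul_inv_eq_iff_eq_mul.mp h1).symm

theorem map_commutator_eq_top {Γ G : Type*} [Group Γ] [Group G] (σ : Γ →* G)
    (hσ : Function.Surjective σ) (hG : Group.IsPerfect G) : (commutator Γ).map σ = ⊤ := by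
  rw [commutator_def, Subgroup.map_commutator, Subgroup.map_top_of_surjective σ hσ, ← commutator_def,
    hG.commutator_eq_top]

theorem isPerfect_of_stem {Γ G : Type*} [Group Γ] [Group G] (σ : Γ →* G)
    (hσ : Cfsg.IsStemExtension σ) (hG : Group.IsPerfect G) : Group.IsPerfect Γ := by
  constructor
  rw [eq_top_iff]
  intro γ _
  have h1 : σ γ ∈ (commutator Γ).map σ := by
    rw [map_commutator_eq_top σ hσ.1 hG]; exact Subgroup.mem_top _
  obtain ⟨c, hc, hcγ⟩ := h1
  have h2 : γ * c⁻¹ ∈ σ.ker := by
    rw [MonoidHom.mem_ker, map_mul, map_inv, hcγ, mul_inv_cancel]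
  have : γ = (γ * c⁻¹) * c := by group
  rw [this]
  exact Subgroup.mul_mem _ (hσ.2.2 h2) hc

/-- composition of stem extensions over a perfect base -/
theorem isStem_comp {Γ G Q : Type*} [Group Γ] [Group G] [Group Q] (σ : Γ →* G) (π : G →* Q)
    (hσ : Cfsg.IsStemExtension σ) (hπ : Function.Surjective π) (hπk : π.ker ≤ Subgroup.center G)
    (hG : Group.IsPerfect G) : Cfsg.IsStemExtension (π.comp σ) := by
  have hΓ := isPerfect_of_stem σ hσ hG
  refine ⟨hπ.comp hσ.1, ?_, ?_⟩
  · intro z hz
    exact mem_center_of_perfect hΓ σ hσ.2.1 (hπk hz)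
  · rw [hΓ.commutator_eq_top]; exact le_top

theorem commutatorSet_subset_range {E G : Type*} [Group E] [Group G] (f : E →* G)
    (hf : Function.Surjective f) (hk : f.ker ≤ Subgroup.center E) :
    commutatorSet E ⊆ Set.range (fun p : G × G => ⁅Function.surjInv hf p.1, Function.surjInv hf p.2⁆) := by
  rintro _ ⟨a, b, rfl⟩
  refine ⟨(f a, f b), ?_⟩
  apply commutatorElement_eq_of_central
  · apply hk
    rw [MonoidHom.mem_ker, map_mul, map_inv, Function.surjInv_eq hf, mul_inv_cancel]
  · apply hk
    rw [MonoidHom.mem_ker, map_mul, map_inv, Function.surjInv_eq hf, mul_inv_cancel]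

theorem finite_commutatorSet_of_central {E G : Type*} [Group E] [Group G] [Finite G] (f : E →* G)
    (hf : Function.Surjective f) (hk : f.ker ≤ Subgroup.center E) : Finite (commutatorSet E) :=
  Set.Finite.subset (Set.finite_range _) (commutatorSet_subset_range f hf hk)

theorem card_commutatorSet_le_of_central {E G : Type*} [Group E] [Group G] [Finite G] (f : E →* G)
    (hf : Function.Surjective f) (hk : f.ker ≤ Subgroup.center E) :
    Nat.card (commutatorSet E) ≤ Nat.card G * Nat.card G := by
  have h1 := Set.ncard_le_ncard (commutatorSet_subset_range f hf hk) (Set.finite_range _)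
  have h2 := Finite.card_range_le
    (fun p : G × G => ⁅Function.surjInv hf p.1, Function.surjInv hf p.2⁆)
  rw [Nat.card_prod] at h2
  rw [← Nat.card_coe_set_eq, ← Nat.card_coe_set_eq] at h1
  exact h1.trans h2

/-- The commutator subgroup of a central extension of a perfect group is a stem extension. -/
theorem isStem_commutator {E G : Type*} [Group E] [Group G] (f : E →* G)
    (hf : Function.Surjective f) (hk : f.ker ≤ Subgroup.center E) (hG : Group.IsPerfect G) :
    Cfsg.IsStemExtension (f.comp (commutator E).subtype) := by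
  set D := commutator E with hD
  have hmap : D.map f = ⊤ := map_commutator_eq_top f hf hG
  have hdec : ∀ a : E, ∃ d ∈ D, a * d⁻¹ ∈ Subgroup.center E := by
    intro a
    have h1 : f a ∈ D.map f := by rw [hmap]; exact Subgroup.mem_top _
    obtain ⟨d, hd, hda⟩ := h1
    refine ⟨d, hd, hk ?_⟩
    rw [MonoidHom.mem_ker, map_mul, map_inv, hda, mul_inv_cancel]
  have hperf : Group.IsPerfect D := by
    rw [Subgroup.isPerfect_iff]
    apply le_antisymm
    · exact Subgroup.commutator_le_right D D
    · conv_lhs => rw [hD, commutator_eq_closure]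
      rw [Subgroup.closure_le]
      rintro _ ⟨a, b, rfl⟩
      obtain ⟨d₁, hd₁, h₁⟩ := hdec a
      obtain ⟨d₂, hd₂, h₂⟩ := hdec b
      rw [commutatorElement_eq_of_central h₁ h₂]
      exact Subgroup.commutator_mem_commutator hd₁ hd₂
  refine ⟨?_, ?_, ?_⟩
  · intro g
    have h1 : g ∈ D.map f := by rw [hmap]; exact Subgroup.mem_top _
    obtain ⟨d, hd, hdg⟩ := h1
    exact ⟨⟨d, hd⟩, hdg⟩
  · intro z hz
    have h1 : (z : E) ∈ Subgroup.center E := hk hz
    rw [Subgroup.mem_center_iff]
    intro a
    exact Subtype.ext ((Subgroup.mem_center_iff.mp h1) a)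
  · rw [hperf.commutator_eq_top]; exact le_top

/-- lifting through central extensions out of a perfect group with no proper stem extension -/
theorem exists_lift_of_trivial_multiplier {G : Type u} {Q : Type v} [Group G] [Group Q] [Finite G]
    (hG : Group.IsPerfect G) (π : G →* Q)
    (hM : ∀ (Γ : Type u) [Group Γ] [Finite Γ] (σ : Γ →* G), Cfsg.IsStemExtension σ → σ.ker = ⊥)
    (X : Type u) [Group X] (ξ : X →* Q) (hξ : Function.Surjective ξ)
    (hξk : ξ.ker ≤ Subgroup.center X) : ∃ η : G →* X, ξ.comp η = π := by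
  let E : Subgroup (G × X) := (π.comp (MonoidHom.fst G X)).eqLocus (ξ.comp (MonoidHom.snd G X))
  let f : E →* G := (MonoidHom.fst G X).comp E.subtype
  have hf : Function.Surjective f := by
    intro g
    obtain ⟨x, hx⟩ := hξ (π g)
    exact ⟨⟨(g, x), hx.symm⟩, rfl⟩
  have hk : f.ker ≤ Subgroup.center E := by
    intro e he
    have h1 : (e : G × X).1 = 1 := he
    have h2 : π (e : G × X).1 = ξ (e : G × X).2 := e.2
    have h3 : (e : G × X).2 ∈ Subgroup.center X := by
      apply hξk
      rw [MonoidHom.mem_ker, ← h2, h1, map_one]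
    rw [Subgroup.mem_center_iff]
    intro a
    apply Subtype.ext
    apply Prod.ext
    · show (a : G × X).1 * (e : G × X).1 = (e : G × X).1 * (a : G × X).1
      rw [h1, mul_one, one_mul]
    · exact (Subgroup.mem_center_iff.mp h3) _
  haveI := finite_commutatorSet_of_central f hf hk
  have hstem := isStem_commutator f hf hk hG
  have hker := hM (commutator E) (f.comp (commutator E).subtype) hstem
  have hbij : Function.Bijective (f.comp (commutator E).subtype) :=
    ⟨(MonoidHom.ker_eq_bot_iff _).mp hker, hstem.1⟩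
  let e := MulEquiv.ofBijective (f.comp (commutator E).subtype) hbij
  refine ⟨(((MonoidHom.snd G X).comp E.subtype).comp (commutator E).subtype).comp e.symm.toMonoidHom, ?_⟩
  ext g
  obtain ⟨d, rfl⟩ := e.surjective g
  show ξ ((((e.symm (e d) : commutator E) : E) : G × X).2) = π (((d : E) : G × X).1)
  rw [MulEquiv.symm_apply_apply]
  exact ((d : E).2).symm

theorem ker_eq_bot_of_hasCyclicSchurMultiplier_one {G : Type u} [Group G]
    (h : Cfsg.HasCyclicSchurMultiplier G 1) (Γ : Type u) [Group Γ] [Finite Γ] (σ : Γ →* G)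
    (hσ : Cfsg.IsStemExtension σ) : σ.ker = ⊥ := by
  obtain ⟨φ, hφ⟩ := h.2 Γ σ hσ
  rw [eq_bot_iff]
  intro x hx
  obtain ⟨a, ha⟩ := hφ ⟨x, hx⟩
  have ha1 : a = 1 := Subsingleton.elim (α := Multiplicative (ZMod 1)) _ _
  rw [ha1, map_one] at ha
  rw [Subgroup.mem_bot]
  exact (congrArg Subtype.val ha).symm

/-- a universal perfect central extension has no proper stem extension -/
theorem ker_eq_bot_of_universal {G : Type u} {Q : Type v} [Group G] [Group Q]
    (hG : Group.IsPerfect G) (π : G →* Q) (hπ : Function.Surjective π)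
    (hker : π.ker ≤ Subgroup.center G)
    (huniv : ∀ (X : Type u) [Group X] (ξ : X →* Q), Function.Surjective ξ →
      ξ.ker ≤ Subgroup.center X → ∃ η : G →* X, ξ.comp η = π)
    (Γ : Type u) [Group Γ] (σ : Γ →* G) (hσ : Cfsg.IsStemExtension σ) : σ.ker = ⊥ := by
  have hΓ := isPerfect_of_stem σ hσ hG
  have hcomp := isStem_comp σ π hσ hπ hker hG
  obtain ⟨η, hη⟩ := huniv Γ (π.comp σ) hcomp.1 hcomp.2.1
  have h1 : σ.comp η = MonoidHom.id G := by
    apply hom_eq_of_perfect hG
    intro g
    apply hker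
    have : π (σ (η g)) = π g := DFunLike.congr_fun hη g
    show π (σ (η g) * g⁻¹) = 1
    rw [map_mul, map_inv, this, mul_inv_cancel]
  have h2 : η.comp σ = MonoidHom.id Γ := by
    apply hom_eq_of_perfect hΓ
    intro γ
    apply hσ.2.1
    have : σ (η (σ γ)) = σ γ := DFunLike.congr_fun h1 (σ γ)
    show σ (η (σ γ) * γ⁻¹) = 1
    rw [map_mul, map_inv, this, mul_inv_cancel]
  rw [eq_bot_iff]
  intro z hz
  have : η (σ z) = z := DFunLike.congr_fun h2 z
  rw [MonoidHom.mem_ker.mp hz, map_one] at this
  rw [Subgroup.mem_bot]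
  exact this.symm

end Cfsg.Agent.Lib.Helper21
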