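import Mathlib
import Cfsg.Agent.Lib.Helper21.BurnsideAb

set_option autoImplicit false

namespace Cfsg.Agent.Lib.Helper21

theorem sq_dvd_card_of_two_le_rank {P : Type*} [Group P] [Finite P] {p : ℕ} [hp : Fact p.Prime]
    (hP : IsPGroup p P) (h : 2 ≤ Group.rank P) : p ^ 2 ∣ Nat.card P := by
  obtain ⟨k, hk⟩ := hP.exists_card_eq
  rw [hk]
  apply pow_dvd_pow
  by_contra hlt
  have hk1 : k = 0 ∨ k = 1 := by omega
  rcases hk1 with rfl | rfl
  · rw [pow_zero] at hk
    haveI : Subsingleton P := (Nat.card_eq_one_iff_unique.mp hk).1
    have := Group.rank_eq_zero (G := P)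
    omega
  · rw [pow_one] at hk
    haveI : IsCyclic P := isCyclic_of_prime_card hk
    obtain ⟨g, hg⟩ := IsCyclic.exists_generator (α := P)
    have hcl : Subgroup.closure (({g} : Finset P) : Set P) = ⊤ := by
      rw [Finset.coe_singleton, ← Subgroup.zpowers_eq_closure, eq_top_iff]
      intro x _
      exact hg x
    have := Group.rank_le hcl
    rw [Finset.card_singleton] at this
    omega

/-- hypothesis of the statement -/
def SmallSylows (G : Type*) [Group G] [Finite G] : Prop :=
  ∀ p : ℕ, p.Prime → p ∣ Nat.card G → (∃ q : ℕ, q.Prime ∧ q ∣ Nat.card G ∧ p < q) →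
    ∀ P : Sylow p G, IsMulCommutative (P : Subgroup G) ∧ Group.rank (P : Subgroup G) ≤ 2

theorem isSolvable_of_smallSylows_aux.{u} : ∀ (n : ℕ) (G : Type u) [Group G] [Finite G],
    Nat.card G = n → SmallSylows G → ¬ 12 ∣ n → Group.IsSolvable G := by
  intro n
  induction n using Nat.strong_induction_on with
  | _ n ih =>
    intro G _ _ hcard h h12
    by_cases hn1 : n = 1
    · haveI : Subsingleton G := (Nat.card_eq_one_iff_unique.mp (hcard.trans hn1)).1
      infer_instance
    set p := n.minFac with hpdef
    have hp : p.Prime := Nat.minFac_prime hn1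
    haveI : Fact p.Prime := ⟨hp⟩
    have hpn : p ∣ n := Nat.minFac_dvd n
    have hn0 : n ≠ 0 := by rw [← hcard]; exact Nat.card_pos.ne'
    have hmin : ∀ q : ℕ, q.Prime → q ∣ n → p ≤ q := fun q hq hqn => Nat.minFac_le_of_dvd hq.two_le hqn
    by_cases hbig : ∃ q : ℕ, q.Prime ∧ q ∣ Nat.card G ∧ p < q
    · obtain ⟨P⟩ : Nonempty (Sylow p G) := inferInstance
      obtain ⟨hab, hrank⟩ := h p hp (hcard ▸ hpn) hbig P
      obtain ⟨N, hNn, hc⟩ := hasNormalPComplement_of_abelian p P hab (by
        intro q hq hqG hqp i h1 h2 h3
        rw [hcard] at hqG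
        have hpq : p < q := lt_of_le_of_ne (hmin q hq hqG) hqp.symm
        have hp1 : ¬ q ∣ p - 1 := by
          intro hd
          have := Nat.le_of_dvd (by have := hp.two_le; omega) hd
          omega
        have hi : i = 1 ∨ i = 2 := by omega
        rcases hi with rfl | rfl
        · rw [pow_one] at h3
          exact hp1 h3
        · have hfac : p ^ 2 - 1 = (p - 1) * (p + 1) := by
            obtain ⟨r, hr⟩ : ∃ r, p = r + 1 := ⟨p - 1, by have := hp.two_le; omega⟩
            rw [hr]
            simp only [Nat.add_sub_cancel]
            have : (r + 1) ^ 2 = r * (r + 1 + 1) + 1 := by ring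
            omega
          rw [hfac] at h3
          rcases (Nat.Prime.dvd_mul hq).mp h3 with h4 | h4
          · exact hp1 h4
          · have hle := Nat.le_of_dvd (by omega) h4
            have hq' : q = p + 1 := by omega
            have hp2 : p = 2 := by
              rcases hp.eq_two_or_odd with h5 | h5
              · exact h5
              · rcases hq.eq_two_or_odd with h6 | h6
                · have := hp.two_le; omega
                · omega
            have hq3 : q = 3 := by omega
            have h4P : p ^ 2 ∣ Nat.card (P : Subgroup G) := sq_dvd_card_of_two_le_rank P.isPGroup' h2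
            have h4G : 4 ∣ n := by
              have h44 : p ^ 2 = 4 := by rw [hp2]; norm_num
              rw [← hcard, ← h44]
              exact h4P.trans (Subgroup.card_subgroup_dvd_card _)
            apply h12
            have h3G : 3 ∣ n := hq3 ▸ hqG
            have : Nat.Coprime 4 3 := by decide
            exact this.mul_dvd_of_dvd_of_dvd h4G h3G)
      have hmul : Nat.card N * Nat.card (P : Subgroup G) = Nat.card G := hc.card_mul_card
      obtain ⟨k, hk⟩ := P.isPGroup'.exists_card_eq
      have hPgt : 1 < Nat.card (P : Subgroup G) := by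
        have hd : p ∣ Nat.card (P : Subgroup G) := by
          rw [Sylow.card_eq_multiplicity]
          apply dvd_pow_self
          have := (Nat.Prime.factorization_pos_of_dvd hp (hcard ▸ hn0) (hcard ▸ hpn))
          omega
        exact lt_of_lt_of_le hp.one_lt (Nat.le_of_dvd Nat.card_pos hd)
      have hNlt : Nat.card N < n := by
        rw [← hcard, ← hmul]
        have : 0 < Nat.card N := Nat.card_pos
        nlinarith
      have hNdvd : Nat.card N ∣ Nat.card G := Subgroup.card_subgroup_dvd_card N
      have hpN : ¬ p ∣ Nat.card N := by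
        rw [← hc.index_eq_card]
        exact P.not_dvd_index
      have hNsmall : SmallSylows N := by
        intro p' hp' hp'N hbig' Q
        haveI : Fact p'.Prime := ⟨hp'⟩
        obtain ⟨q', hq', hq'N, hlt⟩ := hbig'
        have hne : p' ≠ p := by rintro rfl; exact hpN hp'N
        have hcardQ : Nat.card ((Q : Subgroup N).map N.subtype) = p' ^ (Nat.card G).factorization p' := by
          rw [Subgroup.card_map_of_injective N.subtype_injective, Sylow.card_eq_multiplicity, ← hmul,
            Nat.factorization_mul Nat.card_pos.ne' Nat.card_pos.ne', hk, Nat.factorization_pow]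
          simp [Nat.Prime.factorization hp, hne.symm]
        have := h p' hp' (hp'N.trans hNdvd) ⟨q', hq', hq'N.trans hNdvd, hlt⟩ (Sylow.ofCard _ hcardQ)
        obtain ⟨hc1, hc2⟩ := this
        let e : (Q : Subgroup N) ≃* ((Sylow.ofCard _ hcardQ : Sylow p' G) : Subgroup G) :=
          (Q : Subgroup N).equivMapOfInjective N.subtype N.subtype_injective
        refine ⟨⟨⟨fun a b => ?_⟩⟩, ?_⟩
        · apply e.injective
          rw [map_mul, map_mul]
          exact mul_comm' _ _
        · rw [Group.rank_congr e]
          exact hc2
      haveI hNsolv : Group.IsSolvable N :=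
        ih _ hNlt N rfl hNsmall (fun hd => h12 (hcard ▸ hd.trans hNdvd))
      haveI hQsolv : Group.IsSolvable (G ⧸ N) := by
        have hcq : Nat.card (G ⧸ N) = p ^ k := by
          rw [← Subgroup.index_eq_card, hc.symm.index_eq_card, hk]
        haveI : Group.IsNilpotent (G ⧸ N) := (IsPGroup.of_card hcq).isNilpotent
        exact IsNilpotent.to_isSolvable
      apply Group.isSolvable_of_ker_le_range N.subtype (QuotientGroup.mk' N)
      rw [QuotientGroup.ker_mk', Subgroup.range_subtype]
    · have hpow : n = p ^ n.primeFactorsList.length := by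
        apply Nat.eq_prime_pow_of_unique_prime_dvd hn0
        intro d hd hdn
        by_contra hne
        apply hbig
        exact ⟨d, hd, hcard ▸ hdn, lt_of_le_of_ne (hmin d hd hdn) (Ne.symm hne)⟩
      haveI : Group.IsNilpotent G := (IsPGroup.of_card (hcard.trans hpow)).isNilpotent
      exact IsNilpotent.to_isSolvable

end Cfsg.Agent.Lib.Helper21
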