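import Mathlib
import Cfsg.Agent.Tr.Frobenius

set_option autoImplicit false

namespace Cfsg.Agent.Lib.Helper21

universe u

/-- groups with a cyclic subgroup of index at most two -/
def HasCyc2 (Q : Type*) [Group Q] : Prop :=
  ∃ c y : Q, ∀ g : Q, g ∈ Subgroup.zpowers c ∨ g * y⁻¹ ∈ Subgroup.zpowers c

theorem mem_zpowers_subtype {Q : Type*} [Group Q] (M : Subgroup Q) (c m : M)
    (h : (m : Q) ∈ Subgroup.zpowers (c : Q)) : m ∈ Subgroup.zpowers c := by
  obtain ⟨k, hk⟩ := Subgroup.mem_zpowers_iff.mp h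
  exact Subgroup.mem_zpowers_iff.mpr ⟨k, Subtype.ext (by rw [Subgroup.coe_zpow]; exact hk)⟩

theorem HasCyc2.subgroup {Q : Type*} [Group Q] (h : HasCyc2 Q) (M : Subgroup Q) : HasCyc2 M := by
  obtain ⟨c, y, hcy⟩ := h
  haveI : IsCyclic (Subgroup.zpowers c ⊓ M : Subgroup Q) := Subgroup.isCyclic_of_le inf_le_left
  obtain ⟨c', hc'⟩ := IsCyclic.exists_generator (α := (Subgroup.zpowers c ⊓ M : Subgroup Q))
  have key : ∀ m : M, (m : Q) ∈ Subgroup.zpowers c → m ∈ Subgroup.zpowers (⟨c'.1, c'.2.2⟩ : M) := by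
    intro m hm
    apply mem_zpowers_subtype
    obtain ⟨k, hk⟩ := Subgroup.mem_zpowers_iff.mp (hc' ⟨m.1, hm, m.2⟩)
    refine Subgroup.mem_zpowers_iff.mpr ⟨k, ?_⟩
    have := congrArg Subtype.val hk
    rw [Subgroup.coe_zpow] at this
    exact this
  by_cases hM : M ≤ Subgroup.zpowers c
  · exact ⟨⟨c'.1, c'.2.2⟩, 1, fun g => Or.inl (key g (hM g.2))⟩
  · obtain ⟨y', hy'M, hy'⟩ := SetLike.not_le_iff_exists.mp hM
    refine ⟨⟨c'.1, c'.2.2⟩, ⟨y', hy'M⟩, fun g => ?_⟩
    by_cases hg : g.1 ∈ Subgroup.zpowers c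
    · exact Or.inl (key g hg)
    · right
      apply key
      have h1 := (hcy g.1).resolve_left hg
      have h2 := (hcy y').resolve_left hy'
      have h3 : g.1 * y'⁻¹ = (g.1 * y⁻¹) * (y' * y⁻¹)⁻¹ := by group
      show g.1 * y'⁻¹ ∈ _
      rw [h3]
      exact Subgroup.mul_mem _ h1 (Subgroup.inv_mem _ h2)

theorem eq_of_index_two {Q : Type*} [Group Q] (c y : Q)
    (hcy : ∀ g : Q, g ∈ Subgroup.zpowers c ∨ g * y⁻¹ ∈ Subgroup.zpowers c) (M M' : Subgroup Q)
    (h : M.index = 2) (h' : M'.index = 2) (hc : c ∈ M ↔ c ∈ M') (hy : y ∈ M ↔ y ∈ M') : M = M' := by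
  let S : Subgroup Q :=
    { carrier := {g | g ∈ M ↔ g ∈ M'}
      one_mem' := by
        show (1 : Q) ∈ M ↔ (1 : Q) ∈ M'
        simp
      mul_mem' := by
        intro a b ha hb
        show a * b ∈ M ↔ a * b ∈ M'
        have ha' : a ∈ M ↔ a ∈ M' := ha
        have hb' : b ∈ M ↔ b ∈ M' := hb
        rw [Subgroup.mul_mem_iff_of_index_two h, Subgroup.mul_mem_iff_of_index_two h', ha', hb']
      inv_mem' := by
        intro a ha
        show a⁻¹ ∈ M ↔ a⁻¹ ∈ M'
        have ha' : a ∈ M ↔ a ∈ M' := ha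
        rw [Subgroup.inv_mem_iff, Subgroup.inv_mem_iff, ha'] }
  have hcS : Subgroup.zpowers c ≤ S := by
    rw [Subgroup.zpowers_le]
    exact hc
  have hyS : y ∈ S := hy
  ext g
  have hg : g ∈ S := by
    rcases hcy g with h1 | h1
    · exact hcS h1
    · have := S.mul_mem (hcS h1) hyS
      rwa [inv_mul_cancel_right] at this
  exact hg

/-- subgroups of index two -/
def Idx2 (Q : Type*) [Group Q] : Type _ := {M : Subgroup Q // M.index = 2}

instance instFiniteIdx2 (Q : Type*) [Group Q] [Finite Q] : Finite (Idx2 Q) := by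
  unfold Idx2
  infer_instance

theorem card_idx2_le {Q : Type*} [Group Q] [Finite Q] (h : HasCyc2 Q) : Nat.card (Idx2 Q) ≤ 3 := by
  classical
  obtain ⟨c, y, hcy⟩ := h
  let f : Idx2 Q → {b : Bool × Bool // b ≠ (true, true)} := fun M =>
    ⟨(decide (c ∈ M.1), decide (y ∈ M.1)), by
      intro hb
      have h1 : c ∈ M.1 := by simpa using congrArg Prod.fst hb
      have h2 : y ∈ M.1 := by simpa using congrArg Prod.snd hb
      have htop : M.1 = ⊤ := by
        rw [eq_top_iff]
        intro g _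
        rcases hcy g with h3 | h3
        · exact (Subgroup.zpowers_le.mpr h1) h3
        · have := M.1.mul_mem ((Subgroup.zpowers_le.mpr h1) h3) h2
          rwa [inv_mul_cancel_right] at this
      have := M.2
      rw [htop, Subgroup.index_top] at this
      omega⟩
  have hf : Function.Injective f := by
    intro M M' hMM
    have h0 := congrArg Subtype.val hMM
    have h1 : decide (c ∈ M.1) = decide (c ∈ M'.1) := congrArg Prod.fst h0
    have h2 : decide (y ∈ M.1) = decide (y ∈ M'.1) := congrArg Prod.snd h0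
    apply Subtype.ext
    exact eq_of_index_two c y hcy M.1 M'.1 M.2 M'.2 (by simpa using h1) (by simpa using h2)
  have h3 := Nat.card_le_card_of_injective f hf
  have h4 : Nat.card {b : Bool × Bool // b ≠ (true, true)} = 3 := by
    rw [Nat.card_eq_fintype_card]
    rfl
  omega

instance instMulActionIdx2 (Q : Type*) [Group Q] : MulAction (MulAut Q) (Idx2 Q) where
  smul α M := ⟨M.1.map α.toMonoidHom, by
    have h1 := Subgroup.index_map_equiv M.1 α
    have h2 : M.1.index = 2 := M.2
    exact h1.trans h2⟩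
  one_smul M := Subtype.ext (Subgroup.map_id _)
  mul_smul α β M := Subtype.ext (by
    show M.1.map (α * β).toMonoidHom = (M.1.map β.toMonoidHom).map α.toMonoidHom
    rw [Subgroup.map_map]
    rfl)

theorem smul_idx2_coe {Q : Type*} [Group Q] (α : MulAut Q) (M : Idx2 Q) :
    (α • M).1 = M.1.map α.toMonoidHom := rfl

theorem map_eq_of_index_two {Q : Type*} [Group Q] [Finite Q] (h : HasCyc2 Q) (α : MulAut Q) (k : ℕ)
    (hk : Nat.Coprime k 6) (hα : α ^ k = 1) (M : Subgroup Q) (hM : M.index = 2) :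
    M.map α.toMonoidHom = M := by
  let π := MulAction.toPermHom (MulAut Q) (Idx2 Q) α
  have h1 : π ^ k = 1 := by
    rw [← map_pow, hα, map_one]
  have h2 : π ^ 6 = 1 := by
    have h3 : π ^ Nat.card (Equiv.Perm (Idx2 Q)) = 1 := pow_card_eq_one'
    rw [Nat.card_perm] at h3
    have h4 : (Nat.card (Idx2 Q)).factorial ∣ 6 :=
      Nat.factorial_dvd_factorial (card_idx2_le h)
    obtain ⟨t, ht⟩ := h4
    rw [ht, pow_mul, h3, one_pow]
  have h5 : π ^ (Nat.gcd k 6) = 1 := pow_gcd_eq_one.mpr ⟨h1, h2⟩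
  rw [hk, pow_one] at h5
  have h6 : π ⟨M, hM⟩ = ⟨M, hM⟩ := by rw [h5]; rfl
  exact congrArg Subtype.val h6

theorem aut_eq_one (n : ℕ) : ∀ (Q : Type u) [Group Q] [Finite Q], Nat.card Q = 2 ^ n → HasCyc2 Q →
    ∀ (α : MulAut Q) (k : ℕ), Nat.Coprime k 6 → α ^ k = 1 → α = 1 := by
  induction n with
  | zero =>
    intro Q _ _ hQ _ α k _ _
    rw [pow_zero] at hQ
    haveI : Subsingleton Q := (Nat.card_eq_one_iff_unique.mp hQ).1
    apply MulEquiv.ext
    intro g
    exact Subsingleton.elim _ _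
  | succ n ih =>
    intro Q _ _ hQ hcyc α k hk hα
    haveI : Fact (Nat.Prime 2) := ⟨Nat.prime_two⟩
    obtain ⟨M, hM⟩ := Sylow.exists_subgroup_card_pow_prime (G := Q) 2 (n := n)
      (by rw [hQ]; exact pow_dvd_pow 2 (Nat.le_succ n))
    have hidx : M.index = 2 := by
      have h1 := M.card_mul_index
      rw [hM, hQ, pow_succ] at h1
      exact Nat.eq_of_mul_eq_mul_left (pow_pos (by norm_num) n) h1
    have hmap := map_eq_of_index_two hcyc α k hk hα M hidx
    have hmem : ∀ g : Q, α g ∈ M ↔ g ∈ M := by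
      intro g
      constructor
      · intro h
        rw [← hmap] at h
        obtain ⟨m, hm, hmg⟩ := h
        have : m = g := α.injective hmg
        rwa [← this]
      · intro h
        rw [← hmap]
        exact ⟨g, h, rfl⟩
    let β : MulAut M := (α.subgroupMap M).trans (MulEquiv.subgroupCongr hmap)
    have hβ : ∀ m : M, ((β m : M) : Q) = α m := fun m => rfl
    have hβpow : ∀ (j : ℕ) (m : M), (((β ^ j) m : M) : Q) = (α ^ j) m := by
      intro j
      induction j with
      | zero => intro m; rfl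
      | succ j ihj =>
        intro m
        rw [pow_succ, pow_succ, MulAut.mul_apply, MulAut.mul_apply, ihj, hβ]
    have hβk : β ^ k = 1 := by
      apply MulEquiv.ext
      intro m
      apply Subtype.ext
      rw [hβpow, hα]
      rfl
    have hβ1 := ih M hM (hcyc.subgroup M) β k hk hβk
    have hfixM : ∀ m ∈ M, α m = m := by
      intro m hm
      have := hβ ⟨m, hm⟩
      rw [hβ1] at this
      exact this.symm
    apply MulEquiv.ext
    intro g
    by_cases hg : g ∈ M
    · exact hfixM g hg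
    · have hm : g⁻¹ * α g ∈ M := by
        rw [Subgroup.mul_mem_iff_of_index_two hidx, Subgroup.inv_mem_iff, hmem]
      have hpow : ∀ j : ℕ, (α ^ j) g = g * (g⁻¹ * α g) ^ j := by
        intro j
        induction j with
        | zero => simp
        | succ j ihj =>
          rw [pow_succ', MulAut.mul_apply, ihj, map_mul, map_pow, hfixM _ hm, pow_succ',
            ← mul_assoc, mul_inv_cancel_left]
      have h1 := hpow k
      rw [hα] at h1
      have h2 : (g⁻¹ * α g) ^ k = 1 := by
        have : g = g * (g⁻¹ * α g) ^ k := h1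
        exact (mul_eq_left.mp this.symm)
      have h3 : (g⁻¹ * α g) ^ (2 ^ (n + 1)) = 1 := by
        rw [← hQ]; exact pow_card_eq_one'
      have h4 : (g⁻¹ * α g) ^ (Nat.gcd k (2 ^ (n + 1))) = 1 := pow_gcd_eq_one.mpr ⟨h2, h3⟩
      have h5 : Nat.Coprime k (2 ^ (n + 1)) := by
        apply Nat.Coprime.pow_right
        exact Nat.Coprime.coprime_dvd_right (by norm_num : 2 ∣ 6) hk
      rw [h5, pow_one] at h4
      show α g = g
      exact (inv_mul_eq_one.mp h4).symm

end Cfsg.Agent.Lib.Helper21
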