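import Mathlib
import Cfsg.Agent.Lib.Helper21.Cyc2

set_option autoImplicit false

namespace Cfsg.Agent.Lib.Helper21

open Cfsg Cfsg.Agent.Tr

theorem HasCyc2.of_mulEquiv {Q Q' : Type*} [Group Q] [Group Q'] (e : Q ≃* Q') (h : HasCyc2 Q) :
    HasCyc2 Q' := by
  obtain ⟨c, y, hcy⟩ := h
  refine ⟨e c, e y, fun g => ?_⟩
  have key : ∀ q : Q, q ∈ Subgroup.zpowers c → e q ∈ Subgroup.zpowers (e c) := by
    intro q hq
    obtain ⟨k, rfl⟩ := Subgroup.mem_zpowers_iff.mp hq
    rw [map_zpow]
    exact Subgroup.zpow_mem_zpowers _ _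
  rcases hcy (e.symm g) with h1 | h1
  · left
    have := key _ h1
    rwa [MulEquiv.apply_symm_apply] at this
  · right
    have := key _ h1
    rwa [map_mul, map_inv, MulEquiv.apply_symm_apply] at this

theorem exists_normal_of_cyc2 {G : Type*} [Group G] [Finite G] (a n : ℕ)
    (hG : Nat.card G = 2 ^ a * n) (hn : Odd n) (h3 : ¬ 3 ∣ n)
    (hx : ∃ x : G, orderOf x = 2 ^ (a - 1)) : ∃ N : Subgroup G, N.Normal ∧ Nat.card N = n := by
  haveI : Fact (Nat.Prime 2) := ⟨Nat.prime_two⟩
  obtain ⟨x, hx⟩ := hx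
  have hn0 : n ≠ 0 := by
    rintro rfl
    exact (Nat.not_odd_iff_even.mpr (by decide : Even 0)) hn
  have h2n : ¬ 2 ∣ n := by
    intro h
    exact (Nat.not_even_iff_odd.mpr hn) (even_iff_two_dvd.mpr h)
  have hcardSyl : ∀ P : Sylow 2 G, Nat.card (P : Subgroup G) = 2 ^ a := by
    intro P
    rw [P.card_eq_multiplicity, hG, Nat.factorization_mul (pow_ne_zero _ (by norm_num)) hn0,
      Nat.Prime.factorization_pow Nat.prime_two]
    simp [Nat.factorization_eq_zero_of_not_dvd h2n]
  have hxp : IsPGroup 2 (Subgroup.zpowers x) := IsPGroup.of_card (n := a - 1) (by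
    rw [Nat.card_zpowers, hx])
  obtain ⟨P, hxP⟩ := hxp.exists_le_sylow
  have hcP : HasCyc2 (P : Subgroup G) := by
    let c : (P : Subgroup G) := ⟨x, hxP (Subgroup.mem_zpowers x)⟩
    have hoc : orderOf c = 2 ^ (a - 1) := by
      rw [← hx]
      exact Subgroup.orderOf_mk x _
    have hcardC : Nat.card (Subgroup.zpowers c) = 2 ^ (a - 1) := by rw [Nat.card_zpowers, hoc]
    have h1 := (Subgroup.zpowers c).card_mul_index
    rw [hcardC, hcardSyl P] at h1
    rcases Nat.eq_zero_or_pos a with ha | ha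
    · subst ha
      have htop : (Subgroup.zpowers c).index = 1 := by simpa using h1
      rw [Subgroup.index_eq_one] at htop
      exact ⟨c, 1, fun g => Or.inl (by rw [htop]; exact Subgroup.mem_top g)⟩
    · have hidx : (Subgroup.zpowers c).index = 2 := by
        obtain ⟨b, rfl⟩ : ∃ b, a = b + 1 := ⟨a - 1, by omega⟩
        rw [Nat.add_sub_cancel, pow_succ] at h1
        exact Nat.eq_of_mul_eq_mul_left (pow_pos (by norm_num) b) h1
      have hne : Subgroup.zpowers c ≠ ⊤ := by
        intro h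
        rw [h, Subgroup.index_top] at hidx
        omega
      obtain ⟨y, -, hy⟩ := SetLike.exists_of_lt (lt_top_iff_ne_top.mpr hne)
      refine ⟨c, y, fun g => ?_⟩
      by_cases hg : g ∈ Subgroup.zpowers c
      · exact Or.inl hg
      · right
        rw [Subgroup.mul_mem_iff_of_index_two hidx, Subgroup.inv_mem_iff]
        exact ⟨fun h => absurd h hg, fun h => absurd h hy⟩
  have hF : Frob 2 G := by
    apply frob_of_sylow P
    intro Q hQP g hg hco
    have hcQ : HasCyc2 Q :=
      (hcP.subgroup (Q.subgroupOf (P : Subgroup G))).of_mulEquiv (Subgroup.subgroupOfEquivOfLe hQP)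
    obtain ⟨j, hj⟩ := (P.2.to_le hQP).exists_card_eq
    let α : MulAut Q := Q.normalizerMonoidHom ⟨g, hg⟩
    have hαk : α ^ orderOf g = 1 := by
      rw [← map_pow]
      have : (⟨g, hg⟩ : Subgroup.normalizer (Q : Set G)) ^ orderOf g = 1 :=
        Subtype.ext (pow_orderOf_eq_one g)
      rw [this, map_one]
    have hk6 : Nat.Coprime (orderOf g) 6 := by
      have h6 : (6 : ℕ) = 2 * 3 := by norm_num
      rw [h6]
      apply Nat.Coprime.mul_right hco
      rw [Nat.coprime_comm, Nat.Prime.coprime_iff_not_dvd Nat.prime_three]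
      intro h
      have h4 := h.trans (orderOf_dvd_natCard g)
      rw [hG] at h4
      rcases (Nat.Prime.dvd_mul Nat.prime_three).mp h4 with h5 | h5
      · have := Nat.Prime.dvd_of_dvd_pow Nat.prime_three h5
        omega
      · exact h3 h5
    have hα1 := aut_eq_one j Q hj hcQ α (orderOf g) hk6 hαk
    have hker : (⟨g, hg⟩ : Subgroup.normalizer (Q : Set G)) ∈ Q.normalizerMonoidHom.ker := hα1
    rw [Subgroup.normalizerMonoidHom_ker] at hker
    exact hker
  obtain ⟨P', N, hN, hc⟩ := hF.hasNormalPComplement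
  refine ⟨N, hN, ?_⟩
  have h1 := hc.card_mul_card
  rw [hcardSyl P', hG, mul_comm] at h1
  exact Nat.eq_of_mul_eq_mul_left (pow_pos (by norm_num) a) h1

end Cfsg.Agent.Lib.Helper21
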