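import Mathlib

set_option autoImplicit false

namespace Cfsg.Agent.Lib.Helper21.Schur

theorem center_GL_divisible (n : ℕ) : ∀ k : ℕ, k ≠ 0 → ∀ d : Subgroup.center (GL (Fin n) ℂ),
    ∃ c : Subgroup.center (GL (Fin n) ℂ), c ^ k = d := by
  rintro k hk ⟨d, hd⟩
  have hd' := hd
  rw [Matrix.GeneralLinearGroup.center_eq_range_scalar] at hd'
  obtain ⟨u, hu⟩ := hd'
  obtain ⟨z, hz⟩ := IsAlgClosed.exists_pow_nat_eq (u : ℂ) (Nat.pos_of_ne_zero hk)
  have hz0 : z ≠ 0 := by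
    rintro rfl
    rw [zero_pow hk] at hz
    exact u.ne_zero hz.symm
  have hw : (Units.mk0 z hz0) ^ k = u := by
    ext
    simpa using hz
  refine ⟨⟨Matrix.GeneralLinearGroup.scalar (Fin n) (Units.mk0 z hz0), ?_⟩, ?_⟩
  · rw [Matrix.GeneralLinearGroup.center_eq_range_scalar]
    exact ⟨_, rfl⟩
  · apply Subtype.ext
    show (Matrix.GeneralLinearGroup.scalar (Fin n) (Units.mk0 z hz0)) ^ k = d
    rw [← map_pow, hw, hu]

end Cfsg.Agent.Lib.Helper21.Schur
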