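import Mathlib

set_option autoImplicit false

namespace Cfsg.Agent.Lib.Helper21.Schur

/-- the monomial representation induced from a linear character of a central kernel -/
theorem exists_monomial_rep {C Q : Type*} [Group C] [Group Q] [Finite Q] (σ : C →* Q)
    (hσ : Function.Surjective σ) (hK : σ.ker ≤ Subgroup.center C) (lam : σ.ker →* ℂˣ) :
    ∃ (n : ℕ) (ρ : C →* GL (Fin n) ℂ), 0 < n ∧
      ∀ k (hk : k ∈ σ.ker), ρ k = Matrix.GeneralLinearGroup.scalar (Fin n) (lam ⟨k, hk⟩) := by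
  classical
  set n := Nat.card Q with hn
  have e : Q ≃ Fin n := Finite.equivFin Q
  let s : Q → C := Function.surjInv hσ
  have hs : ∀ q, σ (s q) = q := Function.surjInv_eq hσ
  have hκ : ∀ (c : C) (q : Q), (s (σ c * q))⁻¹ * c * s q ∈ σ.ker := by
    intro c q
    rw [MonoidHom.mem_ker, map_mul, map_mul, map_inv, hs, hs]
    group
  let κ : C → Q → σ.ker := fun c q => ⟨(s (σ c * q))⁻¹ * c * s q, hκ c q⟩
  have hκmul : ∀ (c c' : C) (q : Q), κ (c * c') q = κ c (σ c' * q) * κ c' q := by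
    intro c c' q
    apply Subtype.ext
    show (s (σ (c * c') * q))⁻¹ * (c * c') * s q =
      ((s (σ c * (σ c' * q)))⁻¹ * c * s (σ c' * q)) * ((s (σ c' * q))⁻¹ * c' * s q)
    rw [map_mul, mul_assoc (σ c)]
    group
  let M : C → Matrix (Fin n) (Fin n) ℂ := fun c i j =>
    if e.symm i = σ c * e.symm j then ((lam (κ c (e.symm j)) : ℂˣ) : ℂ) else 0
  have hM1 : M 1 = 1 := by
    ext i j
    have h1 : κ 1 (e.symm j) = 1 := by
      apply Subtype.ext
      show (s (σ 1 * e.symm j))⁻¹ * 1 * s (e.symm j) = 1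
      rw [map_one, one_mul, mul_one, inv_mul_cancel]
    show (if e.symm i = σ 1 * e.symm j then ((lam (κ 1 (e.symm j)) : ℂˣ) : ℂ) else 0) = _
    rw [h1, map_one, map_one, one_mul, Matrix.one_apply]
    simp
  have hMmul : ∀ c c', M (c * c') = M c * M c' := by
    intro c c'
    ext i j
    rw [Matrix.mul_apply, Finset.sum_eq_single (e (σ c' * e.symm j))]
    · show (if e.symm i = σ (c * c') * e.symm j then ((lam (κ (c * c') (e.symm j)) : ℂˣ) : ℂ) else 0) =
        (if e.symm i = σ c * e.symm (e (σ c' * e.symm j)) then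
          ((lam (κ c (e.symm (e (σ c' * e.symm j)))) : ℂˣ) : ℂ) else 0) *
        (if e.symm (e (σ c' * e.symm j)) = σ c' * e.symm j then
          ((lam (κ c' (e.symm j)) : ℂˣ) : ℂ) else 0)
      rw [Equiv.symm_apply_apply, if_pos rfl, hκmul, map_mul, map_mul, mul_assoc (σ c)]
      split_ifs
      · simp
      · simp
    · intro l _ hl
      have : ¬ e.symm l = σ c' * e.symm j := by
        intro h
        apply hl
        rw [← h, Equiv.apply_symm_apply]
      show _ * (if e.symm l = σ c' * e.symm j then _ else 0) = 0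
      rw [if_neg this, mul_zero]
    · intro h
      exact absurd (Finset.mem_univ _) h
  let Mh : C →* Matrix (Fin n) (Fin n) ℂ :=
    { toFun := M
      map_one' := hM1
      map_mul' := hMmul }
  refine ⟨n, Mh.toHomUnits, Nat.card_pos, ?_⟩
  intro k hk
  apply Units.ext
  show M k = _
  rw [Matrix.GeneralLinearGroup.coe_scalar, Matrix.scalar_apply]
  ext i j
  have h1 : κ k (e.symm j) = ⟨k, hk⟩ := by
    apply Subtype.ext
    show (s (σ k * e.symm j))⁻¹ * k * s (e.symm j) = k
    rw [MonoidHom.mem_ker.mp hk, one_mul, mul_assoc, ← (Subgroup.mem_center_iff.mp (hK hk)),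
      inv_mul_cancel_left]
  show (if e.symm i = σ k * e.symm j then ((lam (κ k (e.symm j)) : ℂˣ) : ℂ) else 0) = _
  rw [h1, MonoidHom.mem_ker.mp hk, one_mul, Matrix.diagonal_apply]
  simp

theorem scalar_eq_one_iff {n : ℕ} (hn : 0 < n) (u : ℂˣ) :
    Matrix.GeneralLinearGroup.scalar (Fin n) u = 1 ↔ u = 1 := by
  constructor
  · intro h
    have h1 : ((Matrix.GeneralLinearGroup.scalar (Fin n) u : GL (Fin n) ℂ) : Matrix (Fin n) (Fin n) ℂ)
        ⟨0, hn⟩ ⟨0, hn⟩ = (1 : Matrix (Fin n) (Fin n) ℂ) ⟨0, hn⟩ ⟨0, hn⟩ := by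
      rw [h]; rfl
    rw [Matrix.GeneralLinearGroup.coe_scalar, Matrix.scalar_apply, Matrix.diagonal_apply_eq,
      Matrix.one_apply_eq] at h1
    exact Units.ext h1
  · rintro rfl
    exact map_one _

end Cfsg.Agent.Lib.Helper21.Schur
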