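import Mathlib
import Cfsg.Agent.CharLib.L.Linear
import Cfsg.Agent.CharLib.Coprime

set_option autoImplicit false

namespace Cfsg.Agent.Lib.Helper21

open Module Cfsg Cfsg.Agent.CharLib Cfsg.Agent.CharLib.L
open scoped ComplexConjugate

/-- a faithful representation of prime degree `p` of a `p`-group: either the group is abelian or every
central element has character value of norm `p` -/
theorem comm_or_norm_eq_of_pgroup {P : Type*} [Group P] [Finite P] (p : ℕ) (hp : p.Prime)
    (hP : IsPGroup p P) {V : Type*} [AddCommGroup V] [Module ℂ V] [FiniteDimensional ℂ V]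
    (ρ : Representation ℂ P V) (hfaithful : Function.Injective ρ) (hdeg : finrank ℂ V = p) :
    (∀ a b : P, a * b = b * a) ∨ ∀ z ∈ Subgroup.center P, ‖ρ.character z‖ = (p : ℝ) := by
  classical
  haveI : Fact p.Prime := ⟨hp⟩
  obtain ⟨m, hm⟩ := exists_decomp_rep V ρ
  have hone : (finrank ℂ V : ℂ) = ∑ χ : IrrCharacter P, (m χ : ℂ) * (χ : P → ℂ) 1 := by
    rw [← Representation.char_one ρ, hm]; simp [Finset.sum_apply]
  have hd : ∀ ψ : IrrCharacter P, ∃ k : ℕ, 0 < k ∧ (ψ : P → ℂ) 1 = k ∧ k ∣ Nat.card P :=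
    fun ψ => irr_degree_dvd ψ
  choose d hd0 hd' hd2 using hd
  have hsumN : p = ∑ ψ : IrrCharacter P, m ψ * d ψ := by
    have : (finrank ℂ V : ℂ) = ((∑ ψ : IrrCharacter P, m ψ * d ψ : ℕ) : ℂ) := by
      rw [hone]; push_cast
      exact Finset.sum_congr rfl fun ψ _ => by rw [hd' ψ]
    rw [← hdeg]
    exact_mod_cast this
  by_cases hex : ∃ ψ : IrrCharacter P, m ψ ≠ 0 ∧ d ψ ≠ 1
  · right
    obtain ⟨ψ, hψ0, hψ1⟩ := hex
    obtain ⟨k, hk⟩ := hP.exists_card_eq
    have hpd : p ∣ d ψ := by
      have h1 := hd2 ψ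
      rw [hk] at h1
      obtain ⟨j, _, hj⟩ := (Nat.dvd_prime_pow hp).mp h1
      rw [hj]
      rcases Nat.eq_zero_or_pos j with h0 | h0
      · rw [h0, pow_zero] at hj; exact absurd hj hψ1
      · exact dvd_pow_self p h0.ne'
    have hsplit := Finset.add_sum_erase Finset.univ (fun ψ' => m ψ' * d ψ') (Finset.mem_univ ψ)
    rw [← hsumN] at hsplit
    have hle : p ≤ d ψ := Nat.le_of_dvd (hd0 ψ) hpd
    have hge : d ψ ≤ m ψ * d ψ := Nat.le_mul_of_pos_left _ (Nat.pos_of_ne_zero hψ0)
    have hrest : ∑ ψ' ∈ Finset.univ.erase ψ, m ψ' * d ψ' = 0 := by omega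
    have hmd : m ψ * d ψ = p := by omega
    have hdp : d ψ = p := by omega
    have hm1 : m ψ = 1 := by
      rw [hdp] at hmd
      exact Nat.eq_of_mul_eq_mul_right hp.pos (by rw [hmd, one_mul])
    have hzero : ∀ ψ' : IrrCharacter P, ψ' ≠ ψ → m ψ' = 0 := by
      intro ψ' hne
      have h1 := (Finset.sum_eq_zero_iff.mp hrest) ψ' (Finset.mem_erase.mpr ⟨hne, Finset.mem_univ _⟩)
      rcases Nat.mul_eq_zero.mp h1 with h | h
      · exact h
      · exact absurd h (hd0 ψ').ne'
    have hchar : ρ.character = (ψ : P → ℂ) := by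
      rw [hm, Finset.sum_eq_single ψ]
      · rw [hm1]; simp
      · intro ψ' _ hne
        rw [hzero ψ' hne]; simp
      · intro h; exact absurd (Finset.mem_univ _) h
    intro z hz
    obtain ⟨n', ρ', hirr, hch⟩ := ψ.2
    haveI := hirr
    have hsc : ∃ ω : ℂ, ρ' z = ω • LinearMap.id := by
      apply schur ρ' (ρ' z)
      intro g
      have h1 : ρ' z * ρ' g = ρ' g * ρ' z := by
        rw [← map_mul, ← map_mul, (Subgroup.mem_center_iff.mp hz g)]
      exact h1
    have h2 := (norm_character_eq_iff ρ' z).mpr hsc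
    rw [hchar, ← hch, h2]
    have h3 : (finrank ℂ (Fin n' → ℂ) : ℂ) = (p : ℂ) := by
      rw [← Representation.char_one ρ', hch, hd' ψ, hdp]
    exact_mod_cast h3
  · left
    push Not at hex
    intro a b
    have hlin : ∀ χ : IrrCharacter P, m χ ≠ 0 → (χ : P → ℂ) 1 = 1 := by
      intro χ hχ
      rw [hd' χ, hex χ hχ]; simp
    have hc : ρ.character (a * b * a⁻¹ * b⁻¹) = (finrank ℂ V : ℂ) := by
      rw [hone, hm]
      simp only [Finset.sum_apply, Pi.smul_apply, smul_eq_mul]
      refine Finset.sum_congr rfl fun χ _ => ?_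
      by_cases h0 : m χ = 0
      · simp [h0]
      · rw [irr_commutator_of_apply_one_eq_one χ (hlin χ h0), hlin χ h0]
    have hid := (character_eq_finrank_iff ρ _).mp hc
    have h1 : a * b * a⁻¹ * b⁻¹ = 1 := by
      apply hfaithful
      rw [hid, map_one]; rfl
    calc a * b = (a * b * a⁻¹ * b⁻¹) * (b * a) := by group
      _ = b * a := by rw [h1, one_mul]

theorem center_ne_bot_of_prime_degree {G : Type*} [Group G] [Finite G] (p : ℕ) (hp : p.Prime)
    (χ : Cfsg.IrrCharacter G) (hdeg : χ.1 1 = p) (hfaith : ∀ g : G, χ.1 g = χ.1 1 → g = 1)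
    (hdiv : p ^ 2 ∣ Nat.card G) : Subgroup.center G ≠ ⊥ := by
  classical
  intro hbot
  haveI : Fact p.Prime := ⟨hp⟩
  obtain ⟨n, ρ, hirr, hχ⟩ := χ.2
  haveI := hirr
  have hn : finrank ℂ (Fin n → ℂ) = p := by
    have : (finrank ℂ (Fin n → ℂ) : ℂ) = p := by rw [← Representation.char_one ρ, hχ, hdeg]
    exact_mod_cast this
  have hinj : Function.Injective ρ := by
    rw [injective_iff_map_eq_one]
    intro g hg
    apply hfaith
    rw [← hχ]
    show LinearMap.trace ℂ _ (ρ g) = LinearMap.trace ℂ _ (ρ 1)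
    rw [hg, map_one ρ]
  obtain ⟨P⟩ : Nonempty (Sylow p G) := inferInstance
  have claim1 : ∀ x : G, (∀ y ∈ (P : Subgroup G), y * x = x * y) → x ≠ 1 → χ.1 x = 0 := by
    intro x hx hx1
    have hle : (P : Subgroup G) ≤ Subgroup.centralizer ({x} : Set G) := by
      intro y hy
      rw [Subgroup.mem_centralizer_singleton_iff]
      exact hx y hy
    have hcop : Nat.Coprime (finrank ℂ (Fin n → ℂ)) (Subgroup.centralizer ({x} : Set G)).index := by
      rw [hn, Nat.Prime.coprime_iff_not_dvd hp]
      intro h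
      exact P.not_dvd_index (h.trans (Subgroup.index_dvd_of_le hle))
    rcases character_eq_zero_or_norm_eq ρ x hcop with h | h
    · rw [← hχ]; exact h
    · exfalso
      obtain ⟨ω, hω⟩ := (norm_character_eq_iff ρ x).mp h
      have hcen : x ∈ Subgroup.center G := by
        rw [Subgroup.mem_center_iff]
        intro y
        apply hinj
        rw [map_mul, map_mul, hω]
        ext v
        simp
      rw [hbot, Subgroup.mem_bot] at hcen
      exact hx1 hcen
  have hcardP : p ^ 2 ∣ Nat.card (P : Subgroup G) := by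
    rw [P.card_eq_multiplicity]
    apply pow_dvd_pow
    exact (Nat.Prime.pow_dvd_iff_le_factorization hp Nat.card_pos.ne').mp hdiv
  let ρP : Representation ℂ (P : Subgroup G) (Fin n → ℂ) := ρ.comp (P : Subgroup G).subtype
  have hρP : ∀ x : (P : Subgroup G), ρP.character x = χ.1 x := by
    intro x
    rw [← hχ]
    rfl
  have hinjP : Function.Injective ρP := hinj.comp Subtype.val_injective
  haveI : Nontrivial (P : Subgroup G) := by
    rw [← Finite.one_lt_card_iff_nontrivial]
    have h1 : 0 < Nat.card (P : Subgroup G) := Nat.card_pos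
    have h2 := Nat.le_of_dvd h1 hcardP
    have h3 : 1 < p ^ 2 := Nat.one_lt_pow (by norm_num) hp.one_lt
    omega
  have hcomm : ∀ a b : (P : Subgroup G), a * b = b * a := by
    rcases comm_or_norm_eq_of_pgroup p hp P.2 ρP hinjP hn with h | h
    · exact h
    · exfalso
      haveI := P.2.center_nontrivial
      obtain ⟨z, hz⟩ := exists_ne (1 : Subgroup.center (P : Subgroup G))
      have h1 := h z.1 z.2
      have h2 : χ.1 (z.1 : G) = 0 := by
        apply claim1
        · intro y hy
          exact congrArg Subtype.val ((Subgroup.mem_center_iff.mp z.2) ⟨y, hy⟩)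
        · intro h3
          apply hz
          apply Subtype.ext
          apply Subtype.ext
          exact h3
      rw [hρP, h2, norm_zero] at h1
      have : (p : ℝ) ≠ 0 := by exact_mod_cast hp.ne_zero
      exact this h1.symm
  cases nonempty_fintype (P : Subgroup G)
  obtain ⟨N, hN⟩ := classInner_char_nat (G := (P : Subgroup G))
    (isCharacter_restrict (isCharacter_of_irr χ.2) (P : Subgroup G))
    (isCharacter_of_irr isIrrCharacter_one)
  rw [classInner] at hN
  have hsum : ∑ g : (P : Subgroup G), χ.1 (g : G) * conj (1 : ℂ) = (p : ℂ) := by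
    rw [Finset.sum_eq_single (1 : (P : Subgroup G))]
    · simp [hdeg]
    · intro x _ hx
      rw [claim1 (x : G) (fun y hy => congrArg Subtype.val (hcomm ⟨y, hy⟩ x))
        (fun h => hx (Subtype.ext h)), zero_mul]
    · intro h; exact absurd (Finset.mem_univ _) h
  rw [hsum] at hN
  have hc0 : (Nat.card (P : Subgroup G) : ℂ) ≠ 0 := by exact_mod_cast Nat.card_pos.ne'
  have h4 : (p : ℂ) = ((N * Nat.card (P : Subgroup G) : ℕ) : ℂ) := by
    push_cast
    rw [← hN]
    field_simp
  have h5 : p = N * Nat.card (P : Subgroup G) := by exact_mod_cast h4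
  have h6 : p ^ 2 ∣ p := hcardP.trans (Dvd.intro_left N h5.symm)
  have h7 := Nat.le_of_dvd hp.pos h6
  have h8 : p < p ^ 2 := by
    rw [sq]
    exact lt_mul_of_one_lt_left hp.pos hp.one_lt
  omega

end Cfsg.Agent.Lib.Helper21
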