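import Mathlib
import Cfsg.Prelude.Def_KGroupFacts

set_option autoImplicit false

namespace Cfsg.Agent.Lib.Helper21

open scoped commutatorElement

/-- reduction `ZMod (2n) → ZMod n` -/
noncomputable def redHom (n : ℕ) : ZMod (2 * n) →+* ZMod n := ZMod.castHom (Dvd.intro_left 2 rfl) (ZMod n)

theorem redHom_n (n : ℕ) : redHom n (n : ZMod (2 * n)) = 0 := by
  rw [map_natCast]; simp

/-- The natural map from the dicyclic group of order `4n` to the dihedral group of order `2n`. -/
noncomputable def quatToDih (n : ℕ) : QuaternionGroup n →* DihedralGroup n :=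
  MonoidHom.mk' (fun g => match g with
    | QuaternionGroup.a i => DihedralGroup.r (redHom n i)
    | QuaternionGroup.xa i => DihedralGroup.sr (redHom n i)) (by
    rintro (i | i) (j | j)
    · simp [map_add]
    · simp [map_sub]
    · simp [map_add]
    · simp [map_add, map_sub, redHom_n])

@[simp] theorem quatToDih_a (n : ℕ) (i : ZMod (2 * n)) :
    quatToDih n (QuaternionGroup.a i) = DihedralGroup.r (redHom n i) := rfl

@[simp] theorem quatToDih_xa (n : ℕ) (i : ZMod (2 * n)) :
    quatToDih n (QuaternionGroup.xa i) = DihedralGroup.sr (redHom n i) := rfl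

theorem quatToDih_surjective (n : ℕ) : Function.Surjective (quatToDih n) := by
  rintro (i | i)
  · obtain ⟨j, hj⟩ := ZMod.castHom_surjective (Dvd.intro_left 2 rfl : n ∣ 2 * n) i
    exact ⟨QuaternionGroup.a j, by rw [quatToDih_a]; congr 1⟩
  · obtain ⟨j, hj⟩ := ZMod.castHom_surjective (Dvd.intro_left 2 rfl : n ∣ 2 * n) i
    exact ⟨QuaternionGroup.xa j, by rw [quatToDih_xa]; congr 1⟩

theorem mem_ker_quatToDih (n : ℕ) [NeZero n] (w : QuaternionGroup n) (hw : w ∈ (quatToDih n).ker) :
    ∃ t : ℕ, w = QuaternionGroup.a ((n * t : ℕ) : ZMod (2 * n)) := by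
  rw [MonoidHom.mem_ker] at hw
  rcases w with i | i
  · rw [quatToDih_a, DihedralGroup.one_def] at hw
    have h0 : redHom n i = 0 := by injection hw
    have h1 : ((i.val : ℕ) : ZMod (2 * n)) = i := ZMod.natCast_zmod_val i
    rw [← h1, map_natCast, ZMod.natCast_eq_zero_iff] at h0
    obtain ⟨t, ht⟩ := h0
    exact ⟨t, by rw [← ht, h1]⟩
  · rw [quatToDih_xa, DihedralGroup.one_def] at hw
    exact absurd hw (by intro h; injection h)

theorem quatToDih_isStem (n : ℕ) [NeZero n] (hn : Even n) : Cfsg.IsStemExtension (quatToDih n) := by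
  refine ⟨quatToDih_surjective n, ?_, ?_⟩
  · intro w hw
    obtain ⟨t, rfl⟩ := mem_ker_quatToDih n w hw
    have h2 : (((n * t : ℕ) : ZMod (2 * n))) + ((n * t : ℕ) : ZMod (2 * n)) = 0 := by
      rw [← Nat.cast_add, ZMod.natCast_eq_zero_iff]
      exact ⟨t, by ring⟩
    rw [Subgroup.mem_center_iff]
    rintro (j | j)
    · simp [add_comm]
    · simp only [QuaternionGroup.xa_mul_a, QuaternionGroup.a_mul_xa]
      congr 1
      rw [sub_eq_add_neg]
      congr 1
      exact eq_neg_of_add_eq_zero_left h2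
  · intro w hw
    obtain ⟨t, rfl⟩ := mem_ker_quatToDih n w hw
    obtain ⟨m, hm⟩ := hn
    have h1 : (QuaternionGroup.a 1 : QuaternionGroup n) ^ 2 =
        ⁅(QuaternionGroup.a 1 : QuaternionGroup n), (QuaternionGroup.xa 0 : QuaternionGroup n)⁆ := by
      rw [commutatorElement_def, eq_mul_inv_iff_mul_eq, eq_mul_inv_iff_mul_eq, sq]
      simp only [QuaternionGroup.xa_mul_a, QuaternionGroup.a_mul_xa, QuaternionGroup.a_mul_a]
      congr 1
      ring
    have h2 : (QuaternionGroup.a ((n * t : ℕ) : ZMod (2 * n)) : QuaternionGroup n) =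
        ((QuaternionGroup.a 1 : QuaternionGroup n) ^ 2) ^ (m * t) := by
      rw [← pow_mul, QuaternionGroup.a_one_pow]
      congr 2
      rw [hm]; ring
    rw [h2, h1]
    apply Subgroup.pow_mem
    exact Subgroup.commutator_mem_commutator (Subgroup.mem_top _) (Subgroup.mem_top _)

theorem card_ker_quatToDih (n : ℕ) [NeZero n] : Nat.card (quatToDih n).ker = 2 := by
  have h1 := (quatToDih n).ker.card_mul_index
  rw [Subgroup.index_ker, MonoidHom.range_eq_top.mpr (quatToDih_surjective n), Subgroup.card_top,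
    DihedralGroup.nat_card, Nat.card_eq_fintype_card (α := QuaternionGroup n), QuaternionGroup.card] at h1
  have hn : 0 < n := Nat.pos_of_ne_zero (NeZero.ne n)
  nlinarith

end Cfsg.Agent.Lib.Helper21
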