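import Mathlib
import Cfsg.Prelude.Def_KGroupFacts
import Cfsg.Agent.Lib.Helper21.CentralExt

set_option autoImplicit false

namespace Cfsg.Agent.Lib.Helper21.Schur

open scoped commutatorElement

universe u v w

/-- a homomorphism from a commutative group to a free abelian group of finite rank splits over its range -/
theorem exists_section_of_free {N M ι : Type*} [CommGroup N] [CommGroup M] [Finite ι]
    (b : Module.Basis ι ℤ (Additive M)) (f : N →* M) :
    ∃ s : f.range →* N, ∀ w, f (s w) = w := by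
  let fl : Additive N →ₗ[ℤ] Additive M := (MonoidHom.toAdditive f).toIntLinearMap
  obtain ⟨n, ⟨b'⟩⟩ := Submodule.nonempty_basis_of_pid b (LinearMap.range fl)
  haveI : Module.Free ℤ (LinearMap.range fl) := Module.Free.of_basis b'
  obtain ⟨s, hs⟩ := Module.projective_lifting_property fl.rangeRestrict LinearMap.id
    fl.surjective_rangeRestrict
  have hmem : ∀ w : f.range, Additive.ofMul (w : M) ∈ LinearMap.range fl := by
    rintro ⟨_, x, rfl⟩
    exact ⟨Additive.ofMul x, rfl⟩
  refine ⟨MonoidHom.mk' (fun w => Additive.toMul (s ⟨Additive.ofMul (w : M), hmem w⟩)) ?_, ?_⟩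
  · intro a c
    have : (⟨Additive.ofMul ((a * c : f.range) : M), hmem (a * c)⟩ : LinearMap.range fl) =
        ⟨Additive.ofMul (a : M), hmem a⟩ + ⟨Additive.ofMul (c : M), hmem c⟩ := rfl
    rw [this, map_add]
    rfl
  · intro w
    have h1 := LinearMap.congr_fun hs ⟨Additive.ofMul (w : M), hmem w⟩
    have h2 : fl (s ⟨Additive.ofMul (w : M), hmem w⟩) = Additive.ofMul (w : M) :=
      congrArg Subtype.val h1
    exact h2

variable {X : Type u} {Q : Type v} [Group Q] (φ : FreeGroup X →* Q)

/-- `[F, R]` -/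
def FR : Subgroup (FreeGroup X) := ⁅(⊤ : Subgroup (FreeGroup X)), φ.ker⁆

instance FR_normal : (FR φ).Normal := by unfold FR; infer_instance

/-- `F / [F, R]` -/
abbrev Hgrp : Type u := FreeGroup X ⧸ FR φ

theorem FR_le_ker : FR φ ≤ φ.ker := Subgroup.commutator_le_right _ _

/-- the projection `F / [F, R] → Q` -/
def bar : Hgrp φ →* Q := QuotientGroup.lift (FR φ) φ (FR_le_ker φ)

theorem bar_mk (x : FreeGroup X) : bar φ (QuotientGroup.mk x) = φ x := rfl

theorem bar_surjective (hφ : Function.Surjective φ) : Function.Surjective (bar φ) := by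
  intro q
  obtain ⟨x, rfl⟩ := hφ q
  exact ⟨QuotientGroup.mk x, rfl⟩

theorem ker_bar_le_center : (bar φ).ker ≤ Subgroup.center (Hgrp φ) := by
  intro z hz
  obtain ⟨r, rfl⟩ := QuotientGroup.mk_surjective z
  have hr : r ∈ φ.ker := hz
  rw [Subgroup.mem_center_iff]
  intro h
  obtain ⟨f, rfl⟩ := QuotientGroup.mk_surjective h
  rw [← QuotientGroup.mk_mul, ← QuotientGroup.mk_mul, eq_comm, QuotientGroup.eq]
  have h1 : ⁅f, r⁆ ∈ FR φ := Subgroup.commutator_mem_commutator (Subgroup.mem_top f) hr
  have h2 : (r * f)⁻¹ * (f * r) = (r * f)⁻¹ * ⁅f, r⁆ * (r * f)⁻¹⁻¹ := by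
    rw [commutatorElement_def]; group
  rw [h2]
  exact (FR_normal φ).conj_mem _ h1 _

theorem FR_le_commutator : FR φ ≤ commutator (FreeGroup X) := by
  rw [commutator_def]
  exact Subgroup.commutator_mono le_rfl le_top

/-- the map to the free abelian group -/
def ab : Hgrp φ →* Abelianization (FreeGroup X) :=
  QuotientGroup.lift (FR φ) Abelianization.of (by rw [Abelianization.ker_of]; exact FR_le_commutator φ)

theorem ker_ab : (ab φ).ker = commutator (Hgrp φ) := by
  apply le_antisymm
  · intro h hh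
    obtain ⟨f, rfl⟩ := QuotientGroup.mk_surjective h
    have h1 : f ∈ (Abelianization.of (G := FreeGroup X)).ker := hh
    rw [Abelianization.ker_of] at h1
    have h2 : (commutator (FreeGroup X)).map (QuotientGroup.mk' (FR φ)) ≤ commutator (Hgrp φ) := by
      rw [commutator_def, Subgroup.map_commutator, commutator_def]
      exact Subgroup.commutator_mono le_top le_top
    exact h2 ⟨f, h1, rfl⟩
  · exact Abelianization.commutator_subset_ker _

theorem exists_lift {Q' : Type*} {E : Type*} [Group Q'] [Group E] (g : Q →* Q') (ψ : E →* Q')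
    (hψ : Function.Surjective ψ) (hk : ψ.ker ≤ Subgroup.center E) :
    ∃ θ : Hgrp φ →* E, ψ.comp θ = g.comp (bar φ) := by
  let θ₀ : FreeGroup X →* E := FreeGroup.lift (fun x => Function.surjInv hψ (g (φ (FreeGroup.of x))))
  have h0 : ψ.comp θ₀ = g.comp φ := by
    apply FreeGroup.ext_hom
    intro x
    show ψ (θ₀ (FreeGroup.of x)) = g (φ (FreeGroup.of x))
    rw [FreeGroup.lift_apply_of, Function.surjInv_eq hψ]
  have h1 : FR φ ≤ θ₀.ker := by
    unfold FR
    rw [Subgroup.commutator_le]
    intro f _ r hr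
    rw [MonoidHom.mem_ker, map_commutatorElement]
    have h2 : θ₀ r ∈ Subgroup.center E := by
      apply hk
      rw [MonoidHom.mem_ker]
      have : ψ (θ₀ r) = g (φ r) := DFunLike.congr_fun h0 r
      rw [this, MonoidHom.mem_ker.mp hr, map_one]
    rw [commutatorElement_eq_one_iff_mul_comm]
    exact (Subgroup.mem_center_iff.mp h2) _
  refine ⟨QuotientGroup.lift (FR φ) θ₀ h1, ?_⟩
  apply MonoidHom.ext
  intro h
  obtain ⟨f, rfl⟩ := QuotientGroup.mk_surjective h
  exact DFunLike.congr_fun h0 f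

theorem exists_complement [Finite X] (N : Subgroup (Hgrp φ)) (hN : N ≤ Subgroup.center (Hgrp φ)) :
    ∃ S : Subgroup (Hgrp φ), S ≤ N ∧ S ⊓ commutator (Hgrp φ) = ⊥ ∧
      S ⊔ (N ⊓ commutator (Hgrp φ)) = N := by
  letI : CommGroup N :=
    { (inferInstance : Group N) with
      mul_comm := fun a c => Subtype.ext ((Subgroup.mem_center_iff.mp (hN c.2)) a) }
  let f : N →* Abelianization (FreeGroup X) := (ab φ).comp N.subtype
  obtain ⟨s, hs⟩ := exists_section_of_free (M := Abelianization (FreeGroup X))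
    (FreeAbelianGroup.basis X) f
  refine ⟨s.range.map N.subtype, Subgroup.map_subtype_le _, ?_, ?_⟩
  · rw [eq_bot_iff]
    rintro x ⟨⟨_, ⟨w, rfl⟩, rfl⟩, hx2⟩
    have hx3 : N.subtype (s w) ∈ commutator (Hgrp φ) := hx2
    rw [← ker_ab] at hx3
    have h1 : f (s w) = 1 := hx3
    rw [hs w] at h1
    have h2 : w = 1 := Subtype.ext h1
    rw [h2, map_one]
    exact Subgroup.one_mem _
  · apply le_antisymm
    · exact sup_le (Subgroup.map_subtype_le _) inf_le_left
    · intro x hx
      let w : f.range := ⟨f ⟨x, hx⟩, ⟨_, rfl⟩⟩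
      have h1 : x = (s w : Hgrp φ) * ((s w : Hgrp φ)⁻¹ * x) := by group
      rw [h1]
      apply Subgroup.mul_mem
      · exact Subgroup.mem_sup_left ⟨s w, ⟨w, rfl⟩, rfl⟩
      · apply Subgroup.mem_sup_right
        refine ⟨N.mul_mem (N.inv_mem (s w).2) hx, ?_⟩
        show (s w : Hgrp φ)⁻¹ * x ∈ commutator (Hgrp φ)
        rw [← ker_ab, MonoidHom.mem_ker, map_mul, map_inv]
        have h2 : ab φ (s w : Hgrp φ) = f (s w) := rfl
        have h3 : ab φ x = f ⟨x, hx⟩ := rfl
        rw [h2, hs w, h3]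
        exact inv_mul_cancel _

end Cfsg.Agent.Lib.Helper21.Schur
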