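import Mathlib
import Cfsg.Agent.Lib.Helper21.SchurBase

set_option autoImplicit false

namespace Cfsg.Agent.Lib.Helper21.Schur

open scoped commutatorElement

universe u v w

section abstract

variable {H : Type*} {Q : Type*} [Group H] [Group Q] (π : H →* Q)

/-- `ker π ∩ H'` -/
def Mult : Subgroup H := π.ker ⊓ commutator H

theorem normal_of_le_center {S : Subgroup H} (h : S ≤ Subgroup.center H) : S.Normal := by
  constructor
  intro z hz g
  have := (Subgroup.mem_center_iff.mp (h hz)) g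
  rw [this, mul_inv_cancel_right]
  exact hz

theorem commutatorElement_mem_commutator (a b : H) : ⁅a, b⁆ ∈ commutator H :=
  Subgroup.commutator_mem_commutator (Subgroup.mem_top a) (Subgroup.mem_top b)

theorem commutator_le_map {Δ : Type*} [Group Δ] (hπ : Function.Surjective π) (τ : Δ →* Q)
    (hτ : τ.ker ≤ Subgroup.center Δ) (θ : H →* Δ) (hθ : τ.comp θ = π) :
    commutator Δ ≤ (commutator H).map θ := by
  rw [commutator_eq_closure, Subgroup.closure_le]
  rintro _ ⟨a, b, rfl⟩
  have key : ∀ a : Δ, ∃ h : H, a * (θ h)⁻¹ ∈ Subgroup.center Δ := by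
    intro a
    obtain ⟨h, hh⟩ := hπ (τ a)
    refine ⟨h, hτ ?_⟩
    have : τ (θ h) = π h := DFunLike.congr_fun hθ h
    rw [MonoidHom.mem_ker, map_mul, map_inv, this, hh, mul_inv_cancel]
  obtain ⟨ha, h1⟩ := key a
  obtain ⟨hb, h2⟩ := key b
  rw [commutatorElement_eq_of_central h1 h2, ← map_commutatorElement]
  exact ⟨⁅ha, hb⁆, commutatorElement_mem_commutator ha hb, rfl⟩

theorem exists_mult_of_mem_ker {Δ : Type*} [Group Δ] (hπ : Function.Surjective π) (τ : Δ →* Q)
    (hτ : Cfsg.IsStemExtension τ) (θ : H →* Δ) (hθ : τ.comp θ = π) :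
    ∀ k ∈ τ.ker, ∃ t ∈ Mult π, θ t = k := by
  intro k hk
  obtain ⟨h, hh, rfl⟩ := commutator_le_map π hπ τ hτ.2.1 θ hθ (hτ.2.2 hk)
  refine ⟨h, ⟨?_, hh⟩, rfl⟩
  have : τ (θ h) = π h := DFunLike.congr_fun hθ h
  show π h = 1
  rw [← this]
  exact hk

theorem surjective_of_stem {Δ : Type*} [Group Δ] (hπ : Function.Surjective π) (τ : Δ →* Q)
    (hτ : Cfsg.IsStemExtension τ) (θ : H →* Δ) (hθ : τ.comp θ = π) : Function.Surjective θ := by
  intro d
  obtain ⟨h, hh⟩ := hπ (τ d)
  have h1 : τ (θ h) = π h := DFunLike.congr_fun hθ h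
  have h2 : d * (θ h)⁻¹ ∈ τ.ker := by
    rw [MonoidHom.mem_ker, map_mul, map_inv, h1, hh, mul_inv_cancel]
  obtain ⟨t, _, ht⟩ := exists_mult_of_mem_ker π hπ τ hτ θ hθ _ h2
  refine ⟨t * h, ?_⟩
  rw [map_mul, ht]
  group

/-- the induced extension on the quotient by a subgroup of the kernel -/
def quotLift (S : Subgroup H) [S.Normal] (hS : S ≤ π.ker) : H ⧸ S →* Q := QuotientGroup.lift S π hS

theorem quotLift_isStem (hπ : Function.Surjective π) (hZ : π.ker ≤ Subgroup.center H)
    (S : Subgroup H) [S.Normal] (hS : S ≤ π.ker) (h2 : S ⊔ Mult π = π.ker) :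
    Cfsg.IsStemExtension (quotLift π S hS) := by
  refine ⟨?_, ?_, ?_⟩
  · intro q
    obtain ⟨h, rfl⟩ := hπ q
    exact ⟨QuotientGroup.mk h, rfl⟩
  · intro z hz
    obtain ⟨h, rfl⟩ := QuotientGroup.mk_surjective z
    have hh : h ∈ π.ker := hz
    rw [Subgroup.mem_center_iff]
    intro c
    obtain ⟨c, rfl⟩ := QuotientGroup.mk_surjective c
    rw [← QuotientGroup.mk_mul, ← QuotientGroup.mk_mul, (Subgroup.mem_center_iff.mp (hZ hh)) c]
  · intro z hz
    obtain ⟨h, rfl⟩ := QuotientGroup.mk_surjective z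
    have hh : h ∈ π.ker := hz
    rw [← h2] at hh
    obtain ⟨s, hs, t, ht, rfl⟩ := Subgroup.mem_sup_of_normal_left.mp hh
    have h3 : (QuotientGroup.mk (s * t) : H ⧸ S) = QuotientGroup.mk t := by
      rw [QuotientGroup.mk_mul, (QuotientGroup.eq_one_iff s).mpr hs, one_mul]
    rw [h3]
    have h4 : (commutator H).map (QuotientGroup.mk' S) ≤ commutator (H ⧸ S) := by
      rw [commutator_def, Subgroup.map_commutator, commutator_def]
      exact Subgroup.commutator_mono le_top le_top
    exact h4 ⟨t, ht.2, rfl⟩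

theorem quotLift_ker_equiv (S : Subgroup H) [S.Normal] (hS : S ≤ π.ker)
    (h1 : S ⊓ commutator H = ⊥) (h2 : S ⊔ Mult π = π.ker) :
    Nonempty ((quotLift π S hS).ker ≃* Mult π) := by
  let e : Mult π →* (quotLift π S hS).ker :=
    { toFun := fun t => ⟨QuotientGroup.mk t.1, t.2.1⟩
      map_one' := rfl
      map_mul' := fun a b => rfl }
  have hbij : Function.Bijective e := by
    constructor
    · rw [injective_iff_map_eq_one]
      intro t ht
      have h3 : (QuotientGroup.mk t.1 : H ⧸ S) = 1 := congrArg Subtype.val ht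
      rw [QuotientGroup.eq_one_iff] at h3
      have h4 : t.1 ∈ S ⊓ commutator H := ⟨h3, t.2.2⟩
      rw [h1, Subgroup.mem_bot] at h4
      exact Subtype.ext h4
    · rintro ⟨z, hz⟩
      obtain ⟨h, rfl⟩ := QuotientGroup.mk_surjective z
      have hh : h ∈ π.ker := hz
      rw [← h2] at hh
      obtain ⟨s, hs, t, ht, rfl⟩ := Subgroup.mem_sup_of_normal_left.mp hh
      refine ⟨⟨t, ht⟩, ?_⟩
      apply Subtype.ext
      show (QuotientGroup.mk t : H ⧸ S) = QuotientGroup.mk (s * t)
      rw [QuotientGroup.mk_mul, (QuotientGroup.eq_one_iff s).mpr hs, one_mul]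
  exact ⟨(MulEquiv.ofBijective e hbij).symm⟩

theorem finite_mult [Finite Q] (hπ : Function.Surjective π) (hZ : π.ker ≤ Subgroup.center H) :
    Finite (Mult π) := by
  haveI := finite_commutatorSet_of_central π hπ hZ
  exact Finite.of_injective (Subgroup.inclusion (inf_le_right : Mult π ≤ commutator H))
    (Subgroup.inclusion_injective _)

theorem finite_of_finite_ker {C : Type*} [Group C] [Finite Q] (σ : C →* Q) [Finite σ.ker] : Finite C :=
  Finite.of_subgroup_quotient σ.ker

end abstract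

end Cfsg.Agent.Lib.Helper21.Schur
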