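import Mathlib
import Cfsg.Agent.Lib.Helper21.SchurCover

set_option autoImplicit false

namespace Cfsg.Agent.Lib.Helper21.Schur

open scoped commutatorElement

universe u v w

/-- the map from `ker π ∩ H'` onto the kernel of a stem extension -/
def multToKer {H Q Δ : Type*} [Group H] [Group Q] [Group Δ] (π : H →* Q) (τ : Δ →* Q) (θ : H →* Δ)
    (hθ : τ.comp θ = π) : Mult π →* τ.ker :=
  (θ.comp (Mult π).subtype).codRestrict τ.ker (fun t => by
    have : τ (θ t.1) = π t.1 := DFunLike.congr_fun hθ t.1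
    show τ (θ t.1) = 1
    rw [this]
    exact t.2.1)

theorem multToKer_surjective {H Q Δ : Type*} [Group H] [Group Q] [Group Δ] (π : H →* Q)
    (hπ : Function.Surjective π) (τ : Δ →* Q) (hτ : Cfsg.IsStemExtension τ) (θ : H →* Δ)
    (hθ : τ.comp θ = π) : Function.Surjective (multToKer π τ θ hθ) := by
  rintro ⟨k, hk⟩
  obtain ⟨t, ht, rfl⟩ := exists_mult_of_mem_ker π hπ τ hτ θ hθ k hk
  exact ⟨⟨t, ht⟩, rfl⟩

section concrete

variable {X : Type u} {Q : Type v} [Group Q] (φ : FreeGroup X →* Q)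

instance multCommGroup : CommGroup (Mult (bar φ)) :=
  { (inferInstance : Group (Mult (bar φ))) with
    mul_comm := fun a b => Subtype.ext ((Subgroup.mem_center_iff.mp (ker_bar_le_center φ b.2.1)) a) }

theorem exists_cover [Finite X] [Finite Q] (hφ : Function.Surjective φ) (N : Subgroup (Hgrp φ))
    (hN : N ≤ (bar φ).ker) (hNT : N ⊔ Mult (bar φ) = (bar φ).ker) :
    ∃ (S : Subgroup (Hgrp φ)) (_ : S.Normal) (hS : S ≤ (bar φ).ker), S ≤ N ∧
      Cfsg.IsStemExtension (quotLift (bar φ) S hS) ∧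
      Nonempty ((quotLift (bar φ) S hS).ker ≃* Mult (bar φ)) ∧ Finite (Hgrp φ ⧸ S) := by
  obtain ⟨S, hSN, h1, h2⟩ := exists_complement φ N (hN.trans (ker_bar_le_center φ))
  have hS : S ≤ (bar φ).ker := hSN.trans hN
  haveI hSn : S.Normal := normal_of_le_center (hS.trans (ker_bar_le_center φ))
  have h3 : S ⊔ Mult (bar φ) = (bar φ).ker := by
    apply le_antisymm
    · exact sup_le hS inf_le_left
    · rw [← hNT, ← h2]
      refine sup_le (sup_le le_sup_left ?_) le_sup_right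
      exact le_trans (inf_le_inf_right _ hN) le_sup_right
  have hstem := quotLift_isStem (bar φ) (bar_surjective φ hφ) (ker_bar_le_center φ) S hS h3
  obtain ⟨e⟩ := quotLift_ker_equiv (bar φ) S hS h1 h3
  haveI := finite_mult (bar φ) (bar_surjective φ hφ) (ker_bar_le_center φ)
  haveI : Finite (quotLift (bar φ) S hS).ker := Finite.of_equiv _ e.symm.toEquiv
  exact ⟨S, hSn, hS, hSN, hstem, ⟨e⟩, finite_of_finite_ker (quotLift (bar φ) S hS)⟩

end concrete

section sameUniverse

variable {X Q : Type u} [Group Q] (φ : FreeGroup X →* Q)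

theorem hasSchurMultiplier_mult [Finite X] [Finite Q] (hφ : Function.Surjective φ) :
    Cfsg.HasSchurMultiplier Q (Mult (bar φ)) := by
  constructor
  · obtain ⟨S, hSn, hS, _, hstem, he, hfin⟩ := exists_cover φ hφ (bar φ).ker le_rfl
      (sup_eq_left.mpr inf_le_left)
    exact ⟨Hgrp φ ⧸ S, inferInstance, hfin, quotLift (bar φ) S hS, hstem, he⟩
  · intro Γ _ _ σ hσ
    obtain ⟨θ, hθ⟩ := exists_lift φ (MonoidHom.id Q) σ hσ.1 hσ.2.1
    rw [MonoidHom.id_comp] at hθ
    exact ⟨multToKer (bar φ) σ θ hθ, multToKer_surjective (bar φ) (bar_surjective φ hφ) σ hσ θ hθ⟩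

theorem mulEquiv_mult_of_hasSchurMultiplier [Finite X] [Finite Q] (hφ : Function.Surjective φ)
    {A : Type w} [CommGroup A] (hA : Cfsg.HasSchurMultiplier Q A) :
    Nonempty (A ≃* Mult (bar φ)) := by
  obtain ⟨⟨Γ₀, _, _, σ₀, hσ₀, ⟨e₀⟩⟩, hA2⟩ := hA
  obtain ⟨⟨C, _, _, σC, hσC, ⟨eC⟩⟩, hM2⟩ := hasSchurMultiplier_mult φ hφ
  obtain ⟨f₁, hf₁⟩ := hM2 Γ₀ σ₀ hσ₀
  obtain ⟨f₂, hf₂⟩ := hA2 C σC hσC
  let g₁ : Mult (bar φ) →* A := e₀.toMonoidHom.comp f₁
  let g₂ : A →* Mult (bar φ) := eC.toMonoidHom.comp f₂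
  have hg₁ : Function.Surjective g₁ := e₀.surjective.comp hf₁
  have hg₂ : Function.Surjective g₂ := eC.surjective.comp hf₂
  haveI := finite_mult (bar φ) (bar_surjective φ hφ) (ker_bar_le_center φ)
  haveI : Finite A := Finite.of_surjective g₁ hg₁
  have c1 := Nat.card_le_card_of_surjective g₁ hg₁
  have c2 := Nat.card_le_card_of_surjective g₂ hg₂
  have hbij := (Nat.bijective_iff_surjective_and_card g₂).mpr ⟨hg₂, le_antisymm c1 c2⟩
  exact ⟨MulEquiv.ofBijective g₂ hbij⟩

end sameUniverse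

/-- the standard free presentation of a group on its own elements -/
def std (Q : Type u) [Group Q] : FreeGroup Q →* Q := FreeGroup.lift id

theorem std_surjective (Q : Type u) [Group Q] : Function.Surjective (std Q) := by
  intro q
  exact ⟨FreeGroup.of q, by simp [std]⟩

end Cfsg.Agent.Lib.Helper21.Schur
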