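import Mathlib
import Cfsg.Agent.Lib.Helper21.SchurMain

set_option autoImplicit false

namespace Cfsg.Agent.Lib.Helper21.Schur

theorem map_commutator_of_surjective {H Q : Type*} [Group H] [Group Q] (f : H →* Q)
    (hf : Function.Surjective f) : (commutator H).map f = commutator Q := by
  rw [commutator_def, Subgroup.map_commutator, Subgroup.map_top_of_surjective f hf, ← commutator_def]

end Cfsg.Agent.Lib.Helper21.Schur
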