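import Mathlib
import Cfsg.Agent.Lib.Helper21.SchurAux

set_option autoImplicit false

namespace Cfsg.Agent.Lib.Helper21.Schur

open scoped commutatorElement

universe u v w

/-- homomorphisms into a divisible commutative group extend along injections -/
theorem exists_extension_of_divisible {N M D : Type*} [CommGroup N] [CommGroup M] [CommGroup D]
    (hD : ∀ k : ℕ, k ≠ 0 → ∀ d : D, ∃ c : D, c ^ k = d) (f : N →* M) (hf : Function.Injective f)
    (g : N →* D) : ∃ h : M →* D, h.comp f = g := by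
  letI : DivisibleBy (Additive D) ℕ := divisibleByOfSMulRightSurj (Additive D) ℕ (by
    intro n hn d
    obtain ⟨c, hc⟩ := hD n hn (Additive.toMul d)
    exact ⟨Additive.ofMul c, hc⟩)
  letI : DivisibleBy (Additive D) ℤ := AddGroup.divisibleByIntOfDivisibleByNat (Additive D)
  obtain ⟨h, hh⟩ := (Module.Baer.of_divisible (Additive D)).extension_property_addMonoidHom
    (MonoidHom.toAdditive f) hf (MonoidHom.toAdditive g)
  refine ⟨MonoidHom.toAdditive.symm h, ?_⟩
  ext x
  exact DFunLike.congr_fun hh (Additive.ofMul x)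

/-- two homomorphisms agreeing modulo the centre agree on the commutator subgroup -/
theorem eq_on_commutator_of_central {G X : Type*} [Group G] [Group X] (f₁ f₂ : G →* X)
    (h : ∀ g, f₁ g * (f₂ g)⁻¹ ∈ Subgroup.center X) : ∀ g ∈ commutator G, f₁ g = f₂ g := by
  have hle : commutator G ≤ f₁.eqLocus f₂ := by
    rw [commutator_eq_closure, Subgroup.closure_le]
    rintro _ ⟨a, b, rfl⟩
    show f₁ ⁅a, b⁆ = f₂ ⁅a, b⁆
    rw [map_commutatorElement, map_commutatorElement]
    exact commutatorElement_eq_of_central (h a) (h b)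
  exact fun g hg => hle hg

/-- Lifting projective representations (with values in a group with divisible centre) to a covering group. -/
theorem exists_lift_of_cover {Q : Type u} [Group Q] [Finite Q] {A : Type v} [CommGroup A]
    (hA : Cfsg.HasSchurMultiplier Q A) {Γ : Type w} [Group Γ] [Finite Γ] (σ : Γ →* Q)
    (hσ : Cfsg.IsStemExtension σ) (hk : Nonempty (σ.ker ≃* A)) {L : Type*} [Group L]
    (hL : ∀ k : ℕ, k ≠ 0 → ∀ d : Subgroup.center L, ∃ c : Subgroup.center L, c ^ k = d)
    (γ : Q →* L ⧸ Subgroup.center L) :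
    ∃ ρ : Γ →* L, (QuotientGroup.mk' (Subgroup.center L)).comp ρ = γ.comp σ := by
  set φ := std Q with hφdef
  have hφ : Function.Surjective φ := std_surjective Q
  obtain ⟨eA⟩ := mulEquiv_mult_of_hasSchurMultiplier φ hφ hA
  obtain ⟨ek⟩ := hk
  have hbs := bar_surjective φ hφ
  set b := bar φ with hb
  obtain ⟨θ, hθ⟩ := exists_lift φ (MonoidHom.id Q) σ hσ.1 hσ.2.1
  rw [MonoidHom.id_comp] at hθ
  have hθs := surjective_of_stem b hbs σ hσ θ hθ
  have hσθ : ∀ x, σ (θ x) = b x := fun x => DFunLike.congr_fun hθ x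
  have hN : θ.ker ≤ b.ker := by
    intro x hx
    rw [MonoidHom.mem_ker, ← hσθ, MonoidHom.mem_ker.mp hx, map_one]
  haveI := finite_mult b hbs (ker_bar_le_center φ)
  have hinj : Function.Injective (multToKer b σ θ hθ) := by
    have hs := multToKer_surjective b hbs σ hσ θ hθ
    have hc : Nat.card (Mult b) = Nat.card σ.ker :=
      Nat.card_congr (eA.symm.trans ek.symm).toEquiv
    exact ((Nat.bijective_iff_surjective_and_card _).mpr ⟨hs, hc⟩).1
  have hNc : ∀ x ∈ θ.ker, x ∈ commutator (Hgrp φ) → x = 1 := by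
    intro x hx hxc
    have h1 : multToKer b σ θ hθ ⟨x, hN hx, hxc⟩ = 1 := Subtype.ext hx
    have h2 := hinj (h1.trans (map_one _).symm)
    exact congrArg Subtype.val h2
  obtain ⟨θ', hθ'⟩ := exists_lift φ γ (QuotientGroup.mk' (Subgroup.center L))
    (QuotientGroup.mk'_surjective _) (by rw [QuotientGroup.ker_mk'])
  have hmk : ∀ x, (QuotientGroup.mk (θ' x) : L ⧸ Subgroup.center L) = γ (b x) :=
    fun x => DFunLike.congr_fun hθ' x
  have hcen : ∀ x ∈ θ.ker, θ' x ∈ Subgroup.center L := by
    intro x hx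
    rw [← QuotientGroup.eq_one_iff, hmk, MonoidHom.mem_ker.mp (hN hx), map_one]
  letI : CommGroup θ.ker :=
    { (inferInstance : Group θ.ker) with
      mul_comm := fun a c => Subtype.ext
        ((Subgroup.mem_center_iff.mp (ker_bar_le_center φ (hN c.2))) a) }
  let f : θ.ker →* Abelianization (FreeGroup Q) := (ab φ).comp θ.ker.subtype
  have hf : Function.Injective f := by
    rw [injective_iff_map_eq_one]
    intro x hx
    have h1 : (x : Hgrp φ) ∈ (ab φ).ker := hx
    rw [ker_ab] at h1
    exact Subtype.ext (hNc x x.2 h1)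
  let g : θ.ker →* Subgroup.center L :=
    (θ'.comp θ.ker.subtype).codRestrict (Subgroup.center L) (fun x => hcen x x.2)
  letI : CommGroup (Subgroup.center L) :=
    { (inferInstance : Group (Subgroup.center L)) with
      mul_comm := fun a c => Subtype.ext ((Subgroup.mem_center_iff.mp c.2) a) }
  obtain ⟨h, hh⟩ := exists_extension_of_divisible (D := Subgroup.center L) hL f hf g
  let μ : Hgrp φ →* Subgroup.center L := h.comp (ab φ)
  have hμ : ∀ x (hx : x ∈ θ.ker), ((μ x : Subgroup.center L) : L) = θ' x := by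
    intro x hx
    have := DFunLike.congr_fun hh ⟨x, hx⟩
    exact congrArg Subtype.val this
  have hμc : ∀ x (y : L), y * ((μ x : Subgroup.center L) : L)⁻¹ = ((μ x : Subgroup.center L) : L)⁻¹ * y := by
    intro x y
    exact (Subgroup.mem_center_iff.mp (Subgroup.inv_mem _ (μ x).2)) y
  let ρ' : Hgrp φ →* L := MonoidHom.mk' (fun x => θ' x * ((μ x : Subgroup.center L) : L)⁻¹) (by
    intro x y
    rw [map_mul, map_mul, Subgroup.coe_mul, mul_inv_rev, mul_assoc (θ' x), ← mul_assoc (θ' y),
      hμc x (θ' y * _), mul_assoc])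
  have hρ' : θ.ker ≤ ρ'.ker := by
    intro x hx
    show θ' x * ((μ x : Subgroup.center L) : L)⁻¹ = 1
    rw [hμ x hx, mul_inv_cancel]
  refine ⟨MonoidHom.liftOfSurjective θ hθs ⟨ρ', hρ'⟩, ?_⟩
  apply MonoidHom.ext
  intro c
  obtain ⟨x, rfl⟩ := hθs c
  show (QuotientGroup.mk ((MonoidHom.liftOfSurjective θ hθs ⟨ρ', hρ'⟩) (θ x)) : L ⧸ Subgroup.center L) =
    γ (σ (θ x))
  rw [MonoidHom.liftOfSurjective, MonoidHom.liftOfRightInverse_comp_apply, hσθ, ← hmk]
  show (QuotientGroup.mk (θ' x * ((μ x : Subgroup.center L) : L)⁻¹) : L ⧸ Subgroup.center L) = _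
  rw [QuotientGroup.mk_mul, (QuotientGroup.eq_one_iff _).mpr (Subgroup.inv_mem _ (μ x).2), mul_one]

end Cfsg.Agent.Lib.Helper21.Schur
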