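import Mathlib
import Cfsg.Agent.Lib.Helper21.SchurAux
import Cfsg.Agent.Lib.Helper21.SchurProj

set_option autoImplicit false

namespace Cfsg.Agent.Lib.Helper21.Schur

open scoped commutatorElement

universe u v w

theorem exists_cyclic_factor {Q : Type*} [Group Q] [Finite Q] (p : ℕ) (hpp : p.Prime)
    (hp : p ∣ Nat.card (Abelianization Q)) :
    ∃ (n : ℕ) (f : Q →* Multiplicative (ZMod n)) (x₀ : Q), p ∣ n ∧ 0 < n ∧
      f x₀ = Multiplicative.ofAdd 1 ∧ x₀ ^ n ∈ commutator Q := by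
  classical
  obtain ⟨ι, _, n, hn, ⟨E⟩⟩ := CommGroup.equiv_prod_multiplicative_zmod_of_finite (Abelianization Q)
  have hcard : Nat.card (Abelianization Q) = ∏ i, n i := by
    rw [Nat.card_congr E.toEquiv, Nat.card_pi]
    apply Finset.prod_congr rfl
    intro i _
    rw [Nat.card_congr Multiplicative.toAdd, Nat.card_zmod]
  rw [hcard] at hp
  obtain ⟨i, _, hi⟩ := (Prime.dvd_finsetProd_iff hpp.prime _).mp hp
  obtain ⟨x₀, hx₀⟩ := QuotientGroup.mk_surjective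
    (E.symm (Pi.mulSingle i (Multiplicative.ofAdd (1 : ZMod (n i)))))
  have hx₀' : Abelianization.of x₀ = E.symm (Pi.mulSingle i (Multiplicative.ofAdd (1 : ZMod (n i)))) :=
    hx₀
  refine ⟨n i, (Pi.evalMonoidHom _ i).comp (E.toMonoidHom.comp Abelianization.of), x₀, hi,
    lt_trans Nat.zero_lt_one (hn i), ?_, ?_⟩
  · show E (Abelianization.of x₀) i = _
    rw [hx₀', MulEquiv.apply_symm_apply, Pi.mulSingle_eq_same]
  · rw [← Abelianization.ker_of, MonoidHom.mem_ker, map_pow, hx₀', ← map_pow, ← Pi.mulSingle_pow,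
      ← ofAdd_nsmul]
    simp

section twist

variable {Γ Q : Type u} [Group Γ] [Group Q] (σ : Γ →* Q) (n : ℕ)
  (f : Q →* Multiplicative (ZMod n))

/-- reduction mod `n`, multiplicatively -/
def red : Multiplicative ℤ →* Multiplicative (ZMod n) :=
  AddMonoidHom.toMultiplicative (Int.castAddHom (ZMod n))

theorem red_apply (i : Multiplicative ℤ) :
    red n i = Multiplicative.ofAdd ((Multiplicative.toAdd i : ℤ) : ZMod n) := rfl

/-- the pull-back of `ℤ → ℤ/n` along `f ∘ σ` -/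
def DD : Subgroup (Γ × Multiplicative ℤ) :=
  MonoidHom.eqLocus ((f.comp σ).comp (MonoidHom.fst Γ (Multiplicative ℤ)))
    ((red n).comp (MonoidHom.snd Γ (Multiplicative ℤ)))

theorem mem_DD (x : Γ) (i : Multiplicative ℤ) : (x, i) ∈ DD σ n f ↔ f (σ x) = red n i := Iff.rfl

/-- the central extension `DD → Q` -/
def tau : DD σ n f →* Q := (σ.comp (MonoidHom.fst Γ (Multiplicative ℤ))).comp (DD σ n f).subtype

theorem tau_apply (d : DD σ n f) : tau σ n f d = σ d.1.1 := rfl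

theorem exists_DD [NeZero n] (x : Γ) : ∃ d : DD σ n f, d.1.1 = x := by
  refine ⟨⟨(x, Multiplicative.ofAdd (((Multiplicative.toAdd (f (σ x))).val : ℕ) : ℤ)), ?_⟩, rfl⟩
  rw [mem_DD, red_apply]
  simp

theorem tau_surjective [NeZero n] (hσ : Function.Surjective σ) :
    Function.Surjective (tau σ n f) := by
  intro q
  obtain ⟨x, rfl⟩ := hσ q
  obtain ⟨d, rfl⟩ := exists_DD σ n f x
  exact ⟨d, rfl⟩

theorem ker_tau_le_center (hσ : σ.ker ≤ Subgroup.center Γ) :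
    (tau σ n f).ker ≤ Subgroup.center (DD σ n f) := by
  intro d hd
  have h1 : d.1.1 ∈ Subgroup.center Γ := hσ hd
  rw [Subgroup.mem_center_iff]
  intro c
  apply Subtype.ext
  apply Prod.ext
  · exact (Subgroup.mem_center_iff.mp h1) c.1.1
  · exact mul_comm _ _

theorem snd_eq_one_of_mem_commutator (d : DD σ n f) (hd : d ∈ commutator (DD σ n f)) :
    d.1.2 = 1 :=
  Abelianization.commutator_subset_ker
    ((MonoidHom.snd Γ (Multiplicative ℤ)).comp (DD σ n f).subtype) hd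

theorem mem_DD_one (g : Γ) (hg : g ∈ commutator Γ) : (g, (1 : Multiplicative ℤ)) ∈ DD σ n f := by
  rw [mem_DD, map_one]
  exact Abelianization.commutator_subset_ker (f.comp σ) hg

theorem mk_mem_commutator [NeZero n] (g : Γ) (hg : g ∈ commutator Γ) :
    (⟨(g, 1), mem_DD_one σ n f g hg⟩ : DD σ n f) ∈ commutator (DD σ n f) := by
  have hs : Function.Surjective ((MonoidHom.fst Γ (Multiplicative ℤ)).comp (DD σ n f).subtype) :=
    fun x => exists_DD σ n f x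
  rw [← map_commutator_of_surjective _ hs] at hg
  obtain ⟨d, hd, hdg⟩ := hg
  have h2 := snd_eq_one_of_mem_commutator σ n f d hd
  have h3 : d = ⟨(g, 1), mem_DD_one σ n f g (by
      rw [← map_commutator_of_surjective _ hs]; exact ⟨d, hd, hdg⟩)⟩ := by
    apply Subtype.ext
    exact Prod.ext hdg h2
  rw [← h3]
  exact hd

theorem mem_DD_zz (u : Γ) (hu : u ∈ σ.ker) :
    (u, Multiplicative.ofAdd (n : ℤ)) ∈ DD σ n f := by
  rw [mem_DD, MonoidHom.mem_ker.mp hu, map_one, red_apply]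
  simp

/-- the generator `(u, n)` of a complement -/
def zz (u : Γ) (hu : u ∈ σ.ker) : DD σ n f := ⟨(u, Multiplicative.ofAdd (n : ℤ)), mem_DD_zz σ n f u hu⟩

/-- the complement generated by `(u, n)` -/
def NN (u : Γ) (hu : u ∈ σ.ker) : Subgroup (DD σ n f) := Subgroup.zpowers (zz σ n f u hu)

theorem NN_le_ker (u : Γ) (hu : u ∈ σ.ker) : NN σ n f u hu ≤ (tau σ n f).ker := by
  unfold NN
  rw [Subgroup.zpowers_le]
  exact hu

theorem zz_zpow_fst (u : Γ) (hu : u ∈ σ.ker) (j : ℤ) : ((zz σ n f u hu) ^ j).1.1 = u ^ j := by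
  exact map_zpow ((MonoidHom.fst Γ (Multiplicative ℤ)).comp (DD σ n f).subtype) (zz σ n f u hu) j

theorem zz_zpow_snd (u : Γ) (hu : u ∈ σ.ker) (j : ℤ) :
    ((zz σ n f u hu) ^ j).1.2 = Multiplicative.ofAdd (j * (n : ℤ)) := by
  have h := map_zpow ((MonoidHom.snd Γ (Multiplicative ℤ)).comp (DD σ n f).subtype) (zz σ n f u hu) j
  have h2 : ((zz σ n f u hu) ^ j).1.2 = (Multiplicative.ofAdd (n : ℤ)) ^ j := h
  rw [h2, ← ofAdd_zsmul, smul_eq_mul]

theorem eq_one_of_mem_NN [NeZero n] (u : Γ) (hu : u ∈ σ.ker) (d : DD σ n f)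
    (hd : d ∈ NN σ n f u hu) (h2 : d.1.2 = 1) : d = 1 := by
  obtain ⟨j, rfl⟩ := Subgroup.mem_zpowers_iff.mp hd
  rw [zz_zpow_snd] at h2
  have h3 : j * (n : ℤ) = 0 := h2
  have hn : (n : ℤ) ≠ 0 := by exact_mod_cast NeZero.ne n
  have h4 : j = 0 := by
    rcases mul_eq_zero.mp h3 with h | h
    · exact h
    · exact absurd h hn
  rw [h4, zpow_zero]

theorem NN_inf_commutator [NeZero n] (u : Γ) (hu : u ∈ σ.ker) :
    NN σ n f u hu ⊓ commutator (DD σ n f) = ⊥ := by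
  rw [eq_bot_iff]
  rintro d ⟨h1, h2⟩
  rw [Subgroup.mem_bot]
  exact eq_one_of_mem_NN σ n f u hu d h1 (snd_eq_one_of_mem_commutator σ n f d h2)

theorem exists_decomp [NeZero n] (hσ : σ.ker ≤ commutator Γ) (u : Γ) (hu : u ∈ σ.ker)
    (d : DD σ n f) (hd : d ∈ (tau σ n f).ker) :
    ∃ (j : ℤ) (k : Γ) (hk : k ∈ σ.ker),
      d = (zz σ n f u hu) ^ j * ⟨(k, 1), mem_DD_one σ n f k (hσ hk)⟩ := by
  have h1 : d.1.1 ∈ σ.ker := hd
  have h2 : f (σ d.1.1) = red n d.1.2 := d.2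
  rw [MonoidHom.mem_ker.mp h1, map_one, red_apply] at h2
  have h3 : ((Multiplicative.toAdd d.1.2 : ℤ) : ZMod n) = 0 := h2.symm
  rw [ZMod.intCast_zmod_eq_zero_iff_dvd] at h3
  obtain ⟨j, hj⟩ := h3
  refine ⟨j, (u ^ j)⁻¹ * d.1.1, σ.ker.mul_mem (σ.ker.inv_mem (σ.ker.zpow_mem hu j)) h1, ?_⟩
  apply Subtype.ext
  apply Prod.ext
  · show d.1.1 = ((zz σ n f u hu) ^ j).1.1 * ((u ^ j)⁻¹ * d.1.1)
    rw [zz_zpow_fst, mul_inv_cancel_left]
  · show d.1.2 = ((zz σ n f u hu) ^ j).1.2 * 1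
    rw [zz_zpow_snd, mul_one, mul_comm, ← hj]
    rfl

theorem NN_sup_mult [NeZero n] (hσ : σ.ker ≤ commutator Γ) (u : Γ) (hu : u ∈ σ.ker) :
    NN σ n f u hu ⊔ Mult (tau σ n f) = (tau σ n f).ker := by
  apply le_antisymm
  · exact sup_le (NN_le_ker σ n f u hu) inf_le_left
  · intro d hd
    obtain ⟨j, k, hk, rfl⟩ := exists_decomp σ n f hσ u hu d hd
    apply Subgroup.mul_mem_sup
    · exact Subgroup.zpow_mem _ (Subgroup.mem_zpowers _) j
    · exact ⟨hk, mk_mem_commutator σ n f k (hσ hk)⟩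

theorem mult_tau_equiv [NeZero n] (hσ : σ.ker ≤ commutator Γ) :
    Nonempty (Mult (tau σ n f) ≃* σ.ker) := by
  let e : Mult (tau σ n f) →* σ.ker :=
    { toFun := fun d => ⟨d.1.1.1, d.2.1⟩
      map_one' := rfl
      map_mul' := fun _ _ => rfl }
  have hbij : Function.Bijective e := by
    constructor
    · rw [injective_iff_map_eq_one]
      intro d hd
      have h1 : d.1.1.1 = 1 := congrArg Subtype.val hd
      have h2 := snd_eq_one_of_mem_commutator σ n f d.1 d.2.2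
      apply Subtype.ext
      apply Subtype.ext
      exact Prod.ext h1 h2
    · rintro ⟨k, hk⟩
      exact ⟨⟨⟨(k, 1), mem_DD_one σ n f k (hσ hk)⟩, hk, mk_mem_commutator σ n f k (hσ hk)⟩, rfl⟩
  exact ⟨MulEquiv.ofBijective e hbij⟩

theorem NN_normal (hσ : σ.ker ≤ Subgroup.center Γ) (u : Γ) (hu : u ∈ σ.ker) :
    (NN σ n f u hu).Normal :=
  normal_of_le_center ((NN_le_ker σ n f u hu).trans (ker_tau_le_center σ n f hσ))

end twist

/-- If all covers are isomorphic over `Q` then every element of the kernel is an `n`-th power. -/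
theorem exists_pow_eq_of_unique {Γ Q : Type u} [Group Γ] [Group Q] [Finite Q] [Finite Γ] (σ : Γ →* Q)
    (hσ : Cfsg.IsStemExtension σ) (n : ℕ) (hn : 0 < n) (f : Q →* Multiplicative (ZMod n)) (x₀ : Q)
    (hx₀ : f x₀ = Multiplicative.ofAdd 1) (hx₀n : x₀ ^ n ∈ commutator Q)
    (huniq : ∀ (Γ₁ Γ₂ : Type u) [Group Γ₁] [Finite Γ₁] [Group Γ₂] [Finite Γ₂] (σ₁ : Γ₁ →* Q)
      (σ₂ : Γ₂ →* Q), Cfsg.IsStemExtension σ₁ → Cfsg.IsStemExtension σ₂ →
      Nonempty (σ₁.ker ≃* σ.ker) → Nonempty (σ₂.ker ≃* σ.ker) →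
      ∃ e : Γ₁ ≃* Γ₂, σ₂.comp e.toMonoidHom = σ₁)
    (u : Γ) (hu : u ∈ σ.ker) : ∃ k ∈ σ.ker, k ^ n = u := by
  haveI : NeZero n := ⟨hn.ne'⟩
  have h1 : (1 : Γ) ∈ σ.ker := σ.ker.one_mem
  haveI n1 := NN_normal σ n f hσ.2.1 1 h1
  haveI n2 := NN_normal σ n f hσ.2.1 u hu
  have hτs := tau_surjective σ n f hσ.1
  have hτc := ker_tau_le_center σ n f hσ.2.1
  obtain ⟨eM⟩ := mult_tau_equiv σ n f hσ.2.2
  have s1 := quotLift_isStem (tau σ n f) hτs hτc (NN σ n f 1 h1) (NN_le_ker σ n f 1 h1)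
    (NN_sup_mult σ n f hσ.2.2 1 h1)
  have s2 := quotLift_isStem (tau σ n f) hτs hτc (NN σ n f u hu) (NN_le_ker σ n f u hu)
    (NN_sup_mult σ n f hσ.2.2 u hu)
  obtain ⟨k1⟩ := quotLift_ker_equiv (tau σ n f) (NN σ n f 1 h1) (NN_le_ker σ n f 1 h1)
    (NN_inf_commutator σ n f 1 h1) (NN_sup_mult σ n f hσ.2.2 1 h1)
  obtain ⟨k2⟩ := quotLift_ker_equiv (tau σ n f) (NN σ n f u hu) (NN_le_ker σ n f u hu)
    (NN_inf_commutator σ n f u hu) (NN_sup_mult σ n f hσ.2.2 u hu)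
  haveI : Finite (quotLift (tau σ n f) (NN σ n f 1 h1) (NN_le_ker σ n f 1 h1)).ker :=
    Finite.of_equiv _ (k1.trans eM).symm.toEquiv
  haveI : Finite (quotLift (tau σ n f) (NN σ n f u hu) (NN_le_ker σ n f u hu)).ker :=
    Finite.of_equiv _ (k2.trans eM).symm.toEquiv
  haveI f1 : Finite (DD σ n f ⧸ NN σ n f 1 h1) :=
    finite_of_finite_ker (quotLift (tau σ n f) (NN σ n f 1 h1) (NN_le_ker σ n f 1 h1))
  haveI f2 : Finite (DD σ n f ⧸ NN σ n f u hu) :=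
    finite_of_finite_ker (quotLift (tau σ n f) (NN σ n f u hu) (NN_le_ker σ n f u hu))
  obtain ⟨e, he⟩ := huniq _ _ _ _ s1 s2 ⟨k1.trans eM⟩ ⟨k2.trans eM⟩
  -- the two homomorphisms
  let g₁ : DD σ n f →* DD σ n f ⧸ NN σ n f u hu :=
    e.toMonoidHom.comp (QuotientGroup.mk' (NN σ n f 1 h1))
  let g₂ : DD σ n f →* DD σ n f ⧸ NN σ n f u hu := QuotientGroup.mk' (NN σ n f u hu)
  let σ₂ := quotLift (tau σ n f) (NN σ n f u hu) (NN_le_ker σ n f u hu)
  have hg₁ : ∀ d, σ₂ (g₁ d) = tau σ n f d := fun d =>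
    DFunLike.congr_fun he (QuotientGroup.mk d)
  have hg₂ : ∀ d, σ₂ (g₂ d) = tau σ n f d := fun d => rfl
  have hker : ∀ d, g₁ d * (g₂ d)⁻¹ ∈ σ₂.ker := by
    intro d
    rw [MonoidHom.mem_ker, map_mul, map_inv, hg₁, hg₂, mul_inv_cancel]
  have hagree := eq_on_commutator_of_central g₁ g₂ (fun d => s2.2.1 (hker d))
  -- the special element
  obtain ⟨x, hx⟩ := hσ.1 x₀
  have hxD : (x, Multiplicative.ofAdd (1 : ℤ)) ∈ DD σ n f := by
    rw [mem_DD, hx, hx₀, red_apply]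
    simp
  let d₀ : DD σ n f := ⟨(x, Multiplicative.ofAdd (1 : ℤ)), hxD⟩
  have hxn : x ^ n ∈ commutator Γ := by
    rw [← map_commutator_of_surjective σ hσ.1] at hx₀n
    obtain ⟨c, hc, hcx⟩ := hx₀n
    have h2 : x ^ n * c⁻¹ ∈ σ.ker := by
      rw [MonoidHom.mem_ker, map_mul, map_inv, hcx, map_pow, hx, mul_inv_cancel]
    have h3 := (commutator Γ).mul_mem (hσ.2.2 h2) hc
    rwa [inv_mul_cancel_right] at h3
  let c₀ : DD σ n f := ⟨(x ^ n, 1), mem_DD_one σ n f _ hxn⟩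
  have hc₀ : c₀ ∈ commutator (DD σ n f) := mk_mem_commutator σ n f _ hxn
  have hd₀ : d₀ ^ n = c₀ * zz σ n f 1 h1 := by
    apply Subtype.ext
    apply Prod.ext
    · show (d₀ ^ n).1.1 = x ^ n * 1
      rw [mul_one, Subgroup.coe_pow, Prod.pow_fst]
    · show (d₀ ^ n).1.2 = 1 * Multiplicative.ofAdd (n : ℤ)
      rw [one_mul, Subgroup.coe_pow, Prod.pow_snd]
      show (Multiplicative.ofAdd (1 : ℤ)) ^ n = _
      rw [← ofAdd_nsmul]
      simp
  obtain ⟨dz, hdz⟩ := QuotientGroup.mk_surjective (g₁ d₀ * (g₂ d₀)⁻¹)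
  have hdzk : dz ∈ (tau σ n f).ker := by
    have := hker d₀
    rw [← hdz] at this
    exact this
  obtain ⟨j, k, hk, hdzeq⟩ := exists_decomp σ n f hσ.2.2 u hu dz hdzk
  let kk : DD σ n f := ⟨(k, 1), mem_DD_one σ n f k (hσ.2.2 hk)⟩
  have hz : g₁ d₀ = g₂ kk * g₂ d₀ := by
    have h2 : g₂ dz = g₂ kk := by
      rw [hdzeq, map_mul, map_zpow]
      have h3 : g₂ (zz σ n f u hu) = 1 :=
        (QuotientGroup.eq_one_iff _).mpr (Subgroup.mem_zpowers _)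
      rw [h3, one_zpow, one_mul]
    have h4 : g₂ dz = g₁ d₀ * (g₂ d₀)⁻¹ := hdz
    rw [← h2, h4, inv_mul_cancel_right]
  have hkkc : kk ∈ Subgroup.center (DD σ n f) := hτc hk
  have e1 : g₁ (d₀ ^ n) = g₂ c₀ := by
    rw [hd₀, map_mul, hagree c₀ hc₀]
    have h3 : g₁ (zz σ n f 1 h1) = 1 := by
      have h4 : (QuotientGroup.mk (zz σ n f 1 h1) : DD σ n f ⧸ NN σ n f 1 h1) = 1 :=
        (QuotientGroup.eq_one_iff _).mpr (Subgroup.mem_zpowers _)
      show e (QuotientGroup.mk (zz σ n f 1 h1)) = 1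
      rw [h4, map_one]
    rw [h3, mul_one]
  have e2 : g₁ (d₀ ^ n) = g₂ (kk ^ n * (c₀ * zz σ n f 1 h1)) := by
    rw [map_pow, hz, ← map_mul, ← map_pow, ← hd₀]
    congr 1
    exact (Commute.mul_pow ((Subgroup.mem_center_iff.mp hkkc) d₀).symm n)
  rw [e1] at e2
  have e3 : (c₀)⁻¹ * (kk ^ n * (c₀ * zz σ n f 1 h1)) ∈ NN σ n f u hu :=
    QuotientGroup.eq.mp e2
  have e4 : (c₀)⁻¹ * (kk ^ n * (c₀ * zz σ n f 1 h1)) = kk ^ n * zz σ n f 1 h1 := by
    have h5 : kk ^ n ∈ Subgroup.center (DD σ n f) := Subgroup.pow_mem _ hkkc n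
    rw [← mul_assoc, ← mul_assoc, (Subgroup.mem_center_iff.mp h5) c₀⁻¹, mul_assoc (kk ^ n),
      inv_mul_cancel, mul_one]
  rw [e4] at e3
  have e5 : (kk ^ n * zz σ n f 1 h1) * (zz σ n f u hu)⁻¹ ∈ NN σ n f u hu :=
    (NN σ n f u hu).mul_mem e3 ((NN σ n f u hu).inv_mem (Subgroup.mem_zpowers _))
  have e6 := eq_one_of_mem_NN σ n f u hu _ e5 (by
    show (kk ^ n).1.2 * Multiplicative.ofAdd (n : ℤ) * (Multiplicative.ofAdd (n : ℤ))⁻¹ = 1
    rw [mul_inv_cancel_right, Subgroup.coe_pow, Prod.pow_snd]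
    exact one_pow n)
  have e7 : (kk ^ n).1.1 * 1 * u⁻¹ = 1 := congrArg (fun d : DD σ n f => d.1.1) e6
  rw [mul_one, Subgroup.coe_pow, Prod.pow_fst, mul_inv_eq_one] at e7
  exact ⟨k, hk, e7⟩

end Cfsg.Agent.Lib.Helper21.Schur
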