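import Mathlib
import Cfsg.Agent.Lib.Helper21.SchurTwist

set_option autoImplicit false

namespace Cfsg.Agent.Lib.Helper21.Schur

open scoped commutatorElement

universe u v w

theorem card_eq_card_ker_mul {Γ Q : Type*} [Group Γ] [Group Q] (σ : Γ →* Q)
    (hσ : Function.Surjective σ) : Nat.card Γ = Nat.card σ.ker * Nat.card Q := by
  rw [← Subgroup.card_mul_index σ.ker, Subgroup.index_ker, MonoidHom.range_eq_top.mpr hσ,
    Subgroup.card_top]

theorem mem_commutator_of_stem {Γ Q : Type*} [Group Γ] [Group Q] (σ : Γ →* Q)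
    (hσ : Cfsg.IsStemExtension σ) (g : Γ) (hg : σ g ∈ commutator Q) : g ∈ commutator Γ := by
  rw [← map_commutator_of_surjective σ hσ.1] at hg
  obtain ⟨c, hc, hcx⟩ := hg
  have h2 : g * c⁻¹ ∈ σ.ker := by
    rw [MonoidHom.mem_ker, map_mul, map_inv, hcx, mul_inv_cancel]
  have h3 := (commutator Γ).mul_mem (hσ.2.2 h2) hc
  rwa [inv_mul_cancel_right] at h3

theorem exists_iso_of_coprime {Q : Type u} [Group Q] [Finite Q] {A : Type v} [CommGroup A]
    (hA : Cfsg.HasSchurMultiplier Q A)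
    (hcop : Nat.Coprime (Nat.card (Abelianization Q)) (Nat.card A))
    (Γ₁ Γ₂ : Type u) [Group Γ₁] [Finite Γ₁] [Group Γ₂] [Finite Γ₂] (σ₁ : Γ₁ →* Q) (σ₂ : Γ₂ →* Q)
    (h₁ : Cfsg.IsStemExtension σ₁) (h₂ : Cfsg.IsStemExtension σ₂) (e₁ : Nonempty (σ₁.ker ≃* A))
    (e₂ : Nonempty (σ₂.ker ≃* A)) : ∃ e : Γ₁ ≃* Γ₂, σ₂.comp e.toMonoidHom = σ₁ := by
  obtain ⟨e₁⟩ := e₁
  obtain ⟨e₂⟩ := e₂
  obtain ⟨eA⟩ := mulEquiv_mult_of_hasSchurMultiplier (std Q) (std_surjective Q) hA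
  have hbs := bar_surjective _ (std_surjective Q)
  haveI := finite_mult (bar (std Q)) hbs (ker_bar_le_center _)
  let P : Subgroup (Γ₁ × Γ₂) := MonoidHom.eqLocus (σ₁.comp (MonoidHom.fst Γ₁ Γ₂))
    (σ₂.comp (MonoidHom.snd Γ₁ Γ₂))
  have hP : ∀ x : P, σ₁ x.1.1 = σ₂ x.1.2 := fun x => x.2
  let p₁ : P →* Γ₁ := (MonoidHom.fst Γ₁ Γ₂).comp P.subtype
  let p₂ : P →* Γ₂ := (MonoidHom.snd Γ₁ Γ₂).comp P.subtype
  have hp₁ : Function.Surjective p₁ := by
    intro g
    obtain ⟨y, hy⟩ := h₂.1 (σ₁ g)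
    exact ⟨⟨(g, y), hy.symm⟩, rfl⟩
  let τ : P →* Q := σ₁.comp p₁
  have hτ : Function.Surjective τ := h₁.1.comp hp₁
  have hτc : τ.ker ≤ Subgroup.center P := by
    intro d hd
    have h1 : σ₁ d.1.1 = 1 := hd
    have h2 : σ₂ d.1.2 = 1 := by rw [← hP, h1]
    rw [Subgroup.mem_center_iff]
    intro c
    apply Subtype.ext
    apply Prod.ext
    · exact (Subgroup.mem_center_iff.mp (h₁.2.1 h1)) c.1.1
    · exact (Subgroup.mem_center_iff.mp (h₂.2.1 h2)) c.1.2
  obtain ⟨θ, hθ⟩ := exists_lift (std Q) (MonoidHom.id Q) τ hτ hτc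
  rw [MonoidHom.id_comp] at hθ
  have hθ' : ∀ t, τ (θ t) = bar (std Q) t := fun t => DFunLike.congr_fun hθ t
  have hcm := commutator_le_map (bar (std Q)) hbs τ hτc θ hθ
  -- the key claim
  have hmapc : (commutator (Hgrp (std Q))).map θ ≤ commutator P := by
    rw [commutator_def, Subgroup.map_commutator, commutator_def]
    exact Subgroup.commutator_mono le_top le_top
  let r : Mult (bar (std Q)) → Mult τ := fun t => ⟨θ t.1, by
    refine ⟨?_, hmapc ⟨t.1, t.2.2, rfl⟩⟩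
    show τ (θ t.1) = 1
    rw [hθ']
    exact t.2.1⟩
  have hr : Function.Surjective r := by
    rintro ⟨w, hw1, hw2⟩
    obtain ⟨t, ht, rfl⟩ := hcm hw2
    refine ⟨⟨t, ?_, ht⟩, rfl⟩
    show bar (std Q) t = 1
    rw [← hθ']
    exact hw1
  let s : Mult τ →* σ₁.ker :=
    { toFun := fun w => ⟨p₁ w.1, w.2.1⟩
      map_one' := rfl
      map_mul' := fun _ _ => rfl }
  have hs : Function.Surjective s := by
    rintro ⟨k, hk⟩
    have h1 := h₁.2.2 hk
    rw [← map_commutator_of_surjective p₁ hp₁] at h1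
    obtain ⟨x, hx, rfl⟩ := h1
    exact ⟨⟨x, hk, hx⟩, rfl⟩
  haveI : Finite (Mult τ) := Finite.of_surjective r hr
  have c1 := Nat.card_le_card_of_surjective r hr
  have c2 := Nat.card_le_card_of_surjective s hs
  have c3 : Nat.card σ₁.ker = Nat.card (Mult (bar (std Q))) :=
    Nat.card_congr (e₁.trans eA).toEquiv
  have hsb := (Nat.bijective_iff_surjective_and_card s).mpr ⟨hs, le_antisymm (c3 ▸ c1) c2⟩
  have key : ∀ x ∈ commutator P, p₁ x = 1 → x = 1 := by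
    intro x hx hx1
    have hxk : x ∈ τ.ker := by
      show σ₁ (p₁ x) = 1
      rw [hx1, map_one]
    have h2 : s ⟨x, hxk, hx⟩ = s 1 := by
      rw [map_one]
      exact Subtype.ext hx1
    exact congrArg (fun w : Mult τ => w.1) (hsb.1 h2)
  set m := Nat.card (Abelianization Q) with hm
  -- the kernel of p₁
  have hNcop : (Nat.card p₁.ker).Coprime m := by
    let i : p₁.ker →* σ₂.ker :=
      { toFun := fun x => ⟨x.1.1.2, by
          show σ₂ x.1.1.2 = 1
          rw [← hP]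
          have : x.1.1.1 = 1 := x.2
          rw [this, map_one]⟩
        map_one' := rfl
        map_mul' := fun _ _ => rfl }
    have hi : Function.Injective i := by
      intro x y hxy
      have h1 : x.1.1.2 = y.1.1.2 := congrArg Subtype.val hxy
      have h2 : x.1.1.1 = 1 := x.2
      have h3 : y.1.1.1 = 1 := y.2
      apply Subtype.ext
      apply Subtype.ext
      exact Prod.ext (h2.trans h3.symm) h1
    have h4 := Subgroup.card_dvd_of_injective i hi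
    rw [Nat.card_congr e₂.toEquiv] at h4
    exact (Nat.Coprime.coprime_dvd_right h4 hcop).symm
  have hNc : p₁.ker ≤ Subgroup.center P := by
    intro x hx
    apply hτc
    show σ₁ (p₁ x) = 1
    rw [MonoidHom.mem_ker.mp hx, map_one]
  let C : Subgroup P := ((powMonoidHom m).comp (Abelianization.of (G := P))).ker
  have hC : ∀ x : P, x ∈ C ↔ x ^ m ∈ commutator P := by
    intro x
    rw [← Abelianization.ker_of, MonoidHom.mem_ker (f := Abelianization.of), map_pow]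
    exact Iff.rfl
  let q : C →* Γ₁ := p₁.comp C.subtype
  have hq : Function.Bijective q := by
    constructor
    · rw [injective_iff_map_eq_one]
      intro x hx
      have hx1 : p₁ x.1 = 1 := hx
      have h2 : x.1 ^ m = 1 := key _ ((hC x.1).mp x.2) (by rw [map_pow, hx1, one_pow])
      have h3 : (powCoprime hNcop) ⟨x.1, hx1⟩ = (powCoprime hNcop) 1 := by
        apply Subtype.ext
        show x.1 ^ m = 1 ^ m
        rw [h2, one_pow]
      have h4 := (powCoprime hNcop).injective h3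
      exact Subtype.ext (congrArg (fun z : p₁.ker => z.1) h4)
    · intro g
      obtain ⟨x, rfl⟩ := hp₁ g
      have h1 : (p₁ x) ^ m ∈ commutator Γ₁ := by
        apply mem_commutator_of_stem σ₁ h₁
        rw [← Abelianization.ker_of, MonoidHom.mem_ker, map_pow, map_pow, hm]
        exact pow_card_eq_one'
      rw [← map_commutator_of_surjective p₁ hp₁] at h1
      obtain ⟨c, hc, hcx⟩ := h1
      have h2 : c * (x ^ m)⁻¹ ∈ p₁.ker := by
        rw [MonoidHom.mem_ker, map_mul, map_inv, hcx, map_pow, mul_inv_cancel]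
      obtain ⟨n', hn'⟩ := (powCoprime hNcop).surjective ⟨_, h2⟩
      have hn'' : n'.1 ^ m = c * (x ^ m)⁻¹ := congrArg Subtype.val hn'
      have h3 : (n'.1 * x) ^ m = c := by
        rw [Commute.mul_pow ((Subgroup.mem_center_iff.mp (hNc n'.2)) x).symm, hn'',
          inv_mul_cancel_right]
      refine ⟨⟨n'.1 * x, (hC _).mpr (h3 ▸ hc)⟩, ?_⟩
      show p₁ (n'.1 * x) = p₁ x
      rw [map_mul, MonoidHom.mem_ker.mp n'.2, one_mul]
  let qe : C ≃* Γ₁ := MulEquiv.ofBijective q hq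
  let e₀ : Γ₁ →* Γ₂ := (p₂.comp C.subtype).comp qe.symm.toMonoidHom
  have he₀ : σ₂.comp e₀ = σ₁ := by
    apply MonoidHom.ext
    intro g
    show σ₂ ((qe.symm g).1.1.2) = σ₁ g
    rw [← hP]
    have : q (qe.symm g) = g := qe.apply_symm_apply g
    exact congrArg σ₁ this
  have hsurj := surjective_of_stem σ₁ h₁.1 σ₂ h₂ e₀ he₀
  have hcard : Nat.card Γ₁ = Nat.card Γ₂ := by
    rw [card_eq_card_ker_mul σ₁ h₁.1, card_eq_card_ker_mul σ₂ h₂.1, Nat.card_congr e₁.toEquiv,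
      Nat.card_congr e₂.toEquiv]
  have hbij := (Nat.bijective_iff_surjective_and_card e₀).mpr ⟨hsurj, hcard⟩
  refine ⟨MulEquiv.ofBijective e₀ hbij, ?_⟩
  rw [← he₀]
  rfl

theorem covers_unique_iff {Q : Type u} [Group Q] [Finite Q] {A : Type v} [CommGroup A]
    (hA : Cfsg.HasSchurMultiplier Q A) :
    (∀ (Γ₁ Γ₂ : Type u) [Group Γ₁] [Finite Γ₁] [Group Γ₂] [Finite Γ₂] (σ₁ : Γ₁ →* Q)
      (σ₂ : Γ₂ →* Q), Cfsg.IsStemExtension σ₁ → Cfsg.IsStemExtension σ₂ →
      Nonempty (σ₁.ker ≃* A) → Nonempty (σ₂.ker ≃* A) →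
      ∃ e : Γ₁ ≃* Γ₂, σ₂.comp e.toMonoidHom = σ₁) ↔
    Nat.Coprime (Nat.card (Abelianization Q)) (Nat.card A) := by
  constructor
  · intro huniq
    by_contra hnc
    obtain ⟨p, hpp, hp1, hp2⟩ := Nat.Prime.not_coprime_iff_dvd.mp hnc
    obtain ⟨⟨Γ, _, _, σ, hσ, ⟨e⟩⟩, -⟩ := hA
    obtain ⟨n, f, x₀, hpn, hn, hx₀, hx₀n⟩ := exists_cyclic_factor (Q := Q) p hpp hp1
    have hpow := exists_pow_eq_of_unique σ hσ n hn f x₀ hx₀ hx₀n
      (fun Γ₁ Γ₂ _ _ _ _ σ₁ σ₂ s₁ s₂ k₁ k₂ => huniq Γ₁ Γ₂ σ₁ σ₂ s₁ s₂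
        ⟨k₁.some.trans e⟩ ⟨k₂.some.trans e⟩)
    haveI : Fact p.Prime := ⟨hpp⟩
    rw [← Nat.card_congr e.toEquiv] at hp2
    obtain ⟨y, hy⟩ := exists_prime_orderOf_dvd_card' p hp2
    have hsurj : Function.Surjective (fun k : σ.ker => k ^ p) := by
      rintro ⟨u, hu⟩
      obtain ⟨k, hk, hku⟩ := hpow u hu
      obtain ⟨c, rfl⟩ := hpn
      refine ⟨⟨k, hk⟩ ^ c, ?_⟩
      apply Subtype.ext
      show (k ^ c) ^ p = u
      rw [← pow_mul, mul_comm, hku]
    have hinj := Finite.injective_iff_surjective.mpr hsurj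
    have h1 : y = 1 := by
      apply hinj
      show y ^ p = 1 ^ p
      rw [one_pow, ← hy, pow_orderOf_eq_one]
    rw [h1, orderOf_one] at hy
    exact hpp.one_lt.ne hy
  · intro hcop Γ₁ Γ₂ _ _ _ _ σ₁ σ₂ s₁ s₂ k₁ k₂
    exact exists_iso_of_coprime hA hcop Γ₁ Γ₂ σ₁ σ₂ s₁ s₂ k₁ k₂

end Cfsg.Agent.Lib.Helper21.Schur
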