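import Mathlib
import Cfsg.Agent.Lib.Helper21.SchurUnique
import Cfsg.Agent.CharLib.Orth

set_option autoImplicit false

namespace Cfsg.Agent.Lib.Helper21.Schur

open scoped commutatorElement
open Cfsg.Agent.CharLib

universe u v w

/-- central characters of irreducible characters on a central subgroup inside the commutator subgroup -/
theorem exists_central_char {Γ : Type u} [Group Γ] (K : Subgroup Γ) (hKc : K ≤ Subgroup.center Γ)
    (hK' : K ≤ commutator Γ) (χ : Cfsg.IrrCharacter Γ) :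
    ∃ (d : ℕ) (μ : K →* ℂˣ), (χ : Γ → ℂ) 1 = d ∧ (∀ k : K, (χ : Γ → ℂ) k = d * (μ k : ℂ)) ∧
      ∀ k : K, (μ k) ^ d = 1 := by
  obtain ⟨n, ρ, hirr, hχ⟩ := χ.2
  haveI := hirr
  have hn : 0 < n := by
    have := finrank_pos_of_irr ρ
    rwa [Module.finrank_fin_fun] at this
  have hn' : (n : ℂ) ≠ 0 := by exact_mod_cast hn.ne'
  have hsc : ∀ k : K, ρ k = ((χ : Γ → ℂ) k / (n : ℂ)) • LinearMap.id := by
    intro k
    have h := schur_trace ρ (ρ k) (by
      intro g
      have h1 : ρ k * ρ g = ρ g * ρ k := by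
        rw [← map_mul, ← map_mul, (Subgroup.mem_center_iff.mp (hKc k.2) g)]
      exact h1)
    rw [Module.finrank_fin_fun] at h
    rw [← hχ]
    exact h
  have hχ1 : (χ : Γ → ℂ) 1 = n := by
    rw [← hχ, Representation.char_one, Module.finrank_fin_fun]
  let μ₀ : K →* ℂ :=
    { toFun := fun k => (χ : Γ → ℂ) k / (n : ℂ)
      map_one' := by
        show (χ : Γ → ℂ) 1 / (n : ℂ) = 1
        rw [hχ1, div_self hn']
      map_mul' := by
        intro a c
        have h1 : ρ ((a * c : K) : Γ) = ρ a * ρ c := by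
          rw [← map_mul]
          rfl
        rw [hsc, hsc, hsc] at h1
        have h2 := congrArg (LinearMap.trace ℂ (Fin n → ℂ)) h1
        rw [smul_mul_smul_comm, map_smul, map_smul] at h2
        have h3 : (LinearMap.id : (Fin n → ℂ) →ₗ[ℂ] (Fin n → ℂ)) * LinearMap.id = LinearMap.id := rfl
        rw [h3, LinearMap.trace_id, Module.finrank_fin_fun, smul_eq_mul, smul_eq_mul] at h2
        exact mul_right_cancel₀ hn' h2 }
  let μ : K →* ℂˣ := μ₀.toHomUnits
  have hμ : ∀ k : K, (μ k : ℂ) = (χ : Γ → ℂ) k / (n : ℂ) := fun k => rfl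
  refine ⟨n, μ, hχ1, ?_, ?_⟩
  · intro k
    rw [hμ]
    field_simp
  · intro k
    let δ : Γ →* ℂˣ := (LinearMap.det.comp ρ).toHomUnits
    have h1 : δ k = 1 := Abelianization.commutator_subset_ker δ (hK' k.2)
    have h2 : (δ k : ℂ) = LinearMap.det (ρ k) := rfl
    rw [h1, hsc, LinearMap.det_smul, Module.finrank_fin_fun, LinearMap.det_id, mul_one] at h2
    apply Units.ext
    rw [Units.val_pow_eq_pow_val, hμ]
    exact h2.symm

theorem exponent_sq_dvd {Q : Type u} [Group Q] [Finite Q] {A : Type v} [CommGroup A]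
    (hA : Cfsg.HasSchurMultiplier Q A) : Monoid.exponent A ^ 2 ∣ Nat.card Q := by
  classical
  obtain ⟨⟨Γ, _, _, σ, hσ, ⟨e⟩⟩, -⟩ := hA
  haveI : Finite A := Finite.of_equiv _ e.toEquiv
  obtain ⟨eD⟩ := CommGroup.monoidHom_mulEquiv_of_hasEnoughRootsOfUnity A ℂ
  haveI : Finite (A →* ℂˣ) := Finite.of_equiv _ eD.symm.toEquiv
  obtain ⟨lamA, hlamA⟩ := Monoid.exists_orderOf_eq_exponent
    (Monoid.ExponentExists.of_finite (G := A →* ℂˣ))
  rw [Monoid.exponent_eq_of_mulEquiv eD] at hlamA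
  let lam : σ.ker →* ℂˣ := lamA.comp e.toMonoidHom
  choose d μ h1 h2 h3 using exists_central_char σ.ker hσ.2.1 hσ.2.2
  cases nonempty_fintype σ.ker
  have hinner : ∀ χ : Cfsg.IrrCharacter Γ, ∑ k : σ.ker, (μ χ k : ℂ) * ((lam k)⁻¹ : ℂˣ) =
      if μ χ = lam then (Nat.card σ.ker : ℂ) else 0 := by
    intro χ
    let f : σ.ker →* ℂ := (Units.coeHom ℂ).comp (μ χ * lam⁻¹)
    have hf : ∀ k, f k = (μ χ k : ℂ) * ((lam k)⁻¹ : ℂˣ) := fun k => rfl
    simp only [← hf]
    split_ifs with h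
    · have : ∀ k, f k = 1 := by
        intro k
        rw [hf, h]
        simp
      simp only [this]
      rw [Finset.sum_const, Finset.card_univ, Nat.card_eq_fintype_card]
      simp
    · apply sum_hom_units_eq_zero
      intro hf1
      apply h
      apply MonoidHom.ext
      intro k
      have h4 : f k = 1 := by rw [hf1]; rfl
      rw [hf] at h4
      have h5 : μ χ k * (lam k)⁻¹ = 1 := Units.ext h4
      exact mul_inv_eq_one.mp h5
  have hsum : ∑ k : σ.ker, ((lam k)⁻¹ : ℂˣ) * ∑ χ : Cfsg.IrrCharacter Γ,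
      (χ : Γ → ℂ) 1 * (χ : Γ → ℂ) k = (Nat.card Γ : ℂ) := by
    have : ∀ k : σ.ker, (((lam k)⁻¹ : ℂˣ) : ℂ) * ∑ χ : Cfsg.IrrCharacter Γ,
        (χ : Γ → ℂ) 1 * (χ : Γ → ℂ) k = if k = 1 then (Nat.card Γ : ℂ) else 0 := by
      intro k
      rw [sum_irr_one_mul]
      by_cases hk : k = 1
      · subst hk
        simp
      · have hk' : (k : Γ) ≠ 1 := fun h => hk (Subtype.ext h)
        rw [if_neg hk, if_neg hk', mul_zero]
    simp only [this]
    simp
  have hsum2 : ∑ k : σ.ker, (((lam k)⁻¹ : ℂˣ) : ℂ) * ∑ χ : Cfsg.IrrCharacter Γ,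
      (χ : Γ → ℂ) 1 * (χ : Γ → ℂ) k =
      ∑ χ : Cfsg.IrrCharacter Γ, ((d χ : ℂ) ^ 2) * (if μ χ = lam then (Nat.card σ.ker : ℂ) else 0) := by
    simp only [Finset.mul_sum]
    rw [Finset.sum_comm]
    apply Finset.sum_congr rfl
    intro χ _
    rw [← hinner χ, Finset.mul_sum]
    apply Finset.sum_congr rfl
    intro k _
    rw [h1, h2]
    ring
  rw [hsum] at hsum2
  have hnat : Nat.card Γ = Nat.card σ.ker *
      ∑ χ ∈ Finset.univ.filter (fun χ : Cfsg.IrrCharacter Γ => μ χ = lam), (d χ) ^ 2 := by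
    have : (Nat.card Γ : ℂ) = ((Nat.card σ.ker *
      ∑ χ ∈ Finset.univ.filter (fun χ : Cfsg.IrrCharacter Γ => μ χ = lam), (d χ) ^ 2 : ℕ) : ℂ) := by
      rw [hsum2, Nat.cast_mul, Nat.cast_sum, Finset.mul_sum, Finset.sum_filter]
      apply Finset.sum_congr rfl
      intro χ _
      split_ifs
      · push_cast
        ring
      · ring
    exact_mod_cast this
  rw [card_eq_card_ker_mul σ hσ.1] at hnat
  have hQ := Nat.eq_of_mul_eq_mul_left Nat.card_pos hnat
  rw [hQ]
  apply Finset.dvd_sum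
  intro χ hχ
  have hχ' : μ χ = lam := (Finset.mem_filter.mp hχ).2
  apply pow_dvd_pow_of_dvd
  rw [← hlamA]
  apply orderOf_dvd_of_pow_eq_one
  apply MonoidHom.ext
  intro a
  have h4 := h3 χ (e.symm a)
  rw [hχ'] at h4
  have h5 : lam (e.symm a) = lamA a := by
    show lamA (e (e.symm a)) = lamA a
    rw [MulEquiv.apply_symm_apply]
  rw [h5] at h4
  exact h4

end Cfsg.Agent.Lib.Helper21.Schur
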