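import Mathlib
import Cfsg.Agent.Lib.Helper21.SchurAux

set_option autoImplicit false

namespace Cfsg.Agent.Lib.Helper21.Schur

open scoped commutatorElement

universe u v w

/-- a quotient of a finite abelian group is isomorphic to a subgroup -/
theorem exists_subgroup_equiv_quotient {B : Type*} [CommGroup B] [Finite B] (N : Subgroup B) :
    ∃ g : B ⧸ N →* B, Function.Injective g := by
  obtain ⟨e1⟩ := CommGroup.monoidHom_mulEquiv_of_hasEnoughRootsOfUnity (B ⧸ N) ℂ
  obtain ⟨e2⟩ := CommGroup.monoidHom_mulEquiv_of_hasEnoughRootsOfUnity B ℂ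
  let j : ((B ⧸ N) →* ℂˣ) →* (B →* ℂˣ) := MonoidHom.compHom' (QuotientGroup.mk' N)
  have hj : Function.Injective j := by
    intro χ₁ χ₂ h
    apply MonoidHom.ext
    intro x
    obtain ⟨b, rfl⟩ := QuotientGroup.mk_surjective x
    exact DFunLike.congr_fun h b
  exact ⟨(e2.toMonoidHom.comp j).comp e1.symm.toMonoidHom,
    (e2.injective.comp hj).comp e1.symm.injective⟩

/-- a subquotient of a finite abelian group is isomorphic to a subgroup -/
theorem exists_subgroup_equiv_of_le_range {B X : Type*} [CommGroup B] [Finite B] [Group X]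
    (f : B →* X) (S : Subgroup X) (hS : S ≤ f.range) :
    ∃ C : Subgroup B, Nonempty (S ≃* C) := by
  let S' : Subgroup B := S.comap f
  let f' : S' →* S := f.subgroupComap S
  have hf' : Function.Surjective f' := by
    rintro ⟨s, hs⟩
    obtain ⟨b, rfl⟩ := hS hs
    exact ⟨⟨b, hs⟩, rfl⟩
  let e : S' ⧸ f'.ker ≃* S := QuotientGroup.quotientKerEquivOfSurjective f' hf'
  obtain ⟨g, hg⟩ := exists_subgroup_equiv_quotient f'.ker
  let g' : S →* B := (S'.subtype.comp g).comp e.symm.toMonoidHom
  have hg' : Function.Injective g' := (S'.subtype_injective.comp hg).comp e.symm.injective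
  exact ⟨g'.range, ⟨MonoidHom.ofInjective hg'⟩⟩

theorem pow_index_mem_commutator {Γ : Type*} [Group Γ] (V : Subgroup Γ) [V.FiniteIndex] (k : Γ)
    (hk : k ∈ Subgroup.center Γ) (hk' : k ∈ commutator Γ) (hkV : k ^ V.index ∈ V) :
    (⟨k ^ V.index, hkV⟩ : V) ∈ commutator V := by
  have key : ∀ (n : ℕ) (g₀ : Γ), g₀⁻¹ * k ^ n * g₀ ∈ V → g₀⁻¹ * k ^ n * g₀ = k ^ n := by
    intro n g₀ _
    have h1 : k ^ n ∈ Subgroup.center Γ := Subgroup.pow_mem _ hk n
    rw [mul_assoc, ← (Subgroup.mem_center_iff.mp h1) g₀, inv_mul_cancel_left]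
  have h := MonoidHom.transfer_eq_pow (Abelianization.of (G := V)) k key
  have h2 : MonoidHom.transfer (Abelianization.of (G := V)) k = 1 :=
    Abelianization.commutator_subset_ker _ hk'
  rw [h2] at h
  rw [← Abelianization.ker_of, MonoidHom.mem_ker]
  exact h.symm

theorem pow_index_embeds {G : Type u} [Group G] [Finite G] (U : Subgroup G) {A : Type v}
    {B : Type w} [CommGroup A] [CommGroup B] (hA : Cfsg.HasSchurMultiplier G A)
    (hB : Cfsg.HasSchurMultiplier U B) :
    ∃ C : Subgroup B, Nonempty ((powMonoidHom U.index : A →* A).range ≃* C) := by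
  obtain ⟨⟨Γ, _, _, σ, hσ, ⟨e⟩⟩, -⟩ := hA
  obtain ⟨eB⟩ := mulEquiv_mult_of_hasSchurMultiplier (std U) (std_surjective U) hB
  haveI := finite_mult (bar (std U)) (bar_surjective _ (std_surjective U)) (ker_bar_le_center _)
  haveI : Finite B := Finite.of_equiv _ eB.symm.toEquiv
  let V : Subgroup Γ := U.comap σ
  have hidx : V.index = U.index := Subgroup.index_comap_of_surjective U hσ.1
  let σU : V →* U := σ.subgroupComap U
  have hσU : Function.Surjective σU := σ.subgroupComap_surjective_of_surjective U hσ.1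
  have hcen : σU.ker ≤ Subgroup.center V := by
    intro x hx
    have h1 : (x : Γ) ∈ σ.ker := by
      have := congrArg Subtype.val (MonoidHom.mem_ker.mp hx)
      exact this
    rw [Subgroup.mem_center_iff]
    intro y
    exact Subtype.ext ((Subgroup.mem_center_iff.mp (hσ.2.1 h1)) y)
  obtain ⟨θ, hθ⟩ := exists_lift (std U) (MonoidHom.id U) σU hσU hcen
  rw [MonoidHom.id_comp] at hθ
  have hcm := commutator_le_map (bar (std U)) (bar_surjective _ (std_surjective U)) σU hcen θ hθ
  have hKV : ∀ k ∈ σ.ker, k ∈ V := by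
    intro k hk
    show σ k ∈ U
    rw [MonoidHom.mem_ker.mp hk]
    exact U.one_mem
  let ι : A →* V := ((σ.ker.subtype).comp e.symm.toMonoidHom).codRestrict V
    (fun a => hKV _ (e.symm a).2)
  have hι : Function.Injective ι := by
    intro a b hab
    have h1 : ((e.symm a : σ.ker) : Γ) = (e.symm b : σ.ker) :=
      congrArg (fun x : V => (x : Γ)) hab
    exact e.symm.injective (Subtype.ext h1)
  let f : B →* V := (θ.comp (Mult (bar (std U))).subtype).comp eB.toMonoidHom
  let S : Subgroup V := ((powMonoidHom U.index : A →* A).range).map ι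
  have hS : S ≤ f.range := by
    rintro _ ⟨_, ⟨a, rfl⟩, rfl⟩
    have hk : ((e.symm a : σ.ker) : Γ) ∈ σ.ker := (e.symm a).2
    have h1 := pow_index_mem_commutator V _ (hσ.2.1 hk) (hσ.2.2 hk)
      (V.pow_mem (hKV _ hk) _)
    have h2 : ι (powMonoidHom U.index a) = ⟨((e.symm a : σ.ker) : Γ) ^ V.index,
        V.pow_mem (hKV _ hk) _⟩ := by
      apply Subtype.ext
      show ((e.symm (a ^ U.index) : σ.ker) : Γ) = ((e.symm a : σ.ker) : Γ) ^ V.index
      rw [map_pow, hidx]
      rfl
    rw [h2]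
    obtain ⟨t, ht, htx⟩ := hcm h1
    have ht' : t ∈ Mult (bar (std U)) := by
      refine ⟨?_, ht⟩
      show bar (std U) t = 1
      have h3 : σU (θ t) = bar (std U) t := DFunLike.congr_fun hθ t
      rw [← h3, htx]
      apply Subtype.ext
      show σ (((e.symm a : σ.ker) : Γ) ^ V.index) = 1
      rw [map_pow, MonoidHom.mem_ker.mp hk, one_pow]
    refine ⟨eB.symm ⟨t, ht'⟩, ?_⟩
    show θ ((eB (eB.symm ⟨t, ht'⟩) : Mult (bar (std U))) : Hgrp (std U)) = _
    rw [MulEquiv.apply_symm_apply]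
    exact htx
  obtain ⟨C, ⟨eC⟩⟩ := exists_subgroup_equiv_of_le_range f S hS
  exact ⟨C, ⟨(Subgroup.equivMapOfInjective _ ι hι).trans eC⟩⟩

end Cfsg.Agent.Lib.Helper21.Schur
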