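import Mathlib
import Cfsg.Agent.Lib.Helper21.SchurAux

set_option autoImplicit false

namespace Cfsg.Agent.Lib.Helper21.Schur

open scoped commutatorElement

universe u v w

theorem commutator_pow_card_ab {H Q Γ : Type*} [Group H] [Group Q] [Group Γ] [Finite Q]
    (b : H →* Q) (hb : Function.Surjective b) (θ : H →* Γ) (v : Γ)
    (hc : ∀ x, ⁅θ x, v⁆ ∈ Subgroup.center Γ) (hk : ∀ z ∈ b.ker, ⁅θ z, v⁆ = 1) (x : H) :
    ⁅θ x, v⁆ ^ Nat.card (Abelianization Q) = 1 := by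
  letI : CommGroup (Subgroup.center Γ) :=
    { (inferInstance : Group (Subgroup.center Γ)) with
      mul_comm := fun a c => Subtype.ext ((Subgroup.mem_center_iff.mp c.2) a) }
  let δ : H →* Subgroup.center Γ :=
    { toFun := fun x => ⟨⁅θ x, v⁆, hc x⟩
      map_one' := by
        apply Subtype.ext
        simp
      map_mul' := by
        intro a c
        apply Subtype.ext
        show ⁅θ (a * c), v⁆ = ⁅θ a, v⁆ * ⁅θ c, v⁆
        have h1 := (Subgroup.mem_center_iff.mp (hc c)) (θ a)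
        have h2 : ⁅θ (a * c), v⁆ = θ a * ⁅θ c, v⁆ * (θ a)⁻¹ * ⁅θ a, v⁆ := by
          rw [map_mul]
          simp only [commutatorElement_def]
          group
        rw [h2, h1, mul_inv_cancel_right]
        exact ((Subgroup.mem_center_iff.mp (hc c)) _).symm }
  have hδ : ∀ c ∈ commutator H, δ c = 1 := fun c hcm =>
    Abelianization.commutator_subset_ker δ hcm
  set m := Nat.card (Abelianization Q) with hm
  have h1 : b (x ^ m) ∈ commutator Q := by
    rw [← Abelianization.ker_of, MonoidHom.mem_ker, map_pow, map_pow, hm]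
    exact pow_card_eq_one'
  rw [← map_commutator_of_surjective b hb] at h1
  obtain ⟨c, hcm, hcx⟩ := h1
  have h2 : x ^ m * c⁻¹ ∈ b.ker := by
    rw [MonoidHom.mem_ker, map_mul, map_inv, hcx, mul_inv_cancel]
  have h3 : δ (x ^ m * c⁻¹) = 1 := Subtype.ext (hk _ h2)
  rw [map_mul, map_inv, hδ c hcm, inv_one, mul_one, map_pow] at h3
  exact congrArg Subtype.val h3

theorem mult_prodMap {H₁ H₂ Q₁ Q₂ : Type*} [Group H₁] [Group H₂] [Group Q₁] [Group Q₂]
    (b₁ : H₁ →* Q₁) (b₂ : H₂ →* Q₂) :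
    Mult (b₁.prodMap b₂) = (Mult b₁).prod (Mult b₂) := by
  unfold Mult
  rw [MonoidHom.ker_prodMap, commutator_def, ← Subgroup.top_prod_top, Subgroup.commutator_prod_prod,
    ← commutator_def, ← commutator_def]
  ext ⟨x, y⟩
  simp only [Subgroup.mem_inf, Subgroup.mem_prod]
  tauto

theorem isStem_prodMap {H₁ H₂ Q₁ Q₂ : Type*} [Group H₁] [Group H₂] [Group Q₁] [Group Q₂]
    (b₁ : H₁ →* Q₁) (b₂ : H₂ →* Q₂) (h₁ : Cfsg.IsStemExtension b₁) (h₂ : Cfsg.IsStemExtension b₂) :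
    Cfsg.IsStemExtension (b₁.prodMap b₂) := by
  refine ⟨?_, ?_, ?_⟩
  · rintro ⟨q₁, q₂⟩
    obtain ⟨x, rfl⟩ := h₁.1 q₁
    obtain ⟨y, rfl⟩ := h₂.1 q₂
    exact ⟨(x, y), rfl⟩
  · rw [MonoidHom.ker_prodMap, Subgroup.center_prod]
    exact Subgroup.prod_mono h₁.2.1 h₂.2.1
  · rw [MonoidHom.ker_prodMap, commutator_def, ← Subgroup.top_prod_top,
      Subgroup.commutator_prod_prod, ← commutator_def, ← commutator_def]
    exact Subgroup.prod_mono h₁.2.2 h₂.2.2

theorem hasSchurMultiplier_prod {Q₁ : Type u} {Q₂ : Type v} [Group Q₁] [Group Q₂] [Finite Q₁]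
    [Finite Q₂] {A B : Type w} [CommGroup A] [CommGroup B] (hA : Cfsg.HasSchurMultiplier Q₁ A)
    (hB : Cfsg.HasSchurMultiplier Q₂ B)
    (hcop : Nat.Coprime (Nat.card (Abelianization Q₁)) (Nat.card (Abelianization Q₂))) :
    Cfsg.HasSchurMultiplier (Q₁ × Q₂) (A × B) := by
  constructor
  · obtain ⟨⟨Γ₁, _, _, σ₁, hσ₁, ⟨e₁⟩⟩, -⟩ := hA
    obtain ⟨⟨Γ₂, _, _, σ₂, hσ₂, ⟨e₂⟩⟩, -⟩ := hB
    refine ⟨Γ₁ × Γ₂, inferInstance, inferInstance, σ₁.prodMap σ₂, isStem_prodMap σ₁ σ₂ hσ₁ hσ₂, ?_⟩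
    exact ⟨((MulEquiv.subgroupCongr (MonoidHom.ker_prodMap σ₁ σ₂)).trans
      (Subgroup.prodEquiv _ _)).trans (MulEquiv.prodCongr e₁ e₂)⟩
  · intro Γ _ _ σ hσ
    obtain ⟨eA⟩ := mulEquiv_mult_of_hasSchurMultiplier (std Q₁) (std_surjective Q₁) hA
    obtain ⟨eB⟩ := mulEquiv_mult_of_hasSchurMultiplier (std Q₂) (std_surjective Q₂) hB
    obtain ⟨θ₁, hθ₁⟩ := exists_lift (std Q₁) (MonoidHom.inl Q₁ Q₂) σ hσ.1 hσ.2.1
    obtain ⟨θ₂, hθ₂⟩ := exists_lift (std Q₂) (MonoidHom.inr Q₁ Q₂) σ hσ.1 hσ.2.1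
    have e1 : ∀ x, σ (θ₁ x) = (bar (std Q₁) x, 1) := fun x => DFunLike.congr_fun hθ₁ x
    have e2 : ∀ y, σ (θ₂ y) = (1, bar (std Q₂) y) := fun y => DFunLike.congr_fun hθ₂ y
    have hker : ∀ x y, ⁅θ₁ x, θ₂ y⁆ ∈ σ.ker := by
      intro x y
      rw [MonoidHom.mem_ker, map_commutatorElement, e1, e2]
      simp [commutatorElement_def]
    have hker' : ∀ x y, ⁅θ₂ y, θ₁ x⁆ ∈ σ.ker := by
      intro x y
      rw [MonoidHom.mem_ker, map_commutatorElement, e1, e2]
      simp [commutatorElement_def]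
    have p1 : ∀ x y, ⁅θ₁ x, θ₂ y⁆ ^ Nat.card (Abelianization Q₁) = 1 := by
      intro x y
      apply commutator_pow_card_ab (bar (std Q₁)) (bar_surjective _ (std_surjective Q₁)) θ₁ (θ₂ y)
        (fun x => hσ.2.1 (hker x y))
      intro z hz
      have hz' : θ₁ z ∈ Subgroup.center Γ := by
        apply hσ.2.1
        rw [MonoidHom.mem_ker, e1, MonoidHom.mem_ker.mp hz]
        rfl
      rw [commutatorElement_eq_one_iff_mul_comm]
      exact ((Subgroup.mem_center_iff.mp hz') _).symm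
    have p2 : ∀ x y, ⁅θ₂ y, θ₁ x⁆ ^ Nat.card (Abelianization Q₂) = 1 := by
      intro x y
      apply commutator_pow_card_ab (bar (std Q₂)) (bar_surjective _ (std_surjective Q₂)) θ₂ (θ₁ x)
        (fun y => hσ.2.1 (hker' x y))
      intro z hz
      have hz' : θ₂ z ∈ Subgroup.center Γ := by
        apply hσ.2.1
        rw [MonoidHom.mem_ker, e2, MonoidHom.mem_ker.mp hz]
        rfl
      rw [commutatorElement_eq_one_iff_mul_comm]
      exact ((Subgroup.mem_center_iff.mp hz') _).symm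
    have comm : ∀ x y, Commute (θ₁ x) (θ₂ y) := by
      intro x y
      have h1 := orderOf_dvd_of_pow_eq_one (p1 x y)
      have h2 : ⁅θ₁ x, θ₂ y⁆ ^ Nat.card (Abelianization Q₂) = 1 := by
        rw [← commutatorElement_inv, inv_pow, p2 x y, inv_one]
      have h3 := orderOf_dvd_of_pow_eq_one h2
      have h4 : orderOf ⁅θ₁ x, θ₂ y⁆ = 1 := Nat.eq_one_of_dvd_coprimes hcop h1 h3
      rw [orderOf_eq_one_iff, commutatorElement_eq_one_iff_mul_comm] at h4
      exact h4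
    let θ := MonoidHom.noncommCoprod θ₁ θ₂ comm
    let π := (bar (std Q₁)).prodMap (bar (std Q₂))
    have hθ : σ.comp θ = π := by
      apply MonoidHom.ext
      rintro ⟨x, y⟩
      show σ (θ₁ x * θ₂ y) = (bar (std Q₁) x, bar (std Q₂) y)
      rw [map_mul, e1, e2]
      simp
    have hπ : Function.Surjective π := by
      rintro ⟨q₁, q₂⟩
      obtain ⟨x, rfl⟩ := bar_surjective _ (std_surjective Q₁) q₁
      obtain ⟨y, rfl⟩ := bar_surjective _ (std_surjective Q₂) q₂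
      exact ⟨(x, y), rfl⟩
    have hs := multToKer_surjective π hπ σ hσ θ hθ
    let E : A × B ≃* Mult π := ((MulEquiv.prodCongr eA eB).trans (Subgroup.prodEquiv _ _).symm).trans
      (MulEquiv.subgroupCongr (mult_prodMap _ _).symm)
    exact ⟨(multToKer π σ θ hθ).comp E.toMonoidHom, hs.comp E.surjective⟩

end Cfsg.Agent.Lib.Helper21.Schur
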