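import Mathlib
import Cfsg.Agent.Lib.Helper21.SchurProj
import Cfsg.Agent.Lib.Helper21.Monomial

set_option autoImplicit false

namespace Cfsg.Agent.Lib.Helper21.Schur

universe u v w

/-- A stem extension in which all complex projective representations lift receives the multiplier injectively. -/
theorem multToKer_injective_of_lifting {X Q : Type u} [Group Q] [Finite Q] [Finite X]
    (φ : FreeGroup X →* Q) (hφ : Function.Surjective φ) {Γ : Type v} [Group Γ] (σ : Γ →* Q)
    (hlift : ∀ (n : ℕ) (γ : Q →* (GL (Fin n) ℂ ⧸ Subgroup.center (GL (Fin n) ℂ))),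
      ∃ ρ : Γ →* GL (Fin n) ℂ, (QuotientGroup.mk' (Subgroup.center (GL (Fin n) ℂ))).comp ρ = γ.comp σ)
    (θ : Hgrp φ →* Γ) (hθ : σ.comp θ = bar φ) :
    Function.Injective (multToKer (bar φ) σ θ hθ) := by
  have hbs := bar_surjective φ hφ
  let b := bar φ
  haveI := finite_mult b hbs (ker_bar_le_center φ)
  obtain ⟨S, hSn, hS, _, hstem, ⟨eC⟩, hfin⟩ := exists_cover φ hφ b.ker le_rfl
    (sup_eq_left.mpr inf_le_left)
  set σC := quotLift b S hS with hσC
  let p : Hgrp φ →* Hgrp φ ⧸ S := QuotientGroup.mk' S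
  have hp : σC.comp p = b := by
    apply MonoidHom.ext
    intro x
    rfl
  have hpinj : Function.Injective (multToKer b σC p hp) := by
    have hs := multToKer_surjective b hbs σC hstem p hp
    exact ((Nat.bijective_iff_surjective_and_card _).mpr ⟨hs, Nat.card_congr eC.symm.toEquiv⟩).1
  rw [injective_iff_map_eq_one]
  intro t ht
  by_contra ht1
  have hpt : multToKer b σC p hp t ≠ 1 := by
    intro h
    exact ht1 (hpinj (h.trans (map_one _).symm))
  letI : CommGroup σC.ker :=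
    { (inferInstance : Group σC.ker) with
      mul_comm := fun a c => Subtype.ext ((Subgroup.mem_center_iff.mp (hstem.2.1 c.2)) a) }
  haveI : Finite σC.ker := Finite.of_equiv _ eC.symm.toEquiv
  obtain ⟨lam, hlam⟩ := CommGroup.exists_apply_ne_one_of_hasEnoughRootsOfUnity σC.ker ℂ hpt
  obtain ⟨n, ρ₀, hn, hρ₀⟩ := exists_monomial_rep σC hstem.1 hstem.2.1 lam
  set mk := QuotientGroup.mk' (Subgroup.center (GL (Fin n) ℂ)) with hmk
  have hker : σC.ker ≤ (mk.comp ρ₀).ker := by
    intro k hk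
    rw [MonoidHom.mem_ker, MonoidHom.comp_apply, hρ₀ k hk, hmk, QuotientGroup.mk'_apply,
      QuotientGroup.eq_one_iff, Matrix.GeneralLinearGroup.center_eq_range_scalar]
    exact ⟨_, rfl⟩
  let γ : Q →* (GL (Fin n) ℂ ⧸ Subgroup.center (GL (Fin n) ℂ)) :=
    MonoidHom.liftOfSurjective σC hstem.1 ⟨mk.comp ρ₀, hker⟩
  have hγ : ∀ c, γ (σC c) = mk (ρ₀ c) := by
    intro c
    exact MonoidHom.liftOfRightInverse_comp_apply _ _ _ _ c
  obtain ⟨ρ, hρ⟩ := hlift n γ
  have hρ' : ∀ x, mk (ρ x) = γ (σ x) := fun x => DFunLike.congr_fun hρ x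
  have hagree := eq_on_commutator_of_central (ρ₀.comp p) (ρ.comp θ) (by
    intro x
    rw [← QuotientGroup.eq_one_iff]
    show mk (ρ₀ (p x) * (ρ (θ x))⁻¹) = 1
    have h1 : σ (θ x) = b x := DFunLike.congr_fun hθ x
    have h2 : σC (p x) = b x := rfl
    rw [map_mul, map_inv, hρ', h1, ← h2, hγ, mul_inv_cancel]) t.1 t.2.2
  have h3 : θ t.1 = 1 := congrArg Subtype.val ht
  have h4 : ρ₀ (p t.1) = 1 := by
    have : ρ₀ (p t.1) = ρ (θ t.1) := hagree
    rw [this, h3, map_one]
  have h5 : p t.1 ∈ σC.ker := (multToKer b σC p hp t).2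
  rw [hρ₀ _ h5, scalar_eq_one_iff hn] at h4
  exact hlam h4

end Cfsg.Agent.Lib.Helper21.Schur
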