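import Mathlib
import Cfsg.Agent.Lib.Helper21.SchurAux

set_option autoImplicit false

namespace Cfsg.Agent.Lib.Helper21.Schur

open scoped commutatorElement

universe u v w

theorem ker_generated {Z M : Type*} [CommGroup Z] [CommGroup M] {ι : Type*} [Fintype ι] (n : ℕ)
    (b : Module.Basis (Fin n) ℤ (Additive M)) (v : ι → Z)
    (hv : Subgroup.closure (Set.range v) = ⊤)
    (α : Z →* M) (m : ℕ) (hm : 0 < m) (hα : ∀ x : M, x ^ m ∈ α.range) :
    ∃ S : Finset Z, S.card ≤ Fintype.card ι - n ∧ Subgroup.closure (S : Set Z) = α.ker := by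
  classical
  let ψ : (ι → ℤ) →ₗ[ℤ] Additive Z := Fintype.linearCombination ℤ (fun i => Additive.ofMul (v i))
  have hψ : ∀ z : Z, ∃ c, ψ c = Additive.ofMul z := by
    intro z
    have hz : z ∈ Subgroup.closure (Set.range v) := by rw [hv]; exact Subgroup.mem_top z
    induction hz using Subgroup.closure_induction with
    | mem x hx =>
      obtain ⟨i, rfl⟩ := hx
      refine ⟨Pi.single i 1, ?_⟩
      rw [Fintype.linearCombination_apply_single, one_smul]
    | one => exact ⟨0, map_zero _⟩
    | mul x y _ _ hx hy =>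
      obtain ⟨c₁, h₁⟩ := hx
      obtain ⟨c₂, h₂⟩ := hy
      exact ⟨c₁ + c₂, by rw [map_add, h₁, h₂]; rfl⟩
    | inv x _ hx =>
      obtain ⟨c₁, h₁⟩ := hx
      exact ⟨-c₁, by rw [map_neg, h₁]; rfl⟩
  let αl : Additive Z →ₗ[ℤ] Additive M := (MonoidHom.toAdditive α).toIntLinearMap
  let lam : (ι → ℤ) →ₗ[ℤ] Additive M := αl ∘ₗ ψ
  haveI : Module.Free ℤ (Additive M) := Module.Free.of_basis b
  haveI : Module.Finite ℤ (Additive M) := Module.Finite.of_basis b
  have hfr : Module.finrank ℤ (Additive M) = n := by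
    rw [Module.finrank_eq_card_basis b]
    simp
  have hrange : ∀ x : Additive M, (m : ℤ) • x ∈ LinearMap.range lam := by
    intro x
    obtain ⟨z, hz⟩ := hα (Additive.toMul x)
    obtain ⟨c, hc⟩ := hψ z
    refine ⟨c, ?_⟩
    show αl (ψ c) = _
    rw [hc]
    show Additive.ofMul (α z) = _
    rw [hz]
    simp
  have hr1 : n ≤ Module.finrank ℤ (LinearMap.range lam) := by
    let μ : Additive M →ₗ[ℤ] LinearMap.range lam :=
      LinearMap.codRestrict (LinearMap.range lam) ((m : ℤ) • LinearMap.id) hrange
    have hμ : Function.Injective μ := by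
      rw [injective_iff_map_eq_zero]
      intro x hx
      have h1 : (m : ℤ) • x = 0 := congrArg Subtype.val hx
      have hm' : (m : ℤ) ≠ 0 := by exact_mod_cast hm.ne'
      exact (smul_eq_zero.mp h1).resolve_left hm'
    have := LinearMap.finrank_le_finrank_of_injective hμ
    rwa [hfr] at this
  have hr2 : Module.finrank ℤ (LinearMap.range lam) ≤ n := by
    have := Submodule.finrank_le (LinearMap.range lam)
    rwa [hfr] at this
  have hrn : Module.finrank ℤ (LinearMap.range lam) + Module.finrank ℤ (LinearMap.ker lam)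
      = Fintype.card ι := by
    have h := Submodule.finrank_quotient_add_finrank (LinearMap.ker lam)
    rw [LinearEquiv.finrank_eq lam.quotKerEquivRange] at h
    simpa using h
  have hk : Module.finrank ℤ (LinearMap.ker lam) = Fintype.card ι - n := by omega
  let B := Module.finBasis ℤ (LinearMap.ker lam)
  let S : Finset Z := Finset.univ.image (fun i => Additive.toMul (ψ (B i).1))
  refine ⟨S, ?_, ?_⟩
  · calc S.card ≤ (Finset.univ : Finset (Fin (Module.finrank ℤ (LinearMap.ker lam)))).card :=
        Finset.card_image_le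
      _ = Fintype.card ι - n := by rw [Finset.card_univ, Fintype.card_fin, hk]
  · apply le_antisymm
    · rw [Subgroup.closure_le]
      intro z hz
      obtain ⟨i, _, rfl⟩ := Finset.mem_image.mp (Finset.mem_coe.mp hz)
      have h1 : lam (B i).1 = 0 := (B i).2
      exact h1
    · intro z hz
      obtain ⟨c, hc⟩ := hψ z
      have hcl : c ∈ LinearMap.ker lam := by
        show αl (ψ c) = 0
        rw [hc]
        exact hz
      have h1 := B.sum_repr ⟨c, hcl⟩
      have h2 : c = ∑ i, B.repr ⟨c, hcl⟩ i • (B i).1 := by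
        have h4 : ((∑ i, B.repr ⟨c, hcl⟩ i • B i : LinearMap.ker lam) : ι → ℤ) = c :=
          congrArg Subtype.val h1
        refine h4.symm.trans ?_
        exact map_sum (LinearMap.ker lam).subtype _ _
      have h3 : ψ c ∈ Subgroup.toAddSubgroup (Subgroup.closure (S : Set Z)) := by
        rw [h2, map_sum]
        apply AddSubgroup.sum_mem
        intro i _
        rw [map_smul]
        apply AddSubgroup.zsmul_mem
        have h5 : Additive.toMul (ψ (B i).1) ∈ Subgroup.closure (S : Set Z) :=
          Subgroup.subset_closure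
            (Finset.mem_coe.mpr (Finset.mem_image.mpr ⟨i, Finset.mem_univ _, rfl⟩))
        exact h5
      rw [hc] at h3
      exact h3

theorem rank_le_of_presentation (n : ℕ) (rels : Finset (FreeGroup (Fin n)))
    [Finite (PresentedGroup (rels : Set (FreeGroup (Fin n))))] {A : Type*} [CommGroup A] [Finite A]
    (hA : Cfsg.HasSchurMultiplier (PresentedGroup (rels : Set (FreeGroup (Fin n)))) A) :
    Group.rank A ≤ rels.card - n := by
  classical
  let φ : FreeGroup (Fin n) →* PresentedGroup (rels : Set (FreeGroup (Fin n))) :=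
    PresentedGroup.mk (rels : Set (FreeGroup (Fin n)))
  have hφ : Function.Surjective φ := QuotientGroup.mk_surjective
  have hkerφ : φ.ker = Subgroup.normalClosure (rels : Set (FreeGroup (Fin n))) :=
    QuotientGroup.ker_mk' _
  obtain ⟨eA⟩ := mulEquiv_mult_of_hasSchurMultiplier φ hφ hA
  let Z : Subgroup (Hgrp φ) := (bar φ).ker
  letI : CommGroup Z :=
    { (inferInstance : Group Z) with
      mul_comm := fun a c => Subtype.ext ((Subgroup.mem_center_iff.mp (ker_bar_le_center φ c.2)) a) }
  have hrel : ∀ ρ : rels, (QuotientGroup.mk ρ.1 : Hgrp φ) ∈ Z := by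
    intro ρ
    show φ ρ.1 = 1
    rw [← MonoidHom.mem_ker, hkerφ]
    exact Subgroup.subset_normalClosure ρ.2
  let v : rels → Z := fun ρ => ⟨QuotientGroup.mk ρ.1, hrel ρ⟩
  have hv : Subgroup.closure (Set.range v) = ⊤ := by
    let W : Subgroup (Hgrp φ) := (Subgroup.closure (Set.range v)).map Z.subtype
    have hW : W ≤ Subgroup.center (Hgrp φ) :=
      (Subgroup.map_subtype_le _).trans (ker_bar_le_center φ)
    haveI : W.Normal := normal_of_le_center hW
    have h1 : Subgroup.normalClosure (rels : Set (FreeGroup (Fin n))) ≤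
        W.comap (QuotientGroup.mk' (FR φ)) := by
      apply Subgroup.normalClosure_le_normal
      intro ρ hρ
      exact ⟨v ⟨ρ, hρ⟩, Subgroup.subset_closure ⟨_, rfl⟩, rfl⟩
    rw [eq_top_iff]
    rintro ⟨z, hz⟩ _
    obtain ⟨f, rfl⟩ := QuotientGroup.mk_surjective z
    have h2 : f ∈ φ.ker := hz
    rw [hkerφ] at h2
    obtain ⟨w, hw, hwz⟩ := h1 h2
    have : w = ⟨QuotientGroup.mk f, hz⟩ := Subtype.ext hwz
    rw [← this]
    exact hw
  let α : Z →* Abelianization (FreeGroup (Fin n)) := (ab φ).comp Z.subtype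
  have hα : ∀ x : Abelianization (FreeGroup (Fin n)),
      x ^ Nat.card (PresentedGroup (rels : Set (FreeGroup (Fin n)))) ∈ α.range := by
    intro x
    obtain ⟨f, rfl⟩ := QuotientGroup.mk_surjective x
    refine ⟨⟨(QuotientGroup.mk f : Hgrp φ) ^
      Nat.card (PresentedGroup (rels : Set (FreeGroup (Fin n)))), ?_⟩, ?_⟩
    · show bar φ _ = 1
      rw [map_pow]
      exact pow_card_eq_one'
    · show ab φ ((QuotientGroup.mk f : Hgrp φ) ^ _) = _
      rw [map_pow]
      rfl
  obtain ⟨S, hS1, hS2⟩ := ker_generated (M := Abelianization (FreeGroup (Fin n))) n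
    (FreeAbelianGroup.basis (Fin n)) v hv α _ Nat.card_pos hα
  rw [Fintype.card_coe] at hS1
  have hker : α.ker = (Mult (bar φ)).subgroupOf Z := by
    ext z
    rw [Subgroup.mem_subgroupOf, MonoidHom.mem_ker]
    constructor
    · intro h
      refine ⟨z.2, ?_⟩
      rw [← ker_ab]
      exact h
    · intro h
      have := h.2
      rw [← ker_ab] at this
      exact this
  let E : A ≃* Subgroup.closure (S : Set Z) :=
    (eA.trans (Subgroup.subgroupOfEquivOfLe (inf_le_left : Mult (bar φ) ≤ Z)).symm).trans
      (MulEquiv.subgroupCongr (hS2.trans hker).symm)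
  rw [Group.rank_congr E]
  exact (Subgroup.rank_closure_finset_le_card S).trans hS1

end Cfsg.Agent.Lib.Helper21.Schur
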