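import Mathlib
import Cfsg.Agent.Lib.Helper21.SchurAux

set_option autoImplicit false

namespace Cfsg.Agent.Lib.Helper21.Schur

open scoped commutatorElement
open Subgroup

universe u v w

theorem transfer_eq_prod_out {G : Type*} [Group G] {H : Subgroup G} [H.FiniteIndex] {A : Type*}
    [CommGroup A] (ϕ : H →* A) (r : G) (hr : ∀ g : G, g⁻¹ * r * g ∈ H) :
    letI := H.fintypeQuotientOfFiniteIndex
    MonoidHom.transfer ϕ r = ∏ q : G ⧸ H, ϕ ⟨q.out⁻¹ * r * q.out, hr _⟩ := by
  let T : H.LeftTransversal :=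
    ⟨Set.range Quotient.out, isComplement_range_left QuotientGroup.out_eq'⟩
  have hT : ∀ q : G ⧸ H, (T.2.leftQuotientEquiv q : G) = q.out :=
    fun q => IsComplement.leftQuotientEquiv_apply QuotientGroup.out_eq' q
  have hfix : ∀ q : G ⧸ H, r⁻¹ • q = q := by
    intro q
    obtain ⟨g, rfl⟩ := QuotientGroup.mk_surjective q
    show (QuotientGroup.mk (r⁻¹ * g) : G ⧸ H) = QuotientGroup.mk g
    rw [QuotientGroup.eq]
    have := hr g
    simpa [mul_assoc] using this
  rw [MonoidHom.transfer_def ϕ T]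
  unfold leftTransversals.diff
  apply Finset.prod_congr rfl
  intro q _
  congr 1
  apply Subtype.ext
  show (T.2.leftQuotientEquiv q : G)⁻¹ * ((r • T).2.leftQuotientEquiv q : G) = _
  rw [smul_apply_eq_smul_apply_inv_smul, hfix, hT, smul_eq_mul]
  exact (mul_assoc _ _ _).symm

instance kerBarCommGroup {X : Type u} {Q : Type v} [Group Q] (φ : FreeGroup X →* Q) :
    CommGroup (bar φ).ker :=
  { (inferInstance : Group (bar φ).ker) with
    mul_comm := fun a b => Subtype.ext ((Subgroup.mem_center_iff.mp (ker_bar_le_center φ b.2)) a) }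

theorem map_mem_commutator {G X : Type*} [Group G] [Group X] (f : G →* X) (g : G)
    (hg : g ∈ commutator G) : f g ∈ commutator X := by
  have h2 : (commutator G).map f ≤ commutator X := by
    rw [commutator_def, Subgroup.map_commutator, commutator_def]
    exact Subgroup.commutator_mono le_top le_top
  exact h2 ⟨g, hg, rfl⟩

/-- functoriality of `Mult` -/
def multMap {H Q Δ Q' : Type*} [Group H] [Group Q] [Group Δ] [Group Q'] (π : H →* Q) (τ : Δ →* Q')
    (j : Q →* Q') (θ : H →* Δ) (hθ : τ.comp θ = j.comp π) : Mult π →* Mult τ :=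
  (θ.comp (Mult π).subtype).codRestrict (Mult τ) (fun t => by
    refine ⟨?_, map_mem_commutator θ _ t.2.2⟩
    have h1 : τ (θ t.1) = j (π t.1) := DFunLike.congr_fun hθ t.1
    show τ (θ t.1) = 1
    rw [h1, MonoidHom.mem_ker.mp t.2.1, map_one])

theorem multMap_surjective {H Q Δ : Type*} [Group H] [Group Q] [Group Δ] (π : H →* Q) (τ : Δ →* Q)
    (hπ : Function.Surjective π) (hτ : τ.ker ≤ Subgroup.center Δ)
    (θ : H →* Δ) (hθ : τ.comp θ = (MonoidHom.id Q).comp π) :
    Function.Surjective (multMap π τ (MonoidHom.id Q) θ hθ) := by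
  rintro ⟨w, hw1, hw2⟩
  rw [MonoidHom.id_comp] at hθ
  obtain ⟨t, ht, rfl⟩ := commutator_le_map π hπ τ hτ θ hθ hw2
  refine ⟨⟨t, ?_, ht⟩, rfl⟩
  have h1 : τ (θ t) = π t := DFunLike.congr_fun hθ t
  show π t = 1
  rw [← h1]
  exact hw1

theorem mult_equiv_of_presentations {X₁ : Type*} {X₂ : Type*} {Q : Type*} [Group Q] [Finite Q]
    (φ₁ : FreeGroup X₁ →* Q) (φ₂ : FreeGroup X₂ →* Q) (h₁ : Function.Surjective φ₁)
    (h₂ : Function.Surjective φ₂) : Nonempty (Mult (bar φ₁) ≃* Mult (bar φ₂)) := by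
  obtain ⟨θ, hθ⟩ := exists_lift φ₁ (MonoidHom.id Q) (bar φ₂) (bar_surjective φ₂ h₂)
    (ker_bar_le_center φ₂)
  obtain ⟨θ', hθ'⟩ := exists_lift φ₂ (MonoidHom.id Q) (bar φ₁) (bar_surjective φ₁ h₁)
    (ker_bar_le_center φ₁)
  have s1 := multMap_surjective (bar φ₁) (bar φ₂) (bar_surjective φ₁ h₁) (ker_bar_le_center φ₂) θ hθ
  have s2 := multMap_surjective (bar φ₂) (bar φ₁) (bar_surjective φ₂ h₂) (ker_bar_le_center φ₁) θ' hθ'
  haveI := finite_mult (bar φ₁) (bar_surjective φ₁ h₁) (ker_bar_le_center φ₁)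
  haveI := finite_mult (bar φ₂) (bar_surjective φ₂ h₂) (ker_bar_le_center φ₂)
  have c1 := Nat.card_le_card_of_surjective _ s1
  have c2 := Nat.card_le_card_of_surjective _ s2
  exact ⟨MulEquiv.ofBijective _
    ((Nat.bijective_iff_surjective_and_card _).mpr ⟨s1, le_antisymm c2 c1⟩)⟩

section transfer

variable {G : Type u} [Group G] (U : Subgroup G)

/-- the preimage of `U` in the free group -/
abbrev SS : Subgroup (FreeGroup G) := U.comap (std G)

/-- Nielsen–Schreier -/
noncomputable def eps : SS U ≃* FreeGroup (IsFreeGroup.Generators (SS U)) :=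
  IsFreeGroup.toFreeGroup (SS U)

/-- the resulting free presentation of `U` -/
noncomputable def psi : FreeGroup (IsFreeGroup.Generators (SS U)) →* U :=
  ((std G).subgroupComap U).comp (eps U).symm.toMonoidHom

theorem psi_surjective : Function.Surjective (psi U) :=
  ((std G).subgroupComap_surjective_of_surjective U (std_surjective G)).comp (eps U).symm.surjective

/-- the projection of `SS U` onto the free central extension of `U` -/
noncomputable def mkS : SS U →* Hgrp (psi U) :=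
  (QuotientGroup.mk' (FR (psi U))).comp (eps U).toMonoidHom

theorem mkS_surjective : Function.Surjective (mkS U) :=
  (QuotientGroup.mk'_surjective _).comp (eps U).surjective

theorem bar_mkS (s : SS U) : bar (psi U) (mkS U s) = (std G).subgroupComap U s := by
  show (std G).subgroupComap U ((eps U).symm (eps U s)) = _
  rw [MulEquiv.symm_apply_apply]

theorem mkS_mem_ker (s : SS U) (hs : s.1 ∈ (std G).ker) : mkS U s ∈ (bar (psi U)).ker := by
  rw [MonoidHom.mem_ker, bar_mkS]
  exact Subtype.ext hs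

/-- the map to the free central extension of `G` -/
noncomputable def cc : Hgrp (psi U) →* Hgrp (std G) :=
  QuotientGroup.lift (FR (psi U)) (((QuotientGroup.mk' (FR (std G))).comp (SS U).subtype).comp
    (eps U).symm.toMonoidHom) (by
    have h0 : FR (psi U) = ⁅(⊤ : Subgroup _), (psi U).ker⁆ := rfl
    rw [h0, Subgroup.commutator_le]
    intro f _ r hr
    rw [MonoidHom.mem_ker, map_commutatorElement, commutatorElement_eq_one_iff_mul_comm]
    have h1 : (((QuotientGroup.mk' (FR (std G))).comp (SS U).subtype).comp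
        (eps U).symm.toMonoidHom) r ∈ (bar (std G)).ker := by
      have h2 : ((std G).subgroupComap U) ((eps U).symm r) = 1 := hr
      exact congrArg Subtype.val h2
    exact (Subgroup.mem_center_iff.mp (ker_bar_le_center _ h1)) _)

theorem cc_mkS (s : SS U) : cc U (mkS U s) = QuotientGroup.mk s.1 := by
  show (QuotientGroup.mk (((eps U).symm (eps U s)).1) : Hgrp (std G)) = _
  rw [MulEquiv.symm_apply_apply]

theorem bar_cc (l : Hgrp (psi U)) : bar (std G) (cc U l) = (bar (psi U) l : G) := by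
  obtain ⟨s, rfl⟩ := mkS_surjective U l
  rw [cc_mkS, bar_mkS]
  rfl

theorem conj_mem_ker (g : FreeGroup G) (r : (std G).ker) : g⁻¹ * r.1 * g ∈ (std G).ker := by
  rw [MonoidHom.mem_ker, map_mul, map_mul, MonoidHom.mem_ker.mp r.2, map_inv]
  simp

theorem ker_le_SS : (std G).ker ≤ SS U := by
  intro x hx
  show std G x ∈ U
  rw [MonoidHom.mem_ker.mp hx]
  exact U.one_mem

/-- conjugate, then project -/
noncomputable def chi (g : FreeGroup G) : (std G).ker →* (bar (psi U)).ker where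
  toFun r := ⟨mkS U ⟨g⁻¹ * r.1 * g, ker_le_SS U (conj_mem_ker g r)⟩,
    mkS_mem_ker U _ (conj_mem_ker g r)⟩
  map_one' := by
    apply Subtype.ext
    have h : (⟨g⁻¹ * ((1 : (std G).ker) : FreeGroup G) * g, ker_le_SS U (conj_mem_ker g 1)⟩ : SS U)
        = 1 := Subtype.ext (by simp)
    show mkS U _ = 1
    rw [h, map_one]
  map_mul' a c := by
    apply Subtype.ext
    show mkS U _ = mkS U _ * mkS U _
    rw [← map_mul]
    congr 1
    apply Subtype.ext
    show g⁻¹ * (a.1 * c.1) * g = (g⁻¹ * a.1 * g) * (g⁻¹ * c.1 * g)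
    group

theorem chi_apply_coe (g : FreeGroup G) (r : (std G).ker) :
    ((chi U g r : (bar (psi U)).ker) : Hgrp (psi U)) =
      mkS U ⟨g⁻¹ * r.1 * g, ker_le_SS U (conj_mem_ker g r)⟩ := rfl

theorem chi_mul_right (g : FreeGroup G) (s : SS U) : chi U (g * s.1) = chi U g := by
  apply MonoidHom.ext
  intro r
  apply Subtype.ext
  rw [chi_apply_coe, chi_apply_coe]
  have h1 : (⟨(g * s.1)⁻¹ * r.1 * (g * s.1), ker_le_SS U (conj_mem_ker _ r)⟩ : SS U) =
      s⁻¹ * ⟨g⁻¹ * r.1 * g, ker_le_SS U (conj_mem_ker g r)⟩ * s := by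
    apply Subtype.ext
    show (g * s.1)⁻¹ * r.1 * (g * s.1) = s.1⁻¹ * (g⁻¹ * r.1 * g) * s.1
    group
  rw [h1, map_mul, map_mul, map_inv]
  have h2 := ker_bar_le_center _ (mkS_mem_ker U ⟨g⁻¹ * r.1 * g, ker_le_SS U (conj_mem_ker g r)⟩
    (conj_mem_ker g r))
  rw [(Subgroup.mem_center_iff.mp h2) (mkS U s)⁻¹, mul_assoc, inv_mul_cancel, mul_one]

theorem chi_eq_of_mk_eq (g g' : FreeGroup G)
    (h : (QuotientGroup.mk g : FreeGroup G ⧸ SS U) = QuotientGroup.mk g') :
    chi U g = chi U g' := by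
  have h1 : g⁻¹ * g' ∈ SS U := QuotientGroup.eq.mp h
  have h2 := chi_mul_right U g ⟨_, h1⟩
  rw [← h2]
  congr 1
  show g * (g⁻¹ * g') = g'
  group

theorem conj_mem_ker' (f : FreeGroup G) (r : (std G).ker) : f * r.1 * f⁻¹ ∈ (std G).ker := by
  rw [MonoidHom.mem_ker, map_mul, map_mul, MonoidHom.mem_ker.mp r.2, map_inv]
  simp

theorem chi_conj (g f : FreeGroup G) (r : (std G).ker) :
    chi U g ⟨f * r.1 * f⁻¹, conj_mem_ker' f r⟩ = chi U (f⁻¹ * g) r := by
  apply Subtype.ext
  rw [chi_apply_coe, chi_apply_coe]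
  congr 1
  apply Subtype.ext
  show g⁻¹ * (f * r.1 * f⁻¹) * g = (f⁻¹ * g)⁻¹ * r.1 * (f⁻¹ * g)
  group

variable [Finite G]

instance SS_finiteIndex : (SS U).FiniteIndex := by
  constructor
  rw [Subgroup.index_comap_of_surjective U (std_surjective G)]
  exact Subgroup.FiniteIndex.index_ne_zero

/-- the transfer on relators -/
noncomputable def VV : (std G).ker →* (bar (psi U)).ker :=
  letI := (SS U).fintypeQuotientOfFiniteIndex
  ∏ q : FreeGroup G ⧸ SS U, chi U q.out

theorem VV_apply (r : (std G).ker) :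
    letI := (SS U).fintypeQuotientOfFiniteIndex
    VV U r = ∏ q : FreeGroup G ⧸ SS U, chi U q.out r := by
  unfold VV
  exact MonoidHom.finsetProd_apply _ _ _

theorem VV_conj (f : FreeGroup G) (r : (std G).ker) :
    VV U ⟨f * r.1 * f⁻¹, conj_mem_ker' f r⟩ = VV U r := by
  letI := (SS U).fintypeQuotientOfFiniteIndex
  rw [VV_apply, VV_apply]
  rw [← Equiv.prod_comp (MulAction.toPerm f⁻¹) (fun q : FreeGroup G ⧸ SS U => chi U q.out r)]
  apply Finset.prod_congr rfl
  intro q _
  rw [chi_conj]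
  have h : chi U (f⁻¹ * q.out) = chi U ((MulAction.toPerm f⁻¹ q : FreeGroup G ⧸ SS U)).out := by
    apply chi_eq_of_mk_eq
    rw [QuotientGroup.out_eq']
    show _ = f⁻¹ • q
    conv_rhs => rw [← QuotientGroup.out_eq' q]
    rfl
  rw [h]

theorem VV_eq_one_of_mem_FR (r : (std G).ker) (hr : r.1 ∈ FR (std G)) : VV U r = 1 := by
  have hle : FR (std G) ≤ (VV U).ker.map (std G).ker.subtype := by
    have h0 : FR (std G) = ⁅(⊤ : Subgroup _), (std G).ker⁆ := rfl
    rw [h0, Subgroup.commutator_le]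
    intro f _ x hx
    refine ⟨⟨f * x * f⁻¹, conj_mem_ker' f ⟨x, hx⟩⟩ * (⟨x, hx⟩ : (std G).ker)⁻¹, ?_, ?_⟩
    · show VV U _ = 1
      rw [map_mul, map_inv, VV_conj U f ⟨x, hx⟩, mul_inv_cancel]
    · rfl
  obtain ⟨r', hr', hrr⟩ := hle hr
  have : r' = r := Subtype.ext hrr
  rw [← this]
  exact hr'

theorem VV_mem_commutator (r : (std G).ker) (hr : r.1 ∈ commutator (FreeGroup G)) :
    ((VV U r : (bar (psi U)).ker) : Hgrp (psi U)) ∈ commutator (Hgrp (psi U)) := by
  letI := (SS U).fintypeQuotientOfFiniteIndex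
  let ϕ : SS U →* Abelianization (Hgrp (psi U)) := Abelianization.of.comp (mkS U)
  have h1 : MonoidHom.transfer ϕ r.1 = 1 := Abelianization.commutator_subset_ker _ hr
  rw [transfer_eq_prod_out ϕ r.1 (fun g => ker_le_SS U (conj_mem_ker g r))] at h1
  let aL : (bar (psi U)).ker →* Abelianization (Hgrp (psi U)) :=
    Abelianization.of.comp (bar (psi U)).ker.subtype
  have h2 : aL (VV U r) = 1 := by
    rw [VV_apply, map_prod, ← h1]
    rfl
  rw [← Abelianization.ker_of]
  exact h2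

theorem cc_VV (r : (std G).ker) :
    cc U ((VV U r : (bar (psi U)).ker) : Hgrp (psi U)) =
      (QuotientGroup.mk r.1 : Hgrp (std G)) ^ U.index := by
  letI := (SS U).fintypeQuotientOfFiniteIndex
  let cZ : (bar (psi U)).ker →* (bar (std G)).ker :=
    ((cc U).comp (bar (psi U)).ker.subtype).codRestrict _ (fun z => by
      show bar (std G) (cc U z.1) = 1
      rw [bar_cc, MonoidHom.mem_ker.mp z.2]
      rfl)
  have hr : (QuotientGroup.mk r.1 : Hgrp (std G)) ∈ (bar (std G)).ker := r.2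
  have h1 : ∀ g, cZ (chi U g r) = ⟨QuotientGroup.mk r.1, hr⟩ := by
    intro g
    apply Subtype.ext
    show cc U (mkS U _) = _
    rw [cc_mkS]
    show (QuotientGroup.mk (g⁻¹ * r.1 * g) : Hgrp (std G)) = _
    rw [QuotientGroup.mk_mul, QuotientGroup.mk_mul,
      (Subgroup.mem_center_iff.mp (ker_bar_le_center _ hr)) _, mul_assoc, ← QuotientGroup.mk_mul,
      inv_mul_cancel, QuotientGroup.mk_one, mul_one]
  have h2 : cZ (VV U r) = ⟨QuotientGroup.mk r.1, hr⟩ ^ U.index := by
    rw [VV_apply, map_prod]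
    simp only [h1]
    rw [Finset.prod_const, Finset.card_univ, ← Nat.card_eq_fintype_card, ← Subgroup.index_eq_card,
      Subgroup.index_comap_of_surjective U (std_surjective G)]
  exact congrArg Subtype.val h2

theorem exists_tr_cor : ∃ (tr : Mult (bar (std G)) →* Mult (bar (psi U)))
    (cor : Mult (bar (psi U)) →* Mult (bar (std G))), ∀ t, cor (tr t) = t ^ U.index := by
  let RF : Subgroup (FreeGroup G) := (std G).ker ⊓ commutator (FreeGroup G)
  let pG : RF →* Mult (bar (std G)) :=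
    ((QuotientGroup.mk' (FR (std G))).comp RF.subtype).codRestrict _ (fun r =>
      ⟨r.2.1, map_mem_commutator (QuotientGroup.mk' (FR (std G))) r.1 r.2.2⟩)
  have hpG : Function.Surjective pG := by
    rintro ⟨t, ht1, ht2⟩
    rw [← map_commutator_of_surjective (QuotientGroup.mk' (FR (std G)))
      (QuotientGroup.mk'_surjective _)] at ht2
    obtain ⟨f, hf, rfl⟩ := ht2
    exact ⟨⟨f, ht1, hf⟩, rfl⟩
  let V₁ : RF →* Mult (bar (psi U)) :=
    (((bar (psi U)).ker.subtype.comp (VV U)).comp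
      (Subgroup.inclusion (inf_le_left : RF ≤ (std G).ker))).codRestrict _ (fun r =>
      ⟨(VV U ⟨r.1, r.2.1⟩).2, VV_mem_commutator U ⟨r.1, r.2.1⟩ r.2.2⟩)
  have hker : pG.ker ≤ V₁.ker := by
    intro r hr
    have h1 : (QuotientGroup.mk r.1 : Hgrp (std G)) = 1 :=
      congrArg Subtype.val (MonoidHom.mem_ker.mp hr)
    rw [QuotientGroup.eq_one_iff] at h1
    rw [MonoidHom.mem_ker]
    apply Subtype.ext
    show ((VV U ⟨r.1, r.2.1⟩ : (bar (psi U)).ker) : Hgrp (psi U)) = 1
    rw [VV_eq_one_of_mem_FR U ⟨r.1, r.2.1⟩ h1]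
    rfl
  let tr : Mult (bar (std G)) →* Mult (bar (psi U)) := (pG.liftOfSurjective hpG) ⟨V₁, hker⟩
  have htr : ∀ r, tr (pG r) = V₁ r := fun r =>
    MonoidHom.liftOfRightInverse_comp_apply pG _ (Function.rightInverse_surjInv hpG) ⟨V₁, hker⟩ r
  have hcc : (bar (std G)).comp (cc U) = U.subtype.comp (bar (psi U)) :=
    MonoidHom.ext (fun l => bar_cc U l)
  refine ⟨tr, multMap (bar (psi U)) (bar (std G)) U.subtype (cc U) hcc, ?_⟩
  intro t
  obtain ⟨r, rfl⟩ := hpG t
  rw [htr]
  apply Subtype.ext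
  exact cc_VV U ⟨r.1, r.2.1⟩

end transfer

end Cfsg.Agent.Lib.Helper21.Schur
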