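import Mathlib
import Cfsg.Agent.Lib.Helper21.SchurTransfer

set_option autoImplicit false

namespace Cfsg.Agent.Lib.Helper21.Schur

open scoped commutatorElement

universe u v w

theorem exists_direct_factor {A B : Type*} [CommGroup A] [CommGroup B] [Finite A] (p : ℕ)
    [hp : Fact p.Prime] (tr : A →* B) (cor : B →* A) (m : ℕ) (hm : ¬ p ∣ m)
    (h : ∀ a, cor (tr a) = a ^ m) :
    ∃ C D : Subgroup B, C ⊓ D = ⊥ ∧ C ⊔ D = ⊤ ∧
      Nonempty (CommGroup.primaryComponent A p ≃* C) := by
  obtain ⟨k, n', hn', hn⟩ := Nat.exists_eq_pow_mul_and_not_dvd (Nat.card_pos (α := A)).ne' p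
    hp.out.ne_one
  have hN : p.Coprime (m * n') :=
    Nat.Coprime.mul_right ((Nat.Prime.coprime_iff_not_dvd hp.out).mpr hm)
      ((Nat.Prime.coprime_iff_not_dvd hp.out).mpr hn')
  have hAp : IsPGroup p (CommGroup.primaryComponent A p) := CommGroup.primaryComponent.isPGroup
  let E := hAp.powEquiv hN
  have hE : ∀ a, E a = a ^ (m * n') := fun a => hAp.powEquiv_apply hN a
  let j : CommGroup.primaryComponent A p →* B := tr.comp (CommGroup.primaryComponent A p).subtype
  have hcj : ∀ a : CommGroup.primaryComponent A p, cor (j a) = (a : A) ^ m := fun a => h a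
  have key : ∀ a : CommGroup.primaryComponent A p, (cor (j a)) ^ n' = 1 → a = 1 := by
    intro a ha
    rw [hcj, ← pow_mul] at ha
    apply E.injective
    rw [hE, hE, one_pow]
    exact Subtype.ext ha
  have hj : Function.Injective j := by
    rw [injective_iff_map_eq_one]
    intro a ha
    apply key
    rw [ha, map_one, one_pow]
  refine ⟨j.range, ((powMonoidHom n').comp cor).ker, ?_, ?_, ⟨MonoidHom.ofInjective hj⟩⟩
  · rw [eq_bot_iff]
    rintro _ ⟨⟨a, rfl⟩, h2⟩
    have h3 : (cor (j a)) ^ n' = 1 := h2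
    rw [key a h3, map_one]
    exact Subgroup.one_mem _
  · rw [eq_top_iff]
    intro y _
    have hw : (cor y) ^ n' ∈ CommGroup.primaryComponent A p := by
      rw [CommGroup.mem_primaryComponent]
      refine ⟨k, ?_⟩
      rw [← pow_mul, mul_comm, ← hn]
      exact pow_card_eq_one'
    obtain ⟨a, ha⟩ := E.surjective ⟨_, hw⟩
    rw [hE] at ha
    have ha' : (a : A) ^ (m * n') = (cor y) ^ n' := congrArg Subtype.val ha
    have hy : y = j a * ((j a)⁻¹ * y) := by group
    rw [hy]
    refine Subgroup.mul_mem_sup (show j a ∈ j.range from ⟨a, rfl⟩) ?_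
    show (cor ((j a)⁻¹ * y)) ^ n' = 1
    rw [map_mul, map_inv, hcj, mul_pow, inv_pow, ← pow_mul, ha', inv_mul_cancel]

theorem sylow_direct_factor {G : Type u} [Group G] [Finite G] (p : ℕ) [Fact p.Prime]
    (P : Sylow p G) {A : Type v} {B : Type w} [CommGroup A] [CommGroup B]
    (hA : Cfsg.HasSchurMultiplier G A) (hB : Cfsg.HasSchurMultiplier P B) :
    ∃ C D : Subgroup B, C ⊓ D = ⊥ ∧ C ⊔ D = ⊤ ∧
      Nonempty (CommGroup.primaryComponent A p ≃* C) := by
  obtain ⟨eA⟩ := mulEquiv_mult_of_hasSchurMultiplier (std G) (std_surjective G) hA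
  obtain ⟨eB⟩ := mulEquiv_mult_of_hasSchurMultiplier (std P) (std_surjective P) hB
  obtain ⟨e'⟩ := mult_equiv_of_presentations (psi (P : Subgroup G)) (std P)
    (psi_surjective (P : Subgroup G)) (std_surjective P)
  obtain ⟨tr, cor, htc⟩ := exists_tr_cor (P : Subgroup G)
  haveI := finite_mult (bar (std G)) (bar_surjective _ (std_surjective G)) (ker_bar_le_center _)
  haveI : Finite A := Finite.of_equiv _ eA.symm.toEquiv
  let tr' : A →* B := ((eB.symm.toMonoidHom.comp e'.toMonoidHom).comp tr).comp eA.toMonoidHom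
  let cor' : B →* A := ((eA.symm.toMonoidHom.comp cor).comp e'.symm.toMonoidHom).comp eB.toMonoidHom
  apply exists_direct_factor p tr' cor' (P : Subgroup G).index P.not_dvd_index
  intro a
  show eA.symm (cor (e'.symm (eB (eB.symm (e' (tr (eA a))))))) = a ^ _
  rw [MulEquiv.apply_symm_apply, MulEquiv.symm_apply_apply, htc, map_pow, MulEquiv.symm_apply_apply]

end Cfsg.Agent.Lib.Helper21.Schur
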