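import Mathlib
import Cfsg.Prelude.Def_KGroupFacts

set_option autoImplicit false

namespace Cfsg.Agent.Lib.Helper21

open scoped commutatorElement

universe u v w

/-- biadditive maps on a pair of groups -/
structure BiAdd (Γ₁ : Type u) (Γ₂ : Type v) (C : Type w) [Group Γ₁] [Group Γ₂] [AddCommGroup C] where
  /-- the underlying function -/
  toFun : Γ₁ → Γ₂ → C
  mul_left : ∀ x x' y, toFun (x * x') y = toFun x y + toFun x' y
  mul_right : ∀ x y y', toFun x (y * y') = toFun x y + toFun x y'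

namespace BiAdd

variable {Γ₁ : Type u} {Γ₂ : Type v} {C : Type w} [Group Γ₁] [Group Γ₂] [AddCommGroup C]
  (b : BiAdd Γ₁ Γ₂ C)

@[simp] theorem one_left (y : Γ₂) : b.toFun 1 y = 0 := by
  have h := b.mul_left 1 1 y
  rw [mul_one] at h
  exact left_eq_add.mp h

@[simp] theorem one_right (x : Γ₁) : b.toFun x 1 = 0 := by
  have h := b.mul_right x 1 1
  rw [mul_one] at h
  exact left_eq_add.mp h

@[simp] theorem inv_left (x : Γ₁) (y : Γ₂) : b.toFun x⁻¹ y = - b.toFun x y := by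
  have h := b.mul_left x⁻¹ x y
  rw [inv_mul_cancel, one_left] at h
  exact eq_neg_of_add_eq_zero_left h.symm

@[simp] theorem inv_right (x : Γ₁) (y : Γ₂) : b.toFun x y⁻¹ = - b.toFun x y := by
  have h := b.mul_right x y⁻¹ y
  rw [inv_mul_cancel, one_right] at h
  exact eq_neg_of_add_eq_zero_left h.symm

end BiAdd

/-- The central extension of `Γ₁ × Γ₂` by `C` defined by a biadditive map. -/
@[ext] structure TwProd {Γ₁ : Type u} {Γ₂ : Type v} {C : Type w} [Group Γ₁] [Group Γ₂]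
    [AddCommGroup C] (b : BiAdd Γ₁ Γ₂ C) : Type (max u v w) where
  /-- first coordinate -/
  x : Γ₁
  /-- second coordinate -/
  y : Γ₂
  /-- central coordinate -/
  w : C

namespace TwProd

variable {Γ₁ : Type u} {Γ₂ : Type v} {C : Type w} [Group Γ₁] [Group Γ₂] [AddCommGroup C]
  (b : BiAdd Γ₁ Γ₂ C)

instance instMulTwProd : Mul (TwProd b) :=
  ⟨fun p q => ⟨p.x * q.x, p.y * q.y, p.w + q.w + b.toFun p.x q.y⟩⟩
instance instOneTwProd : One (TwProd b) := ⟨⟨1, 1, 0⟩⟩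
instance instInvTwProd : Inv (TwProd b) := ⟨fun p => ⟨p.x⁻¹, p.y⁻¹, -p.w + b.toFun p.x p.y⟩⟩

@[simp] theorem mul_x (p q : TwProd b) : (p * q).x = p.x * q.x := rfl
@[simp] theorem mul_y (p q : TwProd b) : (p * q).y = p.y * q.y := rfl
@[simp] theorem mul_w (p q : TwProd b) : (p * q).w = p.w + q.w + b.toFun p.x q.y := rfl
@[simp] theorem one_x : (1 : TwProd b).x = 1 := rfl
@[simp] theorem one_y : (1 : TwProd b).y = 1 := rfl
@[simp] theorem one_w : (1 : TwProd b).w = 0 := rfl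
@[simp] theorem inv_x (p : TwProd b) : (p⁻¹).x = p.x⁻¹ := rfl
@[simp] theorem inv_y (p : TwProd b) : (p⁻¹).y = p.y⁻¹ := rfl
@[simp] theorem inv_w (p : TwProd b) : (p⁻¹).w = -p.w + b.toFun p.x p.y := rfl

instance instGroupTwProd : Group (TwProd b) where
  mul_assoc p q r := by
    ext
    · simp [mul_assoc]
    · simp [mul_assoc]
    · simp only [mul_w, mul_x, mul_y, b.mul_left, b.mul_right]; abel
  one_mul p := by ext <;> simp
  mul_one p := by ext <;> simp
  inv_mul_cancel p := by ext <;> simp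

/-- first inclusion -/
def inl : Γ₁ →* TwProd b where
  toFun x := ⟨x, 1, 0⟩
  map_one' := rfl
  map_mul' x x' := by ext <;> simp

/-- second inclusion -/
def inr : Γ₂ →* TwProd b where
  toFun y := ⟨1, y, 0⟩
  map_one' := rfl
  map_mul' y y' := by ext <;> simp

/-- central inclusion -/
def inw : Multiplicative C →* TwProd b where
  toFun c := ⟨1, 1, Multiplicative.toAdd c⟩
  map_one' := rfl
  map_mul' c c' := by ext <;> simp

/-- the projection -/
def proj : TwProd b →* Γ₁ × Γ₂ where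
  toFun p := (p.x, p.y)
  map_one' := rfl
  map_mul' _ _ := rfl

theorem commutator_inl_inr (x : Γ₁) (y : Γ₂) :
    ⁅inl b x, inr b y⁆ = inw b (Multiplicative.ofAdd (b.toFun x y)) := by
  rw [commutatorElement_def, mul_inv_eq_iff_eq_mul, mul_inv_eq_iff_eq_mul]
  ext <;> simp [inl, inr, inw]

theorem eq_mul_mul (p : TwProd b) :
    p = inl b p.x * inr b p.y * inw b (Multiplicative.ofAdd (p.w - b.toFun p.x p.y)) := by
  ext <;> simp [inl, inr, inw]

section stem

variable {Q₁ : Type*} {Q₂ : Type*} [Group Q₁] [Group Q₂] (σ₁ : Γ₁ →* Q₁) (σ₂ : Γ₂ →* Q₂)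

/-- the extension map -/
def sig : TwProd b →* Q₁ × Q₂ := (σ₁.prodMap σ₂).comp (proj b)

theorem sig_apply (p : TwProd b) : sig b σ₁ σ₂ p = (σ₁ p.x, σ₂ p.y) := rfl

theorem mem_ker_sig (p : TwProd b) : p ∈ (sig b σ₁ σ₂).ker ↔ p.x ∈ σ₁.ker ∧ p.y ∈ σ₂.ker := by
  rw [MonoidHom.mem_ker, sig_apply, Prod.mk_eq_one]
  exact Iff.rfl

theorem inw_mem_commutator
    (hgen : AddSubgroup.closure {c : C | ∃ x y, c = b.toFun x y} = ⊤) (c : C) :
    inw b (Multiplicative.ofAdd c) ∈ commutator (TwProd b) := by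
  have hc : c ∈ AddSubgroup.closure {c : C | ∃ x y, c = b.toFun x y} := by
    rw [hgen]; exact AddSubgroup.mem_top c
  induction hc using AddSubgroup.closure_induction with
  | mem c hc =>
    obtain ⟨x, y, rfl⟩ := hc
    rw [← commutator_inl_inr]
    exact Subgroup.commutator_mem_commutator (Subgroup.mem_top _) (Subgroup.mem_top _)
  | zero => exact Subgroup.one_mem _
  | add a c _ _ ha hc =>
    rw [ofAdd_add, map_mul]
    exact Subgroup.mul_mem _ ha hc
  | neg a _ ha =>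
    rw [ofAdd_neg, map_inv]
    exact Subgroup.inv_mem _ ha

theorem map_commutator_le {G X : Type*} [Group G] [Group X] (f : G →* X) (g : G)
    (hg : g ∈ commutator G) : f g ∈ commutator X := by
  have h2 : (commutator G).map f ≤ commutator X := by
    rw [commutator_def, Subgroup.map_commutator, commutator_def]
    exact Subgroup.commutator_mono le_top le_top
  exact h2 ⟨g, hg, rfl⟩

theorem sig_isStem (h₁ : Cfsg.IsStemExtension σ₁) (h₂ : Cfsg.IsStemExtension σ₂)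
    (hb₁ : ∀ x ∈ σ₁.ker, ∀ y, b.toFun x y = 0) (hb₂ : ∀ x, ∀ y ∈ σ₂.ker, b.toFun x y = 0)
    (hgen : AddSubgroup.closure {c : C | ∃ x y, c = b.toFun x y} = ⊤) :
    Cfsg.IsStemExtension (sig b σ₁ σ₂) := by
  refine ⟨?_, ?_, ?_⟩
  · rintro ⟨q₁, q₂⟩
    obtain ⟨x, rfl⟩ := h₁.1 q₁
    obtain ⟨y, rfl⟩ := h₂.1 q₂
    exact ⟨⟨x, y, 0⟩, rfl⟩
  · intro p hp
    obtain ⟨hx, hy⟩ := (mem_ker_sig b σ₁ σ₂ p).mp hp
    rw [Subgroup.mem_center_iff]
    intro q
    ext
    · exact (Subgroup.mem_center_iff.mp (h₁.2.1 hx)) q.x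
    · exact (Subgroup.mem_center_iff.mp (h₂.2.1 hy)) q.y
    · simp only [mul_w, hb₁ p.x hx, hb₂ q.x p.y hy]; abel
  · intro p hp
    obtain ⟨hx, hy⟩ := (mem_ker_sig b σ₁ σ₂ p).mp hp
    rw [eq_mul_mul b p]
    exact Subgroup.mul_mem _ (Subgroup.mul_mem _ (map_commutator_le _ _ (h₁.2.2 hx))
      (map_commutator_le _ _ (h₂.2.2 hy))) (inw_mem_commutator b hgen _)

/-- the kernel of the extension map -/
def kerEquiv (hb₁ : ∀ x ∈ σ₁.ker, ∀ y, b.toFun x y = 0) :
    (sig b σ₁ σ₂).ker ≃* σ₁.ker × σ₂.ker × Multiplicative C where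
  toFun p := (⟨p.1.x, ((mem_ker_sig b σ₁ σ₂ p.1).mp p.2).1⟩,
    ⟨p.1.y, ((mem_ker_sig b σ₁ σ₂ p.1).mp p.2).2⟩, Multiplicative.ofAdd p.1.w)
  invFun t := ⟨⟨t.1.1, t.2.1.1, Multiplicative.toAdd t.2.2⟩,
    (mem_ker_sig b σ₁ σ₂ _).mpr ⟨t.1.2, t.2.1.2⟩⟩
  left_inv _ := rfl
  right_inv _ := rfl
  map_mul' p q := by
    have h := hb₁ p.1.x ((mem_ker_sig b σ₁ σ₂ p.1).mp p.2).1 q.1.y
    refine Prod.ext rfl (Prod.ext rfl ?_)
    show Multiplicative.ofAdd (p.1.w + q.1.w + b.toFun p.1.x q.1.y) =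
      Multiplicative.ofAdd p.1.w * Multiplicative.ofAdd q.1.w
    rw [h, add_zero]
    rfl

end stem

end TwProd

end Cfsg.Agent.Lib.Helper21
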