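import Mathlib
import Cfsg.Agent.Lib.Helper21.SchurProd
import Cfsg.Agent.Lib.Helper21.TwProd

set_option autoImplicit false

namespace Cfsg.Agent.Lib.Helper21.Schur

open scoped commutatorElement TensorProduct

universe u v w

theorem comm_mul_right {Γ : Type*} [Group Γ] (g h h' : Γ) (hc : ⁅g, h'⁆ ∈ Subgroup.center Γ) :
    ⁅g, h * h'⁆ = ⁅g, h⁆ * ⁅g, h'⁆ := by
  have h1 : ⁅g, h * h'⁆ = ⁅g, h⁆ * (h * ⁅g, h'⁆ * h⁻¹) := by
    simp only [commutatorElement_def]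
    group
  rw [h1, (Subgroup.mem_center_iff.mp hc) h, mul_inv_cancel_right]

theorem comm_mul_left {Γ : Type*} [Group Γ] (g g' h : Γ) (hc : ⁅g', h⁆ ∈ Subgroup.center Γ) :
    ⁅g * g', h⁆ = ⁅g, h⁆ * ⁅g', h⁆ := by
  have h1 : ⁅g * g', h⁆ = g * ⁅g', h⁆ * g⁻¹ * ⁅g, h⁆ := by
    simp only [commutatorElement_def]
    group
  rw [h1, (Subgroup.mem_center_iff.mp hc) g, mul_inv_cancel_right]
  exact ((Subgroup.mem_center_iff.mp hc) _).symm

/-- abbreviation for the tensor product of the abelianizations -/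
abbrev TT (Q₁ : Type u) (Q₂ : Type v) [Group Q₁] [Group Q₂] : Type (max u v) :=
  Additive (Abelianization Q₁) ⊗[ℤ] Additive (Abelianization Q₂)

/-- The commutator pairing of a central extension of a direct product. -/
theorem exists_pairing {Q₁ : Type u} {Q₂ : Type v} [Group Q₁] [Group Q₂] {Γ : Type*} [Group Γ]
    (σ : Γ →* Q₁ × Q₂) (hs : Function.Surjective σ) (hc : σ.ker ≤ Subgroup.center Γ) :
    ∃ t : Multiplicative (TT Q₁ Q₂) →* σ.ker, ∀ g h : Γ, (σ g).2 = 1 → (σ h).1 = 1 →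
      ∃ z, ((t z : σ.ker) : Γ) = ⁅g, h⁆ := by
  letI : CommGroup σ.ker :=
    { (inferInstance : Group σ.ker) with
      mul_comm := fun a c => Subtype.ext ((Subgroup.mem_center_iff.mp (hc c.2)) a) }
  let s := Function.surjInv hs
  have hss : ∀ q, σ (s q) = q := Function.surjInv_eq hs
  have hker : ∀ g h : Γ, (σ g).2 = 1 → (σ h).1 = 1 → ⁅g, h⁆ ∈ σ.ker := by
    intro g h hg hh
    rw [MonoidHom.mem_ker, map_commutatorElement]
    apply Prod.ext
    · show ⁅(σ g).1, (σ h).1⁆ = 1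
      rw [hh, commutatorElement_one_right]
    · show ⁅(σ g).2, (σ h).2⁆ = 1
      rw [hg, commutatorElement_one_left]
  let pr : Q₁ → Q₂ → σ.ker := fun q₁ q₂ => ⟨⁅s (q₁, 1), s (1, q₂)⁆,
    hker _ _ (by rw [hss]) (by rw [hss])⟩
  have pr_eq : ∀ (g h : Γ) (q₁ : Q₁) (q₂ : Q₂), σ g = (q₁, 1) → σ h = (1, q₂) →
      ⁅g, h⁆ = (pr q₁ q₂ : Γ) := by
    intro g h q₁ q₂ hg hh
    apply commutatorElement_eq_of_central
    · apply hc
      rw [MonoidHom.mem_ker, map_mul, map_inv, hss, hg, mul_inv_cancel]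
    · apply hc
      rw [MonoidHom.mem_ker, map_mul, map_inv, hss, hh, mul_inv_cancel]
  let P : Q₁ →* Q₂ →* σ.ker :=
    MonoidHom.mk' (fun q₁ => MonoidHom.mk' (fun q₂ => pr q₁ q₂) (by
      intro a c
      apply Subtype.ext
      show (pr q₁ (a * c) : Γ) = (pr q₁ a : Γ) * (pr q₁ c : Γ)
      rw [← pr_eq (s (q₁, 1)) (s (1, a) * s (1, c)) q₁ (a * c) (hss _)
        (by rw [map_mul, hss, hss]; simp)]
      exact comm_mul_right _ _ _ (hc (pr q₁ c).2))) (by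
      intro a c
      apply MonoidHom.ext
      intro q₂
      apply Subtype.ext
      show (pr (a * c) q₂ : Γ) = (pr a q₂ : Γ) * (pr c q₂ : Γ)
      rw [← pr_eq (s (a, 1) * s (c, 1)) (s (1, q₂)) (a * c) q₂
        (by rw [map_mul, hss, hss]; simp) (hss _)]
      exact comm_mul_left _ _ _ (hc (pr c q₂).2))
  let P'' : Abelianization Q₁ →* Abelianization Q₂ →* σ.ker :=
    (Abelianization.lift (Abelianization.lift P).flip).flip
  have hP'' : ∀ q₁ q₂, P'' (Abelianization.of q₁) (Abelianization.of q₂) = pr q₁ q₂ := by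
    intro q₁ q₂
    show (Abelianization.lift (Abelianization.lift P).flip) (Abelianization.of q₂)
      (Abelianization.of q₁) = _
    rw [Abelianization.lift_apply_of, MonoidHom.flip_apply, Abelianization.lift_apply_of]
    rfl
  let f : Additive (Abelianization Q₁) →+ Additive (Abelianization Q₂) →+ Additive σ.ker :=
    AddMonoidHom.mk' (fun m => MonoidHom.toAdditive (P'' (Additive.toMul m))) (by
      intro a c
      apply AddMonoidHom.ext
      intro n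
      show Additive.ofMul (P'' (Additive.toMul a * Additive.toMul c) (Additive.toMul n)) = _
      rw [map_mul]
      rfl)
  let t₀ : TT Q₁ Q₂ →+ Additive σ.ker := TensorProduct.liftAddHom f (by
    intro r m n
    rw [map_zsmul, map_zsmul]
    rfl)
  refine ⟨AddMonoidHom.toMultiplicativeLeft t₀, ?_⟩
  intro g h hg hh
  refine ⟨Multiplicative.ofAdd (Additive.ofMul (Abelianization.of (σ g).1) ⊗ₜ[ℤ]
    Additive.ofMul (Abelianization.of (σ h).2)), ?_⟩
  rw [pr_eq g h (σ g).1 (σ h).2 (Prod.ext rfl hg) (Prod.ext hh rfl), ← hP'']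
  have h1 : t₀ (Additive.ofMul (Abelianization.of (σ g).1) ⊗ₜ[ℤ]
    Additive.ofMul (Abelianization.of (σ h).2)) = f (Additive.ofMul (Abelianization.of (σ g).1))
      (Additive.ofMul (Abelianization.of (σ h).2)) := TensorProduct.liftAddHom_tmul _ _ _ _
  exact congrArg (fun z : Additive σ.ker => ((Additive.toMul z : σ.ker) : Γ)) h1

/-- the biadditive map defining the cover of a direct product -/
def tensorBiAdd {Q₁ : Type u} {Q₂ : Type v} [Group Q₁] [Group Q₂] {Γ₁ : Type u} {Γ₂ : Type v}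
    [Group Γ₁] [Group Γ₂] (σ₁ : Γ₁ →* Q₁) (σ₂ : Γ₂ →* Q₂) : BiAdd Γ₁ Γ₂ (TT Q₁ Q₂) where
  toFun x y := Additive.ofMul (Abelianization.of (σ₁ x)) ⊗ₜ[ℤ] Additive.ofMul (Abelianization.of (σ₂ y))
  mul_left x x' y := by
    rw [map_mul, map_mul, ofMul_mul, TensorProduct.add_tmul]
  mul_right x y y' := by
    rw [map_mul, map_mul, ofMul_mul, TensorProduct.tmul_add]

theorem hasSchurMultiplier_prod_tensor {Q₁ : Type u} {Q₂ : Type v} [Group Q₁] [Group Q₂]
    [Finite Q₁] [Finite Q₂] {A B : Type w} [CommGroup A] [CommGroup B]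
    (hA : Cfsg.HasSchurMultiplier Q₁ A) (hB : Cfsg.HasSchurMultiplier Q₂ B) :
    Cfsg.HasSchurMultiplier (Q₁ × Q₂) (A × B × Multiplicative (TT Q₁ Q₂)) := by
  constructor
  · obtain ⟨⟨Γ₁, _, _, σ₁, hσ₁, ⟨e₁⟩⟩, -⟩ := hA
    obtain ⟨⟨Γ₂, _, _, σ₂, hσ₂, ⟨e₂⟩⟩, -⟩ := hB
    let b := tensorBiAdd σ₁ σ₂
    have hb₁ : ∀ x ∈ σ₁.ker, ∀ y, b.toFun x y = 0 := by
      intro x hx y
      show Additive.ofMul (Abelianization.of (σ₁ x)) ⊗ₜ[ℤ] _ = 0
      rw [MonoidHom.mem_ker.mp hx, map_one, ofMul_one, TensorProduct.zero_tmul]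
    have hb₂ : ∀ x, ∀ y ∈ σ₂.ker, b.toFun x y = 0 := by
      intro x y hy
      show _ ⊗ₜ[ℤ] Additive.ofMul (Abelianization.of (σ₂ y)) = 0
      rw [MonoidHom.mem_ker.mp hy, map_one, ofMul_one, TensorProduct.tmul_zero]
    have hgen : AddSubgroup.closure {c : TT Q₁ Q₂ | ∃ x y, c = b.toFun x y} = ⊤ := by
      rw [eq_top_iff]
      intro z _
      induction z using TensorProduct.induction_on with
      | zero => exact AddSubgroup.zero_mem _
      | tmul m n =>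
        obtain ⟨q₁, hq₁⟩ := QuotientGroup.mk_surjective (Additive.toMul m)
        obtain ⟨q₂, hq₂⟩ := QuotientGroup.mk_surjective (Additive.toMul n)
        obtain ⟨x, rfl⟩ := hσ₁.1 q₁
        obtain ⟨y, rfl⟩ := hσ₂.1 q₂
        apply AddSubgroup.subset_closure
        refine ⟨x, y, ?_⟩
        show m ⊗ₜ[ℤ] n = Additive.ofMul (Abelianization.of (σ₁ x)) ⊗ₜ[ℤ]
          Additive.ofMul (Abelianization.of (σ₂ y))
        have e1 : Abelianization.of (σ₁ x) = Additive.toMul m := hq₁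
        have e2 : Abelianization.of (σ₂ y) = Additive.toMul n := hq₂
        rw [e1, e2]
        rfl
      | add a c ha hc => exact AddSubgroup.add_mem _ (ha (AddSubgroup.mem_top _)) (hc (AddSubgroup.mem_top _))
    have hstem := TwProd.sig_isStem b σ₁ σ₂ hσ₁ hσ₂ hb₁ hb₂ hgen
    haveI := finite_mult (TwProd.sig b σ₁ σ₂) hstem.1 hstem.2.1
    have hle : (TwProd.sig b σ₁ σ₂).ker ≤ Mult (TwProd.sig b σ₁ σ₂) := le_inf le_rfl hstem.2.2
    haveI : Finite (TwProd.sig b σ₁ σ₂).ker :=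
      Finite.of_injective (Subgroup.inclusion hle) (Subgroup.inclusion_injective _)
    refine ⟨TwProd b, inferInstance, finite_of_finite_ker (TwProd.sig b σ₁ σ₂),
      TwProd.sig b σ₁ σ₂, hstem, ?_⟩
    exact ⟨(TwProd.kerEquiv b σ₁ σ₂ hb₁).trans
      (MulEquiv.prodCongr e₁ (MulEquiv.prodCongr e₂ (MulEquiv.refl _)))⟩
  · intro Γ _ _ σ hσ
    obtain ⟨eA⟩ := mulEquiv_mult_of_hasSchurMultiplier (std Q₁) (std_surjective Q₁) hA
    obtain ⟨eB⟩ := mulEquiv_mult_of_hasSchurMultiplier (std Q₂) (std_surjective Q₂) hB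
    obtain ⟨θ₁, hθ₁⟩ := exists_lift (std Q₁) (MonoidHom.inl Q₁ Q₂) σ hσ.1 hσ.2.1
    obtain ⟨θ₂, hθ₂⟩ := exists_lift (std Q₂) (MonoidHom.inr Q₁ Q₂) σ hσ.1 hσ.2.1
    have e1 : ∀ x, σ (θ₁ x) = (bar (std Q₁) x, 1) := fun x => DFunLike.congr_fun hθ₁ x
    have e2 : ∀ y, σ (θ₂ y) = (1, bar (std Q₂) y) := fun y => DFunLike.congr_fun hθ₂ y
    obtain ⟨t, ht⟩ := exists_pairing σ hσ.1 hσ.2.1
    let P₀ : Subgroup Γ := t.range.map σ.ker.subtype
    have hP₀ : P₀ ≤ σ.ker := Subgroup.map_subtype_le _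
    haveI : P₀.Normal := normal_of_le_center (hP₀.trans hσ.2.1)
    have hM : P₀ ⊔ Mult σ = σ.ker := by
      apply le_antisymm (sup_le hP₀ inf_le_left)
      exact le_trans (le_inf le_rfl hσ.2.2) le_sup_right
    have hstem := quotLift_isStem σ hσ.1 hσ.2.1 P₀ hP₀ hM
    let θ₁' : Hgrp (std Q₁) →* Γ ⧸ P₀ := (QuotientGroup.mk' P₀).comp θ₁
    let θ₂' : Hgrp (std Q₂) →* Γ ⧸ P₀ := (QuotientGroup.mk' P₀).comp θ₂
    have comm : ∀ x y, Commute (θ₁' x) (θ₂' y) := by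
      intro x y
      obtain ⟨z, hz⟩ := ht (θ₁ x) (θ₂ y) (by rw [e1]) (by rw [e2])
      have h1 : ⁅θ₁ x, θ₂ y⁆ ∈ P₀ := ⟨t z, ⟨z, rfl⟩, hz⟩
      have h2 : ⁅θ₁' x, θ₂' y⁆ = 1 := by
        show ⁅QuotientGroup.mk' P₀ (θ₁ x), QuotientGroup.mk' P₀ (θ₂ y)⁆ = 1
        rw [← map_commutatorElement]
        exact (QuotientGroup.eq_one_iff _).mpr h1
      exact commutatorElement_eq_one_iff_mul_comm.mp h2
    let θ := MonoidHom.noncommCoprod θ₁' θ₂' comm
    let π := (bar (std Q₁)).prodMap (bar (std Q₂))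
    have hθ : (quotLift σ P₀ hP₀).comp θ = π := by
      apply MonoidHom.ext
      rintro ⟨x, y⟩
      show σ (θ₁ x * θ₂ y) = (bar (std Q₁) x, bar (std Q₂) y)
      rw [map_mul, e1, e2]
      simp
    have hπ : Function.Surjective π := by
      rintro ⟨q₁, q₂⟩
      obtain ⟨x, rfl⟩ := bar_surjective _ (std_surjective Q₁) q₁
      obtain ⟨y, rfl⟩ := bar_surjective _ (std_surjective Q₂) q₂
      exact ⟨(x, y), rfl⟩
    have hex := exists_mult_of_mem_ker π hπ (quotLift σ P₀ hP₀) hstem θ hθ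
    letI : CommGroup σ.ker :=
      { (inferInstance : Group σ.ker) with
        mul_comm := fun a c => Subtype.ext ((Subgroup.mem_center_iff.mp (hσ.2.1 c.2)) a) }
    let τ₁ : Mult (bar (std Q₁)) →* σ.ker := (θ₁.comp (Mult (bar (std Q₁))).subtype).codRestrict
      σ.ker (fun z => by
        show σ (θ₁ z.1) = 1
        rw [e1, MonoidHom.mem_ker.mp z.2.1]
        rfl)
    let τ₂ : Mult (bar (std Q₂)) →* σ.ker := (θ₂.comp (Mult (bar (std Q₂))).subtype).codRestrict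
      σ.ker (fun z => by
        show σ (θ₂ z.1) = 1
        rw [e2, MonoidHom.mem_ker.mp z.2.1]
        rfl)
    let Φ : A × B × Multiplicative (TT Q₁ Q₂) →* σ.ker :=
      (τ₁.comp eA.toMonoidHom).coprod ((τ₂.comp eB.toMonoidHom).coprod t)
    refine ⟨Φ, ?_⟩
    rintro ⟨k, hk⟩
    obtain ⟨⟨t₁, t₂⟩, htm, htk⟩ := hex (QuotientGroup.mk k) hk
    rw [mult_prodMap] at htm
    have htk' : (QuotientGroup.mk (θ₁ t₁ * θ₂ t₂) : Γ ⧸ P₀) = QuotientGroup.mk k := htk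
    obtain ⟨_, ⟨z, rfl⟩, hz⟩ := QuotientGroup.eq.mp htk'
    refine ⟨(eA.symm ⟨t₁, htm.1⟩, eB.symm ⟨t₂, htm.2⟩, z), ?_⟩
    apply Subtype.ext
    show ((τ₁ (eA (eA.symm ⟨t₁, htm.1⟩)) : σ.ker) : Γ) *
      (((τ₂ (eB (eB.symm ⟨t₂, htm.2⟩)) : σ.ker) : Γ) * ((t z : σ.ker) : Γ)) = k
    rw [MulEquiv.apply_symm_apply, MulEquiv.apply_symm_apply]
    have hz' : ((t z : σ.ker) : Γ) = (θ₁ t₁ * θ₂ t₂)⁻¹ * k := hz
    rw [hz']
    show θ₁ t₁ * (θ₂ t₂ * ((θ₁ t₁ * θ₂ t₂)⁻¹ * k)) = k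
    group

end Cfsg.Agent.Lib.Helper21.Schur
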