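import Mathlib
import Cfsg.Prelude.Def_Transfer
import Cfsg.Agent.H1.Fit
import Cfsg.Agent.S0144
import Cfsg.Agent.Lib.Helper27.Invol

/-!
# Groups whose element orders are `1, 2, 3` (helper21)
-/

set_option autoImplicit false
set_option linter.style.haveILetI false

namespace Cfsg.Agent.Lib.Helper21

open Subgroup

variable {G : Type*} [Group G]

/-- all element orders are at most three -/
def Ord123 (G : Type*) [Group G] : Prop := ∀ g : G, orderOf g = 1 ∨ orderOf g = 2 ∨ orderOf g = 3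

theorem Ord123.not_commute (ho : Ord123 G) {x y : G} (hx : orderOf x = 2) (hy : orderOf y = 3) :
    ¬ Commute x y := by
  intro h
  have h1 := h.orderOf_mul_eq_mul_orderOf_of_coprime (by rw [hx, hy]; norm_num)
  rw [hx, hy] at h1
  rcases ho (x * y) with h2 | h2 | h2 <;> omega

theorem Ord123.sq_eq_one (ho : Ord123 G) {T : Subgroup G} (hT : IsPGroup 2 T) {x : G} (hx : x ∈ T) :
    x * x = 1 := by
  obtain ⟨k, hk⟩ := hT ⟨x, hx⟩
  have hk' : x ^ 2 ^ k = 1 := by simpa using congrArg Subtype.val hk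
  have h1 := orderOf_dvd_of_pow_eq_one hk'
  rw [← sq]
  rcases ho x with h2 | h2 | h2
  · rw [orderOf_eq_one_iff] at h2; rw [h2]; simp
  · rw [← h2]; exact pow_orderOf_eq_one x
  · exfalso
    rw [h2] at h1
    have := (Nat.Prime.dvd_of_dvd_pow Nat.prime_three h1)
    omega

theorem Ord123.cube_eq_one (ho : Ord123 G) {T : Subgroup G} (hT : IsPGroup 3 T) {x : G}
    (hx : x ∈ T) : x ^ 3 = 1 := by
  obtain ⟨k, hk⟩ := hT ⟨x, hx⟩
  have hk' : x ^ 3 ^ k = 1 := by simpa using congrArg Subtype.val hk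
  have h1 := orderOf_dvd_of_pow_eq_one hk'
  rcases ho x with h2 | h2 | h2
  · rw [orderOf_eq_one_iff] at h2; rw [h2]; simp
  · exfalso
    rw [h2] at h1
    have := (Nat.Prime.dvd_of_dvd_pow Nat.prime_two h1)
    omega
  · rw [← h2]; exact pow_orderOf_eq_one x

theorem Ord123.orderOf_three (ho : Ord123 G) {T : Subgroup G} (hT : IsPGroup 3 T) {x : G}
    (hx : x ∈ T) (hx1 : x ≠ 1) : orderOf x = 3 :=
  orderOf_eq_prime (ho.cube_eq_one hT hx) hx1

theorem Ord123.orderOf_two (ho : Ord123 G) {T : Subgroup G} (hT : IsPGroup 2 T) {x : G}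
    (hx : x ∈ T) (hx1 : x ≠ 1) : orderOf x = 2 :=
  orderOf_eq_prime (by rw [sq]; exact ho.sq_eq_one hT hx) hx1

theorem Ord123.comm_of_two (ho : Ord123 G) {T : Subgroup G} (hT : IsPGroup 2 T) {a b : G}
    (ha : a ∈ T) (hb : b ∈ T) : a * b = b * a := by
  have h1 := ho.sq_eq_one hT ha
  have h2 := ho.sq_eq_one hT hb
  have h3 := ho.sq_eq_one hT (T.mul_mem ha hb)
  calc a * b = a * ((a * b) * (a * b)) * b := by rw [h3, mul_one]
    _ = (a * a) * (b * a) * (b * b) := by group
    _ = b * a := by rw [h1, h2, one_mul, mul_one]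

theorem Ord123.isSolvable [Finite G] (ho : Ord123 G) : Group.IsSolvable G := by
  have hprime : ∀ q : ℕ, q.Prime → q ∣ Nat.card G → q = 2 ∨ q = 3 := by
    intro q hq hdvd
    haveI := Fact.mk hq
    obtain ⟨x, hx⟩ := exists_prime_orderOf_dvd_card' q hdvd
    rcases ho x with h | h | h
    · rw [h] at hx; exact absurd hx.symm hq.one_lt.ne'
    · left; omega
    · right; omega
  set n := Nat.card G with hn
  have hn0 : n ≠ 0 := Nat.card_pos.ne'
  have h1 : n = 2 ^ n.factorization 2 * (n / 2 ^ n.factorization 2) :=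
    (Nat.ordProj_mul_ordCompl_eq_self n 2).symm
  have h2 : n / 2 ^ n.factorization 2 ≠ 0 := (Nat.ordCompl_pos 2 hn0).ne'
  have h3 := Nat.eq_prime_pow_of_unique_prime_dvd (p := 3) h2 (by
    intro d hd hdvd
    rcases hprime d hd (hdvd.trans (Nat.ordCompl_dvd n 2)) with h | h
    · exfalso
      rw [h] at hdvd
      exact Nat.not_dvd_ordCompl Nat.prime_two hn0 hdvd
    · exact h)
  exact Cfsg.Agent.S0144.result 2 3 _ _ Nat.prime_two Nat.prime_three (h1.trans (by rw [← h3]))

/-- Case `O_3(G) ≠ 1`. -/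
theorem Ord123.caseA [Finite G] (ho : Ord123 G) (t : G) (ht : orderOf t = 2)
    (hA : Cfsg.pCore 3 G ≠ ⊥) :
    ∃ N : Subgroup G, N.Normal ∧ Cfsg.IsElementaryAbelian 3 N ∧ N.index = 2 := by
  haveI : Fact (Nat.Prime 3) := ⟨Nat.prime_three⟩
  haveI := ho.isSolvable
  set A := Cfsg.pCore 3 G with hAdef
  have hAn : A.Normal := Cfsg.H1.pCore_normal 3
  have hAp : IsPGroup 3 A := Cfsg.H1.pCore_isPGroup 3
  obtain ⟨y, hyA, hy1⟩ : ∃ y : G, y ∈ A ∧ y ≠ 1 := by
    obtain ⟨y, hy⟩ := Subgroup.ne_bot_iff_exists_ne_one.1 hA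
    exact ⟨y.1, y.2, fun h => hy (Subtype.ext h)⟩
  have hy3 : orderOf y = 3 := ho.orderOf_three hAp hyA hy1
  have hcore : Cfsg.pPrimeCore 3 G = ⊥ := by
    rw [eq_bot_iff]
    apply sSup_le
    rintro M ⟨hMn, hMc⟩
    by_contra hM
    have hMne : M ≠ ⊥ := fun h => hM (h ▸ le_rfl)
    have hcard : Nat.card M ≠ 1 := fun h => hMne ((card_eq_one).1 h)
    obtain ⟨q, hq, hqd⟩ := Nat.exists_prime_and_dvd hcard
    haveI := Fact.mk hq
    obtain ⟨x, hx⟩ := exists_prime_orderOf_dvd_card' q hqd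
    have hx' : orderOf (x : G) = q := by rw [← hx]; exact Subgroup.orderOf_coe x
    have hq3 : q ≠ 3 := by
      rintro rfl
      exact (Nat.Prime.coprime_iff_not_dvd Nat.prime_three).1 hMc.symm hqd
    have hx2 : orderOf (x : G) = 2 := by
      rcases ho (x : G) with h | h | h
      · rw [h] at hx'; exact absurd hx'.symm hq.one_lt.ne'
      · exact h
      · omega
    have hdis : Disjoint M A := by
      apply disjoint_of_coprime_natCard
      obtain ⟨k, hk⟩ := hAp.exists_card_eq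
      rw [hk]
      exact Nat.Coprime.pow_right k hMc
    exact ho.not_commute hx2 hy3 (commute_of_normal_of_disjoint M A hMn hAn hdis x y x.2 hyA)
  have hcent : centralizer (A : Set G) ≤ A := Cfsg.H1.centralizer_pCore_le 3 hcore
  have hinvol : ∀ s : G, orderOf s = 2 → ∀ k ∈ A, s * k * s⁻¹ = k⁻¹ := by
    intro s hs
    apply Cfsg.Agent.Lib.Helper27.inverts_of_fpf A s
    · rw [← sq, ← hs]; exact pow_orderOf_eq_one s
    · rw [normalizer_eq_top]; exact mem_top s
    · intro k hk hc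
      by_contra hk1
      exact ho.not_commute hs (ho.orderOf_three hAp hk hk1) hc
  have hprod : ∀ s s' : G, orderOf s = 2 → orderOf s' = 2 → s * s' ∈ A := by
    intro s s' hs hs'
    apply hcent
    rw [mem_centralizer_iff]
    intro k hk
    have h1 := hinvol s' hs' k hk
    have h2 := hinvol s hs k⁻¹ (A.inv_mem hk)
    rw [inv_inv] at h2
    calc k * (s * s') = (s * (s' * k * s'⁻¹) * s⁻¹) * (s * s') := by rw [h1, h2]
      _ = s * s' * k := by group
  have htA : t ∉ A := by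
    intro h
    have h1 := ho.cube_eq_one hAp h
    have h2 := orderOf_dvd_of_pow_eq_one h1
    rw [ht] at h2
    omega
  have htt : t * t = 1 := by rw [← sq, ← ht]; exact pow_orderOf_eq_one t
  have hthree : ∀ g : G, orderOf g = 3 → g ∈ A := by
    intro g hg
    have hs : orderOf (g * t * g⁻¹) = 2 := by
      rw [← ht]
      exact orderOf_injective (MulAut.conj g).toMonoidHom (MulAut.conj g).injective t
    have h1 := hprod _ _ hs ht
    rcases ho (g * t) with h | h | h
    · exfalso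
      rw [orderOf_eq_one_iff] at h
      have : g = t⁻¹ := eq_inv_of_mul_eq_one_left h
      rw [this, orderOf_inv, ht] at hg
      omega
    · have := hprod _ _ h ht
      rwa [mul_assoc, htt, mul_one] at this
    · exfalso
      apply htA
      rw [← QuotientGroup.eq_one_iff]
      have e1 : ((g : G) : G ⧸ A) * (t : G ⧸ A) * ((g : G) : G ⧸ A)⁻¹ * (t : G ⧸ A) = 1 := by
        rw [← QuotientGroup.mk_inv, ← QuotientGroup.mk_mul, ← QuotientGroup.mk_mul,
          ← QuotientGroup.mk_mul]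
        exact (QuotientGroup.eq_one_iff _).2 h1
      have e2 : (t : G ⧸ A) * (t : G ⧸ A) = 1 := by
        rw [← QuotientGroup.mk_mul, htt]; rfl
      have e3 : Commute ((g : G) : G ⧸ A) (t : G ⧸ A) := by
        show ((g : G) : G ⧸ A) * (t : G ⧸ A) = (t : G ⧸ A) * ((g : G) : G ⧸ A)
        calc ((g : G) : G ⧸ A) * (t : G ⧸ A)
            = (((g : G) : G ⧸ A) * (t : G ⧸ A) * ((g : G) : G ⧸ A)⁻¹ * (t : G ⧸ A)) *
              ((t : G ⧸ A)⁻¹ * ((g : G) : G ⧸ A)) := by group
          _ = (t : G ⧸ A)⁻¹ * ((g : G) : G ⧸ A) := by rw [e1, one_mul]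
          _ = (t : G ⧸ A) * ((g : G) : G ⧸ A) := by
              rw [inv_eq_of_mul_eq_one_left e2]
      have e4 : (((g : G) : G ⧸ A) * (t : G ⧸ A)) ^ 3 = 1 := by
        rw [← QuotientGroup.mk_mul, ← QuotientGroup.mk_pow, ← h, pow_orderOf_eq_one]; rfl
      have e6 : ((g : G) : G ⧸ A) ^ 3 = 1 := by
        rw [← QuotientGroup.mk_pow, ← hg, pow_orderOf_eq_one]; rfl
      have e5 : (t : G ⧸ A) ^ 3 = (t : G ⧸ A) := by
        rw [pow_succ, sq, e2, one_mul]
      rw [e3.mul_pow, e6, e5, one_mul] at e4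
      exact e4
  refine ⟨A, hAn, ⟨⟨⟨?_⟩⟩, fun a ha => ho.cube_eq_one hAp ha⟩, ?_⟩
  · rintro ⟨a, ha⟩ ⟨b, hb⟩
    apply Subtype.ext
    show a * b = b * a
    have h1 := hinvol t ht a ha
    have h2 := hinvol t ht b hb
    have h3 := hinvol t ht (a * b) (A.mul_mem ha hb)
    have h4 : t * (a * b) * t⁻¹ = (t * a * t⁻¹) * (t * b * t⁻¹) := by group
    rw [h4, h1, h2] at h3
    have h5 : (a⁻¹ * b⁻¹)⁻¹ = ((a * b)⁻¹)⁻¹ := by rw [h3]
    simpa using h5.symm
  · rw [index_eq_two_iff]
    refine ⟨t, fun b => ?_⟩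
    by_cases hb : b ∈ A
    · right
      refine ⟨hb, fun h => htA ?_⟩
      have := A.mul_mem (A.inv_mem hb) h
      simpa using this
    · left
      refine ⟨?_, hb⟩
      rcases ho b with h | h | h
      · exfalso; rw [orderOf_eq_one_iff] at h; exact hb (h ▸ A.one_mem)
      · exact hprod b t h ht
      · exact absurd (hthree b h) hb

theorem Ord123.norm_eq_one (ho : Ord123 G) {V : Subgroup G} (hVn : V.Normal) (hV : IsPGroup 2 V)
    {g : G} (hg : orderOf g = 3) {v : G} (hv : v ∈ V) :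
    v * MulAut.conj g v * MulAut.conj (g ^ 2) v = 1 := by
  have hg3 : g ^ 3 = 1 := by rw [← hg]; exact pow_orderOf_eq_one g
  set n := v * MulAut.conj g v * MulAut.conj (g ^ 2) v with hn
  have h1 : MulAut.conj g v ∈ V := hVn.conj_mem v hv g
  have h2 : MulAut.conj (g ^ 2) v ∈ V := hVn.conj_mem v hv (g ^ 2)
  have hnV : n ∈ V := V.mul_mem (V.mul_mem hv h1) h2
  have hconj : MulAut.conj g n = n := by
    rw [hn, map_mul, map_mul]
    have e1 : MulAut.conj g (MulAut.conj g v) = MulAut.conj (g ^ 2) v := by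
      rw [sq, map_mul]; rfl
    have e2 : MulAut.conj g (MulAut.conj (g ^ 2) v) = v := by
      have : MulAut.conj g (MulAut.conj (g ^ 2) v) = MulAut.conj (g * g ^ 2) v := by
        rw [map_mul]; rfl
      rw [this, ← pow_succ', hg3, map_one]; rfl
    rw [e1, e2, ho.comm_of_two hV (V.mul_mem h1 h2) hv, mul_assoc]
  by_contra hne
  have hcomm : Commute n g := by
    show n * g = g * n
    have : g * n * g⁻¹ = n := hconj
    calc n * g = (g * n * g⁻¹) * g := by rw [this]
      _ = g * n := by group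
  exact ho.not_commute (ho.orderOf_two hV hnV hne) hg hcomm

theorem Ord123.no_nine (ho : Ord123 G) {V : Subgroup G} (hVn : V.Normal) (hV : IsPGroup 2 V)
    (hVne : V ≠ ⊥) (Q : Subgroup G) (hQ : Nat.card Q = 3 ^ 2) : False := by
  haveI : Fact (Nat.Prime 3) := ⟨Nat.prime_three⟩
  have hQp : IsPGroup 3 Q := IsPGroup.of_card hQ
  haveI : Finite Q := Nat.finite_of_card_ne_zero (by rw [hQ]; norm_num)
  have hQc := IsPGroup.commutative_of_card_eq_prime_sq hQ
  -- `z`
  haveI : Nontrivial Q := Finite.one_lt_card_iff_nontrivial.1 (by rw [hQ]; norm_num)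
  obtain ⟨z', hz'⟩ := exists_ne (1 : Q)
  set z : G := z'.1 with hz
  have hzQ : z ∈ Q := z'.2
  have hz1 : z ≠ 1 := fun h => hz' (Subtype.ext h)
  have hz3 : orderOf z = 3 := ho.orderOf_three hQp hzQ hz1
  -- `c`
  obtain ⟨c, hcQ, hcz⟩ : ∃ c : G, c ∈ Q ∧ c ∉ zpowers z := by
    by_contra hcon
    push Not at hcon
    have hle : Q ≤ zpowers z := fun x hx => hcon x hx
    have := Nat.le_of_dvd (by rw [Nat.card_zpowers, hz3]; norm_num) (card_dvd_of_le hle)
    rw [hQ, Nat.card_zpowers, hz3] at this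
    omega
  have hzc : Commute z c := congrArg Subtype.val (hQc ⟨z, hzQ⟩ ⟨c, hcQ⟩)
  have hc3 : orderOf c = 3 := ho.orderOf_three hQp hcQ (fun h => hcz (h ▸ one_mem _))
  have hzc3 : orderOf (z * c) = 3 := by
    apply ho.orderOf_three hQp (Q.mul_mem hzQ hcQ)
    intro h
    apply hcz
    rw [eq_inv_of_mul_eq_one_right h]
    exact inv_mem (mem_zpowers z)
  have hzzc3 : orderOf (z ^ 2 * c) = 3 := by
    apply ho.orderOf_three hQp (Q.mul_mem (Q.pow_mem hzQ 2) hcQ)
    intro h
    apply hcz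
    rw [eq_inv_of_mul_eq_one_right h]
    exact inv_mem (pow_mem (mem_zpowers z) 2)
  have hzp : z ^ 3 = 1 := by rw [← hz3]; exact pow_orderOf_eq_one z
  obtain ⟨v', hv'⟩ := Subgroup.ne_bot_iff_exists_ne_one.1 hVne
  apply hv'
  set v : G := v'.1 with hv
  have hvV : v ∈ V := v'.2
  letI : CommGroup V :=
    { (inferInstance : Group V) with
      mul_comm := fun a b => Subtype.ext (ho.comm_of_two hV a.2 b.2) }
  let X : G → V := fun g => ⟨MulAut.conj g v, hVn.conj_mem v hvV g⟩
  have E1 : v' * X c * X (c ^ 2) = 1 := Subtype.ext (ho.norm_eq_one hVn hV hc3 hvV)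
  have E2 : v' * X (z * c) * X (z ^ 2 * c ^ 2) = 1 := by
    have := ho.norm_eq_one hVn hV hzc3 hvV
    rw [hzc.mul_pow] at this
    exact Subtype.ext this
  have E3 : v' * X (z ^ 2 * c) * X (z * c ^ 2) = 1 := by
    have := ho.norm_eq_one hVn hV hzzc3 hvV
    rw [(hzc.pow_left 2).mul_pow, ← pow_mul] at this
    have e : z ^ (2 * 2) = z := by
      calc z ^ (2 * 2) = z ^ 3 * z := by rw [← pow_succ]
        _ = z := by rw [hzp, one_mul]
    rw [e] at this
    exact Subtype.ext this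
  have E4 : X c * X (z * c) * X (z ^ 2 * c) = 1 := by
    have := ho.norm_eq_one hVn hV hz3 (X c).2
    apply Subtype.ext
    show MulAut.conj c v * MulAut.conj (z * c) v * MulAut.conj (z ^ 2 * c) v = 1
    rw [map_mul, map_mul]
    exact this
  have E5 : X (c ^ 2) * X (z * c ^ 2) * X (z ^ 2 * c ^ 2) = 1 := by
    have := ho.norm_eq_one hVn hV hz3 (X (c ^ 2)).2
    apply Subtype.ext
    show MulAut.conj (c ^ 2) v * MulAut.conj (z * c ^ 2) v * MulAut.conj (z ^ 2 * c ^ 2) v = 1
    rw [map_mul, map_mul (MulAut.conj) (z ^ 2)]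
    exact this
  have hcube : v' * v' * v' = 1 := by
    calc v' * v' * v' = (v' * v' * v') * (X c * X (z * c) * X (z ^ 2 * c)) *
          (X (c ^ 2) * X (z * c ^ 2) * X (z ^ 2 * c ^ 2)) := by rw [E4, E5, mul_one, mul_one]
      _ = (v' * X c * X (c ^ 2)) * (v' * X (z * c) * X (z ^ 2 * c ^ 2)) *
          (v' * X (z ^ 2 * c) * X (z * c ^ 2)) := by ac_rfl
      _ = 1 := by rw [E1, E2, E3, mul_one, mul_one]
  have hsq : v' * v' = 1 := Subtype.ext (ho.sq_eq_one hV hvV)
  rw [hsq, one_mul] at hcube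
  exact hcube

/-- Case `O_3(G) = 1`. -/
theorem Ord123.caseB [Finite G] (ho : Ord123 G) (t c : G) (ht : orderOf t = 2)
    (hc : orderOf c = 3) (hA : Cfsg.pCore 3 G = ⊥) :
    ∃ N : Subgroup G, N.Normal ∧ Cfsg.IsElementaryAbelian 2 N ∧ N.index = 3 := by
  haveI : Fact (Nat.Prime 3) := ⟨Nat.prime_three⟩
  haveI : Fact (Nat.Prime 2) := ⟨Nat.prime_two⟩
  haveI := ho.isSolvable
  set V := Cfsg.pCore 2 G with hVdef
  have hVn : V.Normal := Cfsg.H1.pCore_normal 2
  have hVp : IsPGroup 2 V := Cfsg.H1.pCore_isPGroup 2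
  have hcore : Cfsg.pPrimeCore 2 G = ⊥ := by
    rw [eq_bot_iff]
    apply sSup_le
    rintro M ⟨hMn, hMc⟩
    rw [← hA]
    apply Cfsg.H1.le_pCore hMn
    intro x
    refine ⟨1, ?_⟩
    apply Subtype.ext
    show (x : G) ^ 3 ^ 1 = 1
    rw [pow_one]
    rcases ho (x : G) with h | h | h
    · rw [orderOf_eq_one_iff] at h; rw [h]; simp
    · exfalso
      have h1 : orderOf x ∣ Nat.card M := orderOf_dvd_natCard x
      rw [← Subgroup.orderOf_coe, h] at h1
      exact (Nat.Prime.coprime_iff_not_dvd Nat.prime_two).1 hMc.symm h1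
    · rw [← h]; exact pow_orderOf_eq_one _
  have hcent : centralizer (V : Set G) ≤ V := Cfsg.H1.centralizer_pCore_le 2 hcore
  -- `V` is a Sylow subgroup
  obtain ⟨T⟩ : Nonempty (Sylow 2 G) := inferInstance
  have hVT : V ≤ T := hVp.le_sylow_of_normal T
  have hTV : (T : Subgroup G) ≤ V := by
    intro x hx
    apply hcent
    rw [mem_centralizer_iff]
    intro w hw
    exact ho.comm_of_two T.2 (hVT hw) hx
  have hVeq : V = T := le_antisymm hVT hTV
  have hVne : V ≠ ⊥ := by
    intro h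
    have h1 : 2 ∣ Nat.card G := ht ▸ orderOf_dvd_natCard t
    have h2 := T.card_eq_multiplicity
    rw [← hVeq, h, card_bot] at h2
    have h3 : (Nat.card G).factorization 2 = 0 := by
      by_contra h4
      have : 1 < 2 ^ (Nat.card G).factorization 2 := Nat.one_lt_pow h4 (by norm_num)
      omega
    have h5 := (Nat.Prime.dvd_iff_one_le_factorization Nat.prime_two Nat.card_pos.ne').1 h1
    omega
  refine ⟨V, hVn, ⟨⟨⟨fun a b => Subtype.ext (ho.comm_of_two hVp a.2 b.2)⟩⟩,
    fun a ha => by rw [sq]; exact ho.sq_eq_one hVp ha⟩, ?_⟩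
  -- the index
  have hidx0 : V.index ≠ 0 := index_ne_zero_of_finite
  have hpow := Nat.eq_prime_pow_of_unique_prime_dvd (p := 3) hidx0 (by
    intro d hd hdvd
    haveI := Fact.mk hd
    obtain ⟨x, hx⟩ := exists_prime_orderOf_dvd_card' d (hdvd.trans (index_dvd_card V))
    rcases ho x with h | h | h
    · rw [h] at hx; exact absurd hx.symm hd.one_lt.ne'
    · exfalso
      have : d = 2 := by omega
      rw [this, hVeq] at hdvd
      exact T.not_dvd_index hdvd
    · omega)
  set k := V.index.primeFactorsList.length with hk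
  rw [hpow]
  have hk2 : k < 2 := by
    by_contra hcon
    have h1 : 3 ^ 2 ∣ Nat.card G :=
      (pow_dvd_pow 3 (not_lt.1 hcon)).trans (hpow ▸ index_dvd_card V)
    obtain ⟨Q, hQ⟩ := Sylow.exists_subgroup_card_pow_prime 3 h1
    exact ho.no_nine hVn hVp hVne Q hQ
  have hk0 : k ≠ 0 := by
    intro h0
    rw [h0, pow_zero, index_eq_one] at hpow
    have h1 : c ∈ V := hpow ▸ mem_top c
    have h2 := ho.sq_eq_one hVp h1
    have h3 := orderOf_dvd_of_pow_eq_one (by rw [sq]; exact h2 : c ^ 2 = 1)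
    rw [hc] at h3
    omega
  have : k = 1 := by omega
  rw [this, pow_one]

end Cfsg.Agent.Lib.Helper21
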