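import Mathlib
import Cfsg.Prelude.Def_KGroupFacts

set_option autoImplicit false

namespace Cfsg.Agent.Lib.Helper21

open scoped commutatorElement

/-- If `σ` has central kernel and `S` maps onto a generating set, then `S` and the kernel generate. -/
theorem closure_union_ker_eq_top {Γ Q : Type*} [Group Γ] [Group Q] (σ : Γ →* Q)
    (S : Set Γ) (hS : Subgroup.closure (σ '' S) = ⊤) :
    Subgroup.closure (S ∪ (σ.ker : Set Γ)) = ⊤ := by
  rw [eq_top_iff]
  intro g _
  have hg : σ g ∈ Subgroup.closure (σ '' S) := by rw [hS]; exact Subgroup.mem_top _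
  rw [← MonoidHom.map_closure] at hg
  obtain ⟨h, hh, hhg⟩ := hg
  have h1 : h ∈ Subgroup.closure (S ∪ (σ.ker : Set Γ)) :=
    Subgroup.closure_mono Set.subset_union_left hh
  have h2 : h⁻¹ * g ∈ Subgroup.closure (S ∪ (σ.ker : Set Γ)) := by
    apply Subgroup.subset_closure
    right
    rw [SetLike.mem_coe, MonoidHom.mem_ker, map_mul, map_inv, hhg, inv_mul_cancel]
  have := Subgroup.mul_mem _ h1 h2
  simpa using this

/-- Commutator subgroup of a central extension is contained in any normal subgroup containing the commutators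
of lifts of generators. -/
theorem commutator_le_of_generators {Γ Q : Type*} [Group Γ] [Group Q] (σ : Γ →* Q)
    (hc : σ.ker ≤ Subgroup.center Γ) (S : Set Γ) (hS : Subgroup.closure (σ '' S) = ⊤)
    (N : Subgroup Γ) [N.Normal] (hN : ∀ s ∈ S, ∀ t ∈ S, ⁅s, t⁆ ∈ N) : commutator Γ ≤ N := by
  have hT := closure_union_ker_eq_top σ S hS
  set T : Set Γ := S ∪ (σ.ker : Set Γ) with hTdef
  let π := QuotientGroup.mk' N
  have hπT : Subgroup.closure (π '' T) = ⊤ := by
    rw [← MonoidHom.map_closure, hT, ← MonoidHom.range_eq_map, MonoidHom.range_eq_top]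
    exact QuotientGroup.mk'_surjective N
  have hcomm : ∀ x ∈ π '' T, ∀ y ∈ π '' T, x * y = y * x := by
    rintro _ ⟨s, hs, rfl⟩ _ ⟨t, ht, rfl⟩
    rcases hs with hs | hs
    · rcases ht with ht | ht
      · have := hN s hs t ht
        rw [← QuotientGroup.eq_one_iff] at this
        have h2 : ⁅π s, π t⁆ = 1 := by rw [← map_commutatorElement]; exact this
        exact commutatorElement_eq_one_iff_mul_comm.mp h2
      · rw [← map_mul, ← map_mul, Subgroup.mem_center_iff.mp (hc ht) s]
    · rw [← map_mul, ← map_mul, Subgroup.mem_center_iff.mp (hc hs) t]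
  have hcl := Subgroup.isMulCommutative_closure hcomm
  rw [commutator_def, Subgroup.commutator_le]
  intro g₁ _ g₂ _
  rw [← QuotientGroup.eq_one_iff]
  change π ⁅g₁, g₂⁆ = 1
  rw [map_commutatorElement, commutatorElement_eq_one_iff_mul_comm]
  have m1 : π g₁ ∈ Subgroup.closure (π '' T) := by rw [hπT]; exact Subgroup.mem_top _
  have m2 : π g₂ ∈ Subgroup.closure (π '' T) := by rw [hπT]; exact Subgroup.mem_top _
  exact Subgroup.mul_comm_of_mem_isMulCommutative (H := Subgroup.closure (π '' T)) m1 m2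

/-- A subgroup is normal if it is normalized by lifts of generators (central kernel). -/
theorem normal_of_generators {Γ Q : Type*} [Group Γ] [Group Q] (σ : Γ →* Q)
    (hc : σ.ker ≤ Subgroup.center Γ) (S : Set Γ) (hS : Subgroup.closure (σ '' S) = ⊤)
    (N : Subgroup Γ) (hN : ∀ s ∈ S, s ∈ Subgroup.normalizer (N : Set Γ)) : N.Normal := by
  rw [← Subgroup.normalizer_eq_top_iff, eq_top_iff, ← closure_union_ker_eq_top σ S hS, Subgroup.closure_le]
  rintro s (hs | hs)
  · exact hN s hs
  · have : s ∈ Subgroup.center Γ := hc hs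
    rw [SetLike.mem_coe, Subgroup.mem_normalizer_iff]
    intro h
    rw [← Subgroup.mem_center_iff.mp this h, mul_inv_cancel_right]

/-- A subgroup of a cyclic group `⟨t⟩` with `t ^ n = 1` is an image of `ZMod n`. -/
theorem exists_surjective_of_le_zpowers {Γ : Type*} [Group Γ] (K : Subgroup Γ) (t : Γ) (n : ℕ) [NeZero n]
    (ht : t ^ n = 1) (hK : K ≤ Subgroup.zpowers t) :
    ∃ π : Multiplicative (ZMod n) →* K, Function.Surjective π := by
  have hcyc : IsCyclic K := Subgroup.isCyclic_of_le hK
  have hd : Nat.card K ∣ n := by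
    have h1 : Nat.card K ∣ Nat.card (Subgroup.zpowers t) := Subgroup.card_dvd_of_le hK
    rw [Nat.card_zpowers] at h1
    exact h1.trans (orderOf_dvd_of_pow_eq_one ht)
  refine ⟨(zmodCyclicMulEquiv hcyc).toMonoidHom.comp
    (AddMonoidHom.toMultiplicative (ZMod.castHom hd (ZMod (Nat.card K))).toAddMonoidHom), ?_⟩
  intro x
  obtain ⟨y, hy⟩ := (zmodCyclicMulEquiv hcyc).surjective x
  obtain ⟨z, hz⟩ := ZMod.castHom_surjective hd (Multiplicative.toAdd y)
  refine ⟨Multiplicative.ofAdd z, ?_⟩
  rw [← hy]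
  change (zmodCyclicMulEquiv hcyc) (Multiplicative.ofAdd ((ZMod.castHom hd (ZMod (Nat.card K))) z)) = _
  rw [hz]
  rfl

end Cfsg.Agent.Lib.Helper21
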