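import Mathlib
import Cfsg.Agent.Lib.Helper21.Stem

set_option autoImplicit false

namespace Cfsg.Agent.Lib.Helper21

open scoped commutatorElement

/-- The kernel of a stem extension of a two-generator abelian group is cyclic, generated by a commutator. -/
theorem abelian_two_gen_ker {Γ Q : Type*} [Group Γ] [CommGroup Q] (σ : Γ →* Q)
    (hσ : Cfsg.IsStemExtension σ) (A B : Γ) (hgen : Subgroup.closure ({σ A, σ B} : Set Q) = ⊤)
    (n : ℕ) (hB : (σ B) ^ n = 1) : ∃ c : Γ, c ^ n = 1 ∧ σ.ker ≤ Subgroup.zpowers c := by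
  obtain ⟨_, hc, hd⟩ := hσ
  have hS : Subgroup.closure (σ '' ({A, B} : Set Γ)) = ⊤ := by
    rw [Set.image_pair]; exact hgen
  set c : Γ := A * B * A⁻¹ * B⁻¹ with hcdef
  have hcker : c ∈ σ.ker := by
    rw [MonoidHom.mem_ker, hcdef]
    simp only [map_mul, map_inv]
    rw [mul_comm (σ A) (σ B)]
    simp
  have hcc : c ∈ Subgroup.center Γ := hc hcker
  have hnorm : (Subgroup.zpowers c).Normal := by
    constructor
    intro x hx g
    have hx' : x ∈ Subgroup.center Γ := (Subgroup.zpowers_le.mpr hcc) hx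
    rw [Subgroup.mem_center_iff.mp hx' g, mul_inv_cancel_right]
    exact hx
  refine ⟨c, ?_, ?_⟩
  · have h1 : A * B * A⁻¹ = c * B := by rw [hcdef]; group
    have h2 : A * B ^ n * A⁻¹ = c ^ n * B ^ n := by
      rw [← conj_pow, h1, Commute.mul_pow]
      exact (Subgroup.mem_center_iff.mp hcc B).symm
    have h3 : B ^ n ∈ Subgroup.center Γ := by
      apply hc
      rw [MonoidHom.mem_ker, map_pow, hB]
    rw [Subgroup.mem_center_iff.mp h3 A, mul_inv_cancel_right] at h2
    exact (mul_eq_right.mp h2.symm)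
  · refine hd.trans ?_
    apply commutator_le_of_generators σ hc {A, B} hS
    rintro s (rfl | rfl) t (rfl | rfl)
    · simp
    · exact Subgroup.mem_zpowers _
    · have : ⁅s, t⁆ = (t * s * t⁻¹ * s⁻¹)⁻¹ := by rw [commutatorElement_def]; group
      rw [this]
      exact Subgroup.inv_mem _ (Subgroup.mem_zpowers _)
    · simp

end Cfsg.Agent.Lib.Helper21
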