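import Mathlib
import Cfsg.Agent.Lib.Helper21.Stem

set_option autoImplicit false

namespace Cfsg.Agent.Lib.Helper21

open scoped commutatorElement

section
variable {Γ Q : Type*} [Group Γ] [Group Q] (σ : Γ →* Q) (hc : σ.ker ≤ Subgroup.center Γ) (A X : Γ)
  (hinv : σ X * σ A * (σ X)⁻¹ = (σ A)⁻¹)

include hc hinv

theorem inv_AB_central : A * (X * A * X⁻¹) ∈ Subgroup.center Γ := by
  apply hc
  rw [MonoidHom.mem_ker]
  simp only [map_mul, map_inv]
  rw [hinv, mul_inv_cancel]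

theorem inv_commute_AB : Commute A (X * A * X⁻¹) := by
  have hz := inv_AB_central σ hc A X hinv
  have h1 := Subgroup.mem_center_iff.mp hz A
  -- A * (A * B) = (A * B) * A
  have h2 : A * (A * (X * A * X⁻¹)) = A * ((X * A * X⁻¹) * A) := by
    rw [h1]; group
  exact mul_left_cancel h2

theorem inv_XB : X * (X * A * X⁻¹) * X⁻¹ = A := by
  have hz := inv_AB_central σ hc A X hinv
  have hAB := inv_commute_AB σ hc A X hinv
  have h1 := Subgroup.mem_center_iff.mp hz X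
  -- X * (A * B) = (A*B) * X
  have h2 : (X * (X * A * X⁻¹) * X⁻¹) * (X * A * X⁻¹) = A * (X * A * X⁻¹) := by
    have : (X * (X * A * X⁻¹) * X⁻¹) * (X * A * X⁻¹) = (X * ((X * A * X⁻¹) * A)) * X⁻¹ := by group
    rw [this, ← hAB.eq, h1]
    group
  exact mul_right_cancel h2

theorem inv_conj_c : X * (X * A * X⁻¹ * A⁻¹) * X⁻¹ = (X * A * X⁻¹ * A⁻¹)⁻¹ := by
  have h := inv_XB σ hc A X hinv
  have : X * (X * A * X⁻¹ * A⁻¹) * X⁻¹ = (X * (X * A * X⁻¹) * X⁻¹) * (X * A * X⁻¹)⁻¹ := by group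
  rw [this, h]
  group

theorem inv_commute_A_c : Commute A (X * A * X⁻¹ * A⁻¹) :=
  (inv_commute_AB σ hc A X hinv).mul_right (Commute.refl A).inv_right

theorem inv_c_pow (n : ℕ) (hn : Commute X (A ^ n)) : (X * A * X⁻¹ * A⁻¹) ^ n = 1 := by
  have hAB := inv_commute_AB σ hc A X hinv
  have h1 : (X * A * X⁻¹) ^ n = A ^ n := by
    rw [conj_pow, hn.eq, mul_inv_cancel_right]
  rw [(hAB.symm.inv_right).mul_pow, h1, inv_pow, mul_inv_cancel]

theorem inv_commutator_le (hgen : Subgroup.closure ({σ A, σ X} : Set Q) = ⊤) :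
    commutator Γ ≤ Subgroup.zpowers (X * A * X⁻¹ * A⁻¹) := by
  have hS : Subgroup.closure (σ '' ({A, X} : Set Γ)) = ⊤ := by
    rw [Set.image_pair]; exact hgen
  have hnorm : (Subgroup.zpowers (X * A * X⁻¹ * A⁻¹)).Normal := by
    apply normal_of_generators σ hc {A, X} hS
    rintro s (rfl | rfl)
    · rw [Subgroup.mem_normalizer_iff_map_conj_eq, MonoidHom.map_zpowers]
      congr 1
      have := inv_commute_A_c σ hc s X hinv
      change s * (X * s * X⁻¹ * s⁻¹) * s⁻¹ = _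
      rw [this.eq, mul_inv_cancel_right]
    · rw [Subgroup.mem_normalizer_iff_map_conj_eq, MonoidHom.map_zpowers]
      change Subgroup.zpowers (s * (s * A * s⁻¹ * A⁻¹) * s⁻¹) = _
      rw [inv_conj_c σ hc A s hinv, Subgroup.zpowers_inv]
  apply commutator_le_of_generators σ hc {A, X} hS
  rintro s (rfl | rfl) t (rfl | rfl)
  · simp
  · have : ⁅s, t⁆ = (t * s * t⁻¹ * s⁻¹)⁻¹ := by rw [commutatorElement_def]; group
    rw [this]
    exact Subgroup.inv_mem _ (Subgroup.mem_zpowers _)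
  · exact Subgroup.mem_zpowers _
  · simp

theorem inv_ker_elt [Finite Γ] (hgen : Subgroup.closure ({σ A, σ X} : Set Q) = ⊤)
    (hd : σ.ker ≤ commutator Γ) (w : Γ) (hw : w ∈ σ.ker) :
    ∃ k : ℕ, w = (X * A * X⁻¹ * A⁻¹) ^ k ∧ orderOf (σ A) ∣ 2 * k := by
  have h1 := inv_commutator_le σ hc A X hinv hgen (hd hw)
  rw [← mem_powers_iff_mem_zpowers, Submonoid.mem_powers_iff] at h1
  obtain ⟨k, hk⟩ := h1
  refine ⟨k, hk.symm, ?_⟩
  apply orderOf_dvd_of_pow_eq_one
  rw [MonoidHom.mem_ker, ← hk, map_pow] at hw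
  simp only [map_mul, map_inv] at hw
  rw [hinv, ← mul_inv_rev, inv_pow, inv_eq_one, ← sq, ← pow_mul] at hw
  exact hw

end

end Cfsg.Agent.Lib.Helper21
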