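import Mathlib
import Cfsg.Agent.Lib.Helper21.StemInv

set_option autoImplicit false

namespace Cfsg.Agent.Lib.Helper21

open DihedralGroup in
theorem dihedral_closure_gen (n : ℕ) [NeZero n] :
    Subgroup.closure ({r 1, sr 0} : Set (DihedralGroup n)) = ⊤ := by
  rw [eq_top_iff]
  have ha : ∀ i : ZMod n, r i ∈ Subgroup.closure ({r 1, sr 0} : Set (DihedralGroup n)) := by
    intro i
    have : (r 1 : DihedralGroup n) ^ i.val = r i := by
      rw [r_one_pow, ZMod.natCast_zmod_val]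
    rw [← this]
    exact Subgroup.pow_mem _ (Subgroup.subset_closure (by simp)) _
  rintro (i | i) _
  · exact ha i
  · have : (sr i : DihedralGroup n) = sr 0 * r i := by rw [sr_mul_r, zero_add]
    rw [this]
    exact Subgroup.mul_mem _ (Subgroup.subset_closure (by simp)) (ha i)

/-- Kernel elements of a stem extension of a dihedral group. -/
theorem dihedral_stem_ker (n : ℕ) [NeZero n] {Γ : Type*} [Group Γ] [Finite Γ] (σ : Γ →* DihedralGroup n)
    (hσ : Cfsg.IsStemExtension σ) :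
    ∃ c : Γ, c ^ n = 1 ∧ ∀ w ∈ σ.ker, ∃ k : ℕ, w = c ^ k ∧ n ∣ 2 * k := by
  obtain ⟨hs, hc, hd⟩ := hσ
  obtain ⟨A, hA⟩ := hs (DihedralGroup.r 1)
  obtain ⟨X, hX⟩ := hs (DihedralGroup.sr 0)
  have hinv : σ X * σ A * (σ X)⁻¹ = (σ A)⁻¹ := by
    rw [hA, hX]
    simp
  have hgen : Subgroup.closure ({σ A, σ X} : Set (DihedralGroup n)) = ⊤ := by
    rw [hA, hX]; exact dihedral_closure_gen n
  have hw0 : A ^ n ∈ Subgroup.center Γ := by
    apply hc
    rw [MonoidHom.mem_ker, map_pow, hA, DihedralGroup.r_one_pow_n]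
  have hcomm : Commute X (A ^ n) := Subgroup.mem_center_iff.mp hw0 X
  refine ⟨X * A * X⁻¹ * A⁻¹, inv_c_pow σ hc A X hinv n hcomm, ?_⟩
  intro w hw
  obtain ⟨k, hk, hdvd⟩ := inv_ker_elt σ hc A X hinv hgen hd w hw
  rw [hA, DihedralGroup.orderOf_r_one] at hdvd
  exact ⟨k, hk, hdvd⟩

end Cfsg.Agent.Lib.Helper21
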