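import Mathlib

/-! Counting the non-identity elements conjugate into a TI subgroup. -/

set_option autoImplicit false

namespace Cfsg.Agent.Lib.Helper21

theorem card_conj_TI {G : Type*} [Group G] [Finite G] (H : Subgroup G)
    (hTI : ∀ g : G, g ∉ Subgroup.normalizer (H : Set G) → ∀ x ∈ H, g * x * g⁻¹ ∈ H → x = 1) :
    Nat.card {x : G // x ≠ 1 ∧ ∃ k : G, k * x * k⁻¹ ∈ H} =
      (Subgroup.normalizer (H : Set G)).index * (Nat.card H - 1) := by
  classical
  set N := Subgroup.normalizer (H : Set G) with hN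
  have h1 : Nat.card {a : ↥H // a ≠ 1} = Nat.card H - 1 := by
    haveI : Fintype ↥H := Fintype.ofFinite _
    rw [Nat.card_eq_fintype_card, Fintype.card_subtype_compl, Fintype.card_subtype_eq,
      ← Nat.card_eq_fintype_card]
  have h2 : N.index = Nat.card (G ⧸ N) := rfl
  rw [h2, ← h1, ← Nat.card_prod]
  symm
  apply Nat.card_congr
  refine Equiv.ofBijective (fun qa : (G ⧸ N) × {a : ↥H // a ≠ 1} =>
    (⟨qa.1.out * (qa.2.1 : G) * qa.1.out⁻¹, by
      refine ⟨?_, qa.1.out⁻¹, ?_⟩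
      · intro h
        apply qa.2.2
        apply Subtype.ext
        have : (qa.2.1 : G) = qa.1.out⁻¹ * (qa.1.out * (qa.2.1 : G) * qa.1.out⁻¹) * qa.1.out := by
          group
        rw [this, h]; simp
      · have : qa.1.out⁻¹ * (qa.1.out * (qa.2.1 : G) * qa.1.out⁻¹) * qa.1.out⁻¹⁻¹ = (qa.2.1 : G) := by
          group
        rw [this]; exact qa.2.1.2⟩ : {x : G // x ≠ 1 ∧ ∃ k : G, k * x * k⁻¹ ∈ H})) ⟨?_, ?_⟩
  · rintro ⟨q, ⟨a, ha⟩⟩ ⟨q', ⟨a', ha'⟩⟩ hqa
    have h3 : q.out * (a : G) * q.out⁻¹ = q'.out * (a' : G) * q'.out⁻¹ := congrArg Subtype.val hqa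
    have h4 : (q'.out⁻¹ * q.out) * (a : G) * (q'.out⁻¹ * q.out)⁻¹ = (a' : G) := by
      calc (q'.out⁻¹ * q.out) * (a : G) * (q'.out⁻¹ * q.out)⁻¹
          = q'.out⁻¹ * (q.out * (a : G) * q.out⁻¹) * q'.out := by group
        _ = (a' : G) := by rw [h3]; group
    have h5 : q'.out⁻¹ * q.out ∈ N := by
      by_contra hcon
      apply ha
      apply Subtype.ext
      exact hTI _ hcon a a.2 (by rw [h4]; exact a'.2)
    have h6 : q' = q := by
      rw [← QuotientGroup.out_eq' q', ← QuotientGroup.out_eq' q, QuotientGroup.eq]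
      exact h5
    subst h6
    have h7 : (a : G) = a' := by
      have := mul_right_cancel h3
      exact mul_left_cancel this
    have h8 : a = a' := Subtype.ext h7
    subst h8
    rfl
  · rintro ⟨x, hx1, k, hk⟩
    -- x = k⁻¹ z k
    set q : G ⧸ N := QuotientGroup.mk k⁻¹ with hq
    have h3 : (k⁻¹)⁻¹ * q.out ∈ N := by
      rw [← QuotientGroup.eq, hq, QuotientGroup.out_eq']
    rw [inv_inv] at h3
    have h4 : (k * q.out)⁻¹ * (k * x * k⁻¹) * (k * q.out)⁻¹⁻¹ ∈ H :=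
      (Subgroup.mem_normalizer_iff.mp (N.inv_mem h3) _).mp hk
    have h5 : (k * q.out)⁻¹ * (k * x * k⁻¹) * (k * q.out)⁻¹⁻¹ = q.out⁻¹ * x * q.out := by group
    rw [h5] at h4
    refine ⟨⟨q, ⟨⟨q.out⁻¹ * x * q.out, h4⟩, ?_⟩⟩, ?_⟩
    · intro h
      apply hx1
      have h6 : q.out⁻¹ * x * q.out = 1 := congrArg Subtype.val h
      have : x = q.out * (q.out⁻¹ * x * q.out) * q.out⁻¹ := by group
      rw [this, h6]; simp
    · apply Subtype.ext
      show q.out * (q.out⁻¹ * x * q.out) * q.out⁻¹ = x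
      group

end Cfsg.Agent.Lib.Helper21
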