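import Mathlib

set_option autoImplicit false

namespace Cfsg.Agent.Lib.Helper21

open scoped Function in
/-- A finite abelian non-cyclic group has two "independent" characters mod some prime. -/
theorem exists_two_chars {G : Type*} [CommGroup G] [Finite G] (hG : ¬ IsCyclic G) :
    ∃ (p : ℕ) (_ : p.Prime) (f₁ f₂ : Additive G →+ ZMod p) (g h : Additive G),
      f₁ g = 1 ∧ f₂ g = 0 ∧ f₂ h = 1 := by
  classical
  obtain ⟨ι, _, n, hn, ⟨e⟩⟩ := CommGroup.equiv_prod_multiplicative_zmod_of_finite G
  by_cases hcop : Pairwise (Nat.Coprime on n)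
  · exfalso
    apply hG
    let e2 : Multiplicative (ZMod (∏ i, n i)) ≃* G :=
      ((AddEquiv.toMultiplicative (ZMod.prodEquivPi n hcop).toAddEquiv).trans
        (MulEquiv.piMultiplicative _)).trans e.symm
    exact isCyclic_of_surjective e2 e2.surjective
  · rw [Pairwise] at hcop
    push_neg at hcop
    obtain ⟨i, j, hij, hc⟩ := hcop
    obtain ⟨p, hp, hpi, hpj⟩ := Nat.Prime.not_coprime_iff_dvd.mp hc
    let f₁ : Additive G →+ ZMod p := (ZMod.castHom hpi (ZMod p)).toAddMonoidHom.comp
      (MonoidHom.toAdditiveLeft ((Pi.evalMonoidHom (fun i => Multiplicative (ZMod (n i))) i).comp e.toMonoidHom))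
    let f₂ : Additive G →+ ZMod p := (ZMod.castHom hpj (ZMod p)).toAddMonoidHom.comp
      (MonoidHom.toAdditiveLeft ((Pi.evalMonoidHom (fun i => Multiplicative (ZMod (n i))) j).comp e.toMonoidHom))
    refine ⟨p, hp, f₁, f₂, Additive.ofMul (e.symm (Pi.mulSingle i (Multiplicative.ofAdd 1))),
      Additive.ofMul (e.symm (Pi.mulSingle j (Multiplicative.ofAdd 1))), ?_, ?_, ?_⟩
    · change (ZMod.castHom hpi (ZMod p)) (Multiplicative.toAdd
        ((e (e.symm (Pi.mulSingle i (Multiplicative.ofAdd 1)))) i)) = 1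
      rw [MulEquiv.apply_symm_apply, Pi.mulSingle_eq_same]
      exact map_one _
    · change (ZMod.castHom hpj (ZMod p)) (Multiplicative.toAdd
        ((e (e.symm (Pi.mulSingle i (Multiplicative.ofAdd 1)))) j)) = 0
      rw [MulEquiv.apply_symm_apply, Pi.mulSingle_eq_of_ne hij.symm]
      exact map_zero _
    · change (ZMod.castHom hpj (ZMod p)) (Multiplicative.toAdd
        ((e (e.symm (Pi.mulSingle j (Multiplicative.ofAdd 1)))) j)) = 1
      rw [MulEquiv.apply_symm_apply, Pi.mulSingle_eq_same]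
      exact map_one _

end Cfsg.Agent.Lib.Helper21
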